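/-
Compatible systems of lifts of Eichler transformations to a group over `EQ Q`, and the Weyl
elements built from them.
-/
import Mathlib
import Cfsg.Agent.Classical.OrthEichler

set_option autoImplicit false
set_option linter.unusedSectionVars false

namespace Cfsg.Agent.CentralExt.MinusMult

open Cfsg.Agent.Classical QuadraticMap

universe u v w

variable {F : Type u} [Field F] {V : Type v} [AddCommGroup V] [Module F V]
  {Q : QuadraticForm F V} {E : Type w} [Group E]

/-- The action on the space through a homomorphism to `EQ Q`. -/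
def act (τ : E →* EQ Q) : E →* (V ≃ₗ[F] V) :=
  ((OQ Q).subtype.comp (EQ Q).subtype).comp τ

theorem act_Q (τ : E →* EQ Q) (x : E) (v : V) : Q (act τ x v) = Q v :=
  (τ x : OQ Q).2 v

theorem act_polar (τ : E →* EQ Q) (x : E) (u v : V) :
    polar Q (act τ x u) (act τ x v) = polar Q u v :=
  OQ_polar (τ x : OQ Q) u v

theorem act_mul_apply (τ : E →* EQ Q) (x y : E) (v : V) :
    act τ (x * y) v = act τ x (act τ y v) := by
  rw [map_mul]; rfl

theorem act_inv_apply (τ : E →* EQ Q) (x : E) (v : V) :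
    act τ x⁻¹ (act τ x v) = v := by
  rw [← act_mul_apply, inv_mul_cancel, map_one]; rfl

/-- A compatible system of lifts of the Eichler transformations. -/
structure Sys (τ : E →* EQ Q) where
  /-- The lift of the transformation attached to `u` and `a`. -/
  s : V → V → E
  map : ∀ {u a : V} (hu : Q u = 0) (ha : polar Q u a = 0),
    τ (s u a) = ⟨siegel Q hu ha, siegel_mem_EQ Q hu ha⟩
  add : ∀ {u a b : V}, Q u = 0 → polar Q u a = 0 → polar Q u b = 0 →
    s u (a + b) = s u a * s u b
  conj : ∀ (x : E) {u a : V}, Q u = 0 → polar Q u a = 0 →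
    x * s u a * x⁻¹ = s (act τ x u) (act τ x a)
  smul : ∀ (c : F) {u a : V}, Q u = 0 → polar Q u a = 0 → s (c • u) a = s u (c • a)
  addSelf : ∀ (k : F) {u a : V}, Q u = 0 → polar Q u a = 0 → s u (a + k • u) = s u a
  swap : ∀ {u a : V}, Q u = 0 → Q a = 0 → polar Q u a = 0 → s u a = s a (-u)

namespace Sys

variable {τ : E →* EQ Q} (S : Sys τ)

theorem act_s {u a : V} (hu : Q u = 0) (ha : polar Q u a = 0) (v : V) :
    act τ (S.s u a) v =
      v + polar Q u v • a - polar Q a v • u - (Q a * polar Q u v) • u := by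
  show (τ (S.s u a) : OQ Q).1 v = _
  rw [S.map hu ha]
  exact siegel_apply Q hu ha v

theorem s_zero {u : V} (hu : Q u = 0) : S.s u 0 = 1 := by
  have h := S.add hu (polar_zero_right Q u) (polar_zero_right Q u)
  rw [add_zero] at h
  exact left_eq_mul.mp h

theorem s_neg {u a : V} (hu : Q u = 0) (ha : polar Q u a = 0) :
    S.s u (-a) = (S.s u a)⁻¹ := by
  refine eq_inv_of_mul_eq_one_left ?_
  rw [← S.add hu (by rw [polar_neg_right, ha, neg_zero]) ha, neg_add_cancel, S.s_zero hu]

theorem s_smul_self {u : V} (hu : Q u = 0) (k : F) : S.s u (k • u) = 1 := by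
  rw [← zero_add (k • u), S.addSelf k hu (polar_zero_right Q u), S.s_zero hu]

theorem s_left_zero {a : V} : S.s 0 a = 1 := by
  have h := S.smul (0 : F) (u := (0 : V)) (a := a) (QuadraticMap.map_zero _) (polar_zero_left Q a)
  rw [zero_smul, zero_smul, S.s_zero (QuadraticMap.map_zero _)] at h
  exact h

/-- Moving a lift past an element. -/
theorem mul_s (x : E) {u a : V} (hu : Q u = 0) (ha : polar Q u a = 0) :
    x * S.s u a = S.s (act τ x u) (act τ x a) * x := by
  rw [← S.conj x hu ha, inv_mul_cancel_right]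

/-! ### The long Weyl element -/

/-- The Weyl element exchanging the lines of `e` and `e'`. -/
def nl (e f e' f' : V) (t : F) : E :=
  S.s e (t • f') * S.s e' (-t⁻¹ • f) * S.s e (t • f')

section long

variable {e f e' f' : V} (h : TwoPairs Q e f e' f') (t : F)

include h

theorem polar_facts :
    Q e = 0 ∧ Q f = 0 ∧ Q e' = 0 ∧ Q f' = 0 ∧ polar Q e f = 1 ∧ polar Q e' f' = 1 ∧
    polar Q e e' = 0 ∧ polar Q e f' = 0 ∧ polar Q f e' = 0 ∧ polar Q f f' = 0 ∧
    polar Q e e = 0 ∧ polar Q f f = 0 ∧ polar Q e' e' = 0 ∧ polar Q f' f' = 0 ∧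
    polar Q f e = 1 ∧ polar Q f' e' = 1 ∧ polar Q e' e = 0 ∧ polar Q f' e = 0 ∧
    polar Q e' f = 0 ∧ polar Q f' f = 0 := by
  obtain ⟨⟨a1, a2, a3⟩, ⟨b1, b2, b3⟩, c1, c2, c3, c4⟩ := h
  exact ⟨a1, a2, b1, b2, a3, b3, c1, c2, c3, c4, by rw [polar_self, a1, smul_zero],
    by rw [polar_self, a2, smul_zero], by rw [polar_self, b1, smul_zero],
    by rw [polar_self, b2, smul_zero], by rw [polar_comm, a3], by rw [polar_comm, b3],
    by rw [polar_comm, c1], by rw [polar_comm, c2], by rw [polar_comm, c3],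
    by rw [polar_comm, c4]⟩

theorem act_x (v : V) :
    act τ (S.s e (t • f')) v = v + (t * polar Q e v) • f' - (t * polar Q f' v) • e := by
  obtain ⟨a1, a2, b1, b2, a3, b3, c1, c2, c3, c4, ee, ff, ee', ff', fe, f'e', e'e, f'e, e'f, f'f⟩ :=
    polar_facts h
  rw [S.act_s a1 (by rw [polar_smul_right, c2, smul_zero]), polar_smul_left,
    QuadraticMap.map_smul, b2]
  simp only [smul_eq_mul, mul_zero, zero_mul, zero_smul, sub_zero]
  module

theorem act_xm (r : F) (v : V) :
    act τ (S.s e' (r • f)) v = v + (r * polar Q e' v) • f - (r * polar Q f v) • e' := by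
  obtain ⟨a1, a2, b1, b2, a3, b3, c1, c2, c3, c4, ee, ff, ee', ff', fe, f'e', e'e, f'e, e'f, f'f⟩ :=
    polar_facts h
  rw [S.act_s b1 (by rw [polar_smul_right, e'f, smul_zero]), polar_smul_left,
    QuadraticMap.map_smul, a2]
  simp only [smul_eq_mul, mul_zero, zero_mul, zero_smul, sub_zero]
  module

theorem nl_e (ht : t ≠ 0) : act τ (S.nl e f e' f' t) e = t⁻¹ • e' := by
  obtain ⟨a1, a2, b1, b2, a3, b3, c1, c2, c3, c4, ee, ff, ee', ff', fe, f'e', e'e, f'e, e'f, f'f⟩ :=
    polar_facts h
  simp only [nl, act_mul_apply, S.act_x h, S.act_xm h, polar_add_right, polar_sub_right,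
    polar_smul_right, polar_neg_right, smul_eq_mul, a3, b3, c1, c2, c3, c4, ee, ff, ee', ff', fe,
    f'e', e'e, f'e, e'f, f'f]
  match_scalars <;> field_simp <;> ring

theorem nl_e' (ht : t ≠ 0) : act τ (S.nl e f e' f' t) e' = -t • e := by
  obtain ⟨a1, a2, b1, b2, a3, b3, c1, c2, c3, c4, ee, ff, ee', ff', fe, f'e', e'e, f'e, e'f, f'f⟩ :=
    polar_facts h
  simp only [nl, act_mul_apply, S.act_x h, S.act_xm h, polar_add_right, polar_sub_right,
    polar_smul_right, polar_neg_right, smul_eq_mul, a3, b3, c1, c2, c3, c4, ee, ff, ee', ff', fe,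
    f'e', e'e, f'e, e'f, f'f]
  match_scalars <;> field_simp <;> ring

theorem nl_f (ht : t ≠ 0) : act τ (S.nl e f e' f' t) f = t • f' := by
  obtain ⟨a1, a2, b1, b2, a3, b3, c1, c2, c3, c4, ee, ff, ee', ff', fe, f'e', e'e, f'e, e'f, f'f⟩ :=
    polar_facts h
  simp only [nl, act_mul_apply, S.act_x h, S.act_xm h, polar_add_right, polar_sub_right,
    polar_smul_right, polar_neg_right, smul_eq_mul, a3, b3, c1, c2, c3, c4, ee, ff, ee', ff', fe,
    f'e', e'e, f'e, e'f, f'f]
  match_scalars <;> field_simp <;> ring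

theorem nl_f' (ht : t ≠ 0) : act τ (S.nl e f e' f' t) f' = -t⁻¹ • f := by
  obtain ⟨a1, a2, b1, b2, a3, b3, c1, c2, c3, c4, ee, ff, ee', ff', fe, f'e', e'e, f'e, e'f, f'f⟩ :=
    polar_facts h
  simp only [nl, act_mul_apply, S.act_x h, S.act_xm h, polar_add_right, polar_sub_right,
    polar_smul_right, polar_neg_right, smul_eq_mul, a3, b3, c1, c2, c3, c4, ee, ff, ee', ff', fe,
    f'e', e'e, f'e, e'f, f'f]
  match_scalars <;> field_simp <;> ring

theorem nl_fix {v : V} (h1 : polar Q e v = 0) (h2 : polar Q f v = 0) (h3 : polar Q e' v = 0)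
    (h4 : polar Q f' v = 0) : act τ (S.nl e f e' f' t) v = v := by
  simp only [nl, act_mul_apply, S.act_x h, S.act_xm h, h1, h2, h3, h4, mul_zero, zero_smul,
    add_zero, sub_zero]

/-- The Weyl element written with the opposite root elements outside. -/
theorem nl_eq (ht : t ≠ 0) : S.nl e f e' f' t =
    S.s e' (-t⁻¹ • f) * S.s e (t • f') * S.s e' (-t⁻¹ • f) := by
  obtain ⟨a1, a2, b1, b2, a3, b3, c1, c2, c3, c4, ee, ff, ee', ff', fe, f'e', e'e, f'e, e'f, f'f⟩ :=
    polar_facts h
  have hx : polar Q e (t • f') = 0 := by rw [polar_smul_right, c2, smul_zero]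
  have hy : polar Q e' (-t⁻¹ • f) = 0 := by rw [polar_smul_right, e'f, smul_zero]
  have k1 : S.nl e f e' f' t * S.s e (t • f') * (S.nl e f e' f' t)⁻¹ =
      S.s e' (-t⁻¹ • f) := by
    rw [S.conj _ a1 hx, map_smul, S.nl_e h t ht, S.nl_f' h t ht,
      S.smul _ b1 (by rw [polar_smul_right, polar_smul_right, e'f, smul_zero, smul_zero])]
    congr 1
    rw [smul_smul, smul_smul]
    congr 1
    field_simp
  have k2 : S.nl e f e' f' t * S.s e' (-t⁻¹ • f) * (S.nl e f e' f' t)⁻¹ =
      S.s e (t • f') := by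
    rw [S.conj _ b1 hy, map_smul, S.nl_e' h t ht, S.nl_f h t ht,
      S.smul _ a1 (by rw [polar_smul_right, polar_smul_right, c2, smul_zero, smul_zero])]
    congr 1
    rw [smul_smul, smul_smul]
    congr 1
    field_simp
  calc S.nl e f e' f' t
      = S.nl e f e' f' t * S.nl e f e' f' t * (S.nl e f e' f' t)⁻¹ := by group
    _ = S.nl e f e' f' t * (S.s e (t • f') * S.s e' (-t⁻¹ • f) * S.s e (t • f')) *
          (S.nl e f e' f' t)⁻¹ := rfl
    _ = (S.nl e f e' f' t * S.s e (t • f') * (S.nl e f e' f' t)⁻¹) *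
          (S.nl e f e' f' t * S.s e' (-t⁻¹ • f) * (S.nl e f e' f' t)⁻¹) *
          (S.nl e f e' f' t * S.s e (t • f') * (S.nl e f e' f' t)⁻¹) := by group
    _ = _ := by rw [k1, k2]

theorem nl_inv : (S.nl e f e' f' t)⁻¹ = S.nl e f e' f' (-t) := by
  obtain ⟨a1, a2, b1, b2, a3, b3, c1, c2, c3, c4, ee, ff, ee', ff', fe, f'e', e'e, f'e, e'f, f'f⟩ :=
    polar_facts h
  have hx : polar Q e (t • f') = 0 := by rw [polar_smul_right, c2, smul_zero]
  have hy : polar Q e' (-t⁻¹ • f) = 0 := by rw [polar_smul_right, e'f, smul_zero]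
  simp only [nl, mul_inv_rev, ← S.s_neg a1 hx, ← S.s_neg b1 hy, inv_neg, neg_neg, ← neg_smul,
    mul_assoc]

end long

/-- Conjugation carries long Weyl elements to long Weyl elements. -/
theorem conj_nl (x : E) {e f e' f' : V} (h : TwoPairs Q e f e' f') (t : F) :
    x * S.nl e f e' f' t * x⁻¹ =
      S.nl (act τ x e) (act τ x f) (act τ x e') (act τ x f') t := by
  obtain ⟨a1, a2, b1, b2, a3, b3, c1, c2, c3, c4, ee, ff, ee', ff', fe, f'e', e'e, f'e, e'f, f'f⟩ :=
    polar_facts h
  have hx : polar Q e (t • f') = 0 := by rw [polar_smul_right, c2, smul_zero]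
  have hy : polar Q e' (-t⁻¹ • f) = 0 := by rw [polar_smul_right, e'f, smul_zero]
  calc x * S.nl e f e' f' t * x⁻¹
      = (x * S.s e (t • f') * x⁻¹) * (x * S.s e' (-t⁻¹ • f) * x⁻¹) *
          (x * S.s e (t • f') * x⁻¹) := by rw [nl]; group
    _ = _ := by rw [S.conj x a1 hx, S.conj x b1 hy, map_smul, map_smul]; rfl

/-! ### The short Weyl element -/

/-- The Weyl element exchanging the lines of `e` and `f`, attached to an anisotropic `w`. -/
def ns (e f w : V) : E := S.s e w * S.s f ((Q w)⁻¹ • w) * S.s e w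

section short

variable {e f w : V} (h : IsPair Q e f) (he : polar Q e w = 0) (hf : polar Q f w = 0)
  (hw : Q w ≠ 0)

include h he hf

theorem act_xs (v : V) :
    act τ (S.s e w) v = v + polar Q e v • w - polar Q w v • e - (Q w * polar Q e v) • e :=
  S.act_s h.1 he v

include hw in
theorem act_xsm (v : V) :
    act τ (S.s f ((Q w)⁻¹ • w)) v = v + ((Q w)⁻¹ * polar Q f v) • w -
      ((Q w)⁻¹ * polar Q w v) • f - ((Q w)⁻¹ * polar Q f v) • f := by
  rw [S.act_s h.2.1 (by rw [polar_smul_right, hf, smul_zero]), polar_smul_left,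
    QuadraticMap.map_smul, smul_smul]
  simp only [smul_eq_mul]
  match_scalars <;> field_simp

include hw in
theorem ns_e : act τ (S.ns e f w) e = -(Q w)⁻¹ • f := by
  have hee : polar Q e e = 0 := by rw [polar_self, h.1, smul_zero]
  have hff : polar Q f f = 0 := by rw [polar_self, h.2.1, smul_zero]
  have hfe : polar Q f e = 1 := by rw [polar_comm]; exact h.2.2
  have hwe : polar Q w e = 0 := by rw [polar_comm]; exact he
  have hwf : polar Q w f = 0 := by rw [polar_comm]; exact hf
  have hww : polar Q w w = 2 * Q w := by rw [polar_self]; simp [two_mul]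
  simp only [ns, act_mul_apply, S.act_xs h he hf, S.act_xsm h he hf hw, polar_add_right,
    polar_sub_right, polar_smul_right, smul_eq_mul, h.2.2, he, hf, hee, hff, hfe, hwe, hwf, hww]
  match_scalars <;> field_simp <;> ring

include hw in
theorem ns_f : act τ (S.ns e f w) f = -Q w • e := by
  have hee : polar Q e e = 0 := by rw [polar_self, h.1, smul_zero]
  have hff : polar Q f f = 0 := by rw [polar_self, h.2.1, smul_zero]
  have hfe : polar Q f e = 1 := by rw [polar_comm]; exact h.2.2
  have hwe : polar Q w e = 0 := by rw [polar_comm]; exact he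
  have hwf : polar Q w f = 0 := by rw [polar_comm]; exact hf
  have hww : polar Q w w = 2 * Q w := by rw [polar_self]; simp [two_mul]
  simp only [ns, act_mul_apply, S.act_xs h he hf, S.act_xsm h he hf hw, polar_add_right,
    polar_sub_right, polar_smul_right, smul_eq_mul, h.2.2, he, hf, hee, hff, hfe, hwe, hwf, hww]
  match_scalars <;> field_simp <;> ring

include hw in
/-- The short Weyl element reflects the orthogonal complement of the pair in `w`. -/
theorem ns_perp {v : V} (h1 : polar Q e v = 0) (h2 : polar Q f v = 0) :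
    act τ (S.ns e f w) v = v - (polar Q w v / Q w) • w := by
  have hee : polar Q e e = 0 := by rw [polar_self, h.1, smul_zero]
  have hff : polar Q f f = 0 := by rw [polar_self, h.2.1, smul_zero]
  have hfe : polar Q f e = 1 := by rw [polar_comm]; exact h.2.2
  have hwe : polar Q w e = 0 := by rw [polar_comm]; exact he
  have hwf : polar Q w f = 0 := by rw [polar_comm]; exact hf
  have hww : polar Q w w = 2 * Q w := by rw [polar_self]; simp [two_mul]
  simp only [ns, act_mul_apply, S.act_xs h he hf, S.act_xsm h he hf hw, polar_add_right,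
    polar_sub_right, polar_smul_right, smul_eq_mul, h.2.2, he, hf, hee, hff, hfe, hwe, hwf, hww,
    h1, h2]
  match_scalars <;> field_simp <;> ring

include hw in
/-- The short Weyl element written with the opposite root elements outside. -/
theorem ns_eq : S.ns e f w =
    S.s f ((Q w)⁻¹ • w) * S.s e w * S.s f ((Q w)⁻¹ • w) := by
  have hy : polar Q f ((Q w)⁻¹ • w) = 0 := by rw [polar_smul_right, hf, smul_zero]
  have hww : polar Q w w = 2 * Q w := by rw [polar_self]; simp [two_mul]
  have hnw : act τ (S.ns e f w) w = -w := by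
    rw [S.ns_perp h he hf hw he hf, hww]
    match_scalars
    field_simp
    ring
  have k1 : S.ns e f w * S.s e w * (S.ns e f w)⁻¹ = S.s f ((Q w)⁻¹ • w) := by
    rw [S.conj _ h.1 he, S.ns_e h he hf hw, hnw,
      S.smul _ h.2.1 (by rw [polar_neg_right, hf, neg_zero])]
    congr 1
    module
  have k2 : S.ns e f w * S.s f ((Q w)⁻¹ • w) * (S.ns e f w)⁻¹ = S.s e w := by
    rw [S.conj _ h.2.1 hy, S.ns_f h he hf hw, map_smul, hnw,
      S.smul _ h.1 (by rw [polar_smul_right, polar_neg_right, he, neg_zero, smul_zero])]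
    congr 1
    match_scalars
    field_simp
  calc S.ns e f w
      = S.ns e f w * S.ns e f w * (S.ns e f w)⁻¹ := by group
    _ = S.ns e f w * (S.s e w * S.s f ((Q w)⁻¹ • w) * S.s e w) * (S.ns e f w)⁻¹ := rfl
    _ = (S.ns e f w * S.s e w * (S.ns e f w)⁻¹) *
          (S.ns e f w * S.s f ((Q w)⁻¹ • w) * (S.ns e f w)⁻¹) *
          (S.ns e f w * S.s e w * (S.ns e f w)⁻¹) := by group
    _ = _ := by rw [k1, k2]

theorem ns_inv : (S.ns e f w)⁻¹ = S.ns e f (-w) := by
  have hy : polar Q f ((Q w)⁻¹ • w) = 0 := by rw [polar_smul_right, hf, smul_zero]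
  simp only [ns, mul_inv_rev, ← S.s_neg h.1 he, ← S.s_neg h.2.1 hy, QuadraticMap.map_neg,
    smul_neg, mul_assoc]

end short

/-- Conjugation carries short Weyl elements to short Weyl elements. -/
theorem conj_ns (x : E) {e f w : V} (h : IsPair Q e f) (he : polar Q e w = 0)
    (hf : polar Q f w = 0) :
    x * S.ns e f w * x⁻¹ = S.ns (act τ x e) (act τ x f) (act τ x w) := by
  have hy : polar Q f ((Q w)⁻¹ • w) = 0 := by rw [polar_smul_right, hf, smul_zero]
  calc x * S.ns e f w * x⁻¹
      = (x * S.s e w * x⁻¹) * (x * S.s f ((Q w)⁻¹ • w) * x⁻¹) * (x * S.s e w * x⁻¹) := by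
        rw [ns]; group
    _ = _ := by rw [S.conj x h.1 he, S.conj x h.2.1 hy, map_smul, ns, act_Q]

end Sys

end Cfsg.Agent.CentralExt.MinusMult
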