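/-
Elements acting as Eichler transformations in a group over `EQ Q`, and the standing hypotheses on
the space.
-/
import Cfsg.Agent.CentralExt.MinusMult.Sys
import Cfsg.Agent.CentralExt.OrthMult.Comm

set_option autoImplicit false
set_option linter.unusedSectionVars false

namespace Cfsg.Agent.CentralExt.MinusMult

open Cfsg.Agent.Classical Cfsg.Agent.OrthGen QuadraticMap Module
open scoped commutatorElement

universe u v w

variable {F : Type u} [Field F] {V : Type v} [AddCommGroup V] [Module F V]
  {Q : QuadraticForm F V} {E : Type w} [Group E]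

/-- `x` acts as the Eichler transformation attached to `u` and `a`. -/
def Is (τ : E →* EQ Q) (x : E) (u a : V) : Prop :=
  Q u = 0 ∧ polar Q u a = 0 ∧
    ∀ v, act τ x v = v + polar Q u v • a - polar Q a v • u - (Q a * polar Q u v) • u

variable {τ : E →* EQ Q}

theorem act_injective {x y : E} (h : ∀ v, act τ x v = act τ y v) : τ x = τ y :=
  Subtype.ext (Subtype.ext (LinearEquiv.ext h))

theorem act_one (v : V) : act τ 1 v = v := by rw [map_one]; rfl

theorem pol_self {u : V} (h : Q u = 0) : polar Q u u = 0 := by rw [polar_self, h, smul_zero]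

namespace Is

theorem eq {x y : E} {u a : V} (hx : Is τ x u a) (hy : Is τ y u a) : τ x = τ y :=
  act_injective fun v => (hx.2.2 v).trans (hy.2.2 v).symm

theorem of_tau {x y : E} {u a : V} (hx : Is τ x u a) (h : τ y = τ x) : Is τ y u a :=
  ⟨hx.1, hx.2.1, fun v => (congrArg (fun g : EQ Q => (g : OQ Q).1 v) h).trans (hx.2.2 v)⟩

theorem one {u : V} (hu : Q u = 0) (k : F) : Is τ (1 : E) u (k • u) :=
  ⟨hu, by rw [polar_smul_right, pol_self hu, smul_zero], fun v => by
    rw [act_one, QuadraticMap.map_smul, hu, polar_smul_left, smul_zero, zero_mul, zero_smul,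
      sub_zero, smul_smul, smul_eq_mul, mul_comm (polar Q u v) k, add_sub_cancel_right]⟩

theorem zero_left {a : V} : Is τ (1 : E) 0 a :=
  ⟨QuadraticMap.map_zero _, polar_zero_left Q a, fun v => by
    rw [act_one, polar_zero_left Q v, zero_smul, smul_zero, smul_zero, add_zero, sub_zero, sub_zero]⟩

theorem mul {x y : E} {u a b : V} (hx : Is τ x u a) (hy : Is τ y u b) :
    Is τ (x * y) u (a + b) := by
  obtain ⟨hu, ha, ex⟩ := hx
  obtain ⟨-, hb, ey⟩ := hy
  refine ⟨hu, by rw [polar_add_right, ha, hb, add_zero], fun v => ?_⟩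
  rw [act_mul_apply, ey, ex]
  simp only [polar_add_right, polar_sub_right, polar_smul_right, polar_add_left, smul_eq_mul,
    qf_add, pol_self hu, hb, ha, polar_comm Q a u]
  module

theorem inv {x : E} {u a : V} (hx : Is τ x u a) : Is τ x⁻¹ u (-a) := by
  obtain ⟨hu, ha, ex⟩ := hx
  refine ⟨hu, by rw [polar_neg_right, ha, neg_zero], fun v => ?_⟩
  have key : v = act τ x (v + polar Q u v • -a - polar Q (-a) v • u -
      (Q (-a) * polar Q u v) • u) := by
    rw [ex]
    simp only [polar_add_right, polar_sub_right, polar_smul_right, polar_neg_left, polar_neg_right,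
      smul_eq_mul, QuadraticMap.map_neg, pol_self hu, ha, polar_comm Q a u, polar_self, two_nsmul,
      smul_neg]
    module
  conv_lhs => rw [key]
  exact act_inv_apply τ x _

theorem conj {x : E} {u a : V} (hx : Is τ x u a) (g : E) :
    Is τ (g * x * g⁻¹) (act τ g u) (act τ g a) := by
  obtain ⟨hu, ha, ex⟩ := hx
  refine ⟨by rw [act_Q, hu], by rw [act_polar, ha], fun v => ?_⟩
  have hv : v = act τ g (act τ g⁻¹ v) := by
    rw [← act_mul_apply, mul_inv_cancel, act_one]
  rw [act_mul_apply, act_mul_apply, ex]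
  conv_rhs => rw [hv]
  simp only [map_add, map_sub, map_smul, act_polar, act_Q]

theorem smul {x : E} {u a : V} (c : F) (hu : Q u = 0) (ha : polar Q u a = 0)
    (hx : Is τ x (c • u) a) : Is τ x u (c • a) :=
  ⟨hu, by rw [polar_smul_right, ha, smul_zero], fun v => by
    rw [hx.2.2 v]
    simp only [polar_smul_left, QuadraticMap.map_smul, smul_eq_mul]
    module⟩

theorem smul' {x : E} {u a : V} (c : F) (hu : Q u = 0) (ha : polar Q u a = 0)
    (hx : Is τ x u (c • a)) : Is τ x (c • u) a :=
  ⟨by rw [QuadraticMap.map_smul, hu, smul_zero], by rw [polar_smul_left, ha, smul_zero], fun v => by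
    rw [hx.2.2 v]
    simp only [polar_smul_left, QuadraticMap.map_smul, smul_eq_mul]
    module⟩

theorem addSelf {x : E} {u a : V} (hx : Is τ x u a) (k : F) : Is τ x u (a + k • u) :=
  ⟨hx.1, by rw [polar_add_right, hx.2.1, polar_smul_right, pol_self hx.1, smul_zero, add_zero],
    fun v => by
      rw [hx.2.2 v]
      simp only [qf_add, QuadraticMap.map_smul, polar_add_left, polar_smul_left, polar_smul_right,
        polar_comm Q a u, hx.2.1, hx.1, smul_eq_mul]
      module⟩

theorem swap {x : E} {u a : V} (hx : Is τ x u a) (ha : Q a = 0) : Is τ x a (-u) :=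
  ⟨ha, by rw [polar_neg_right, polar_comm, hx.2.1, neg_zero], fun v => by
    rw [hx.2.2 v]
    simp only [ha, QuadraticMap.map_neg, hx.1, polar_neg_left, smul_neg, zero_mul, zero_smul,
      sub_zero, neg_smul]
    abel⟩

/-- What an Eichler transformation fixes. -/
theorem fix {x : E} {u a v : V} (hx : Is τ x u a) (h1 : polar Q u v = 0) (h2 : polar Q a v = 0) :
    act τ x v = v := by
  rw [hx.2.2 v, h1, h2]; simp

theorem fix_self {x : E} {u a : V} (hx : Is τ x u a) : act τ x u = u := by
  refine hx.fix (pol_self hx.1) ?_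
  rw [polar_comm]; exact hx.2.1

/-- Conjugation fixing the data fixes the transformation. -/
theorem tau_conj {x : E} {u a : V} (hx : Is τ x u a) {g : E} {k : F}
    (h1 : act τ g u = u) (h2 : act τ g a = a + k • u) : τ (g * x * g⁻¹) = τ x := by
  have e := hx.conj g
  rw [h1, h2] at e
  exact e.eq (hx.addSelf k)

end Is

/-- Commutators of lifts do not depend on the lifts. -/
theorem comm_indep {G : Type*} [Group G] {π : E →* G} (hc : π.ker ≤ Subgroup.center E)
    {x x' y y' : E} (hx : π x = π x') (hy : π y = π y') : ⁅x, y⁆ = ⁅x', y'⁆ :=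
  OrthMult.comm_eq hc hx hy

/-- Conjugation by an element commuting modulo the kernel with `a` and `b` fixes `⁅a, b⁆`. -/
theorem commute_decomp {G : Type*} [Group G] {π : E →* G} (hc : π.ker ≤ Subgroup.center E)
    {x a b z : E} (ha : π (x * a * x⁻¹) = π a) (hb : π (x * b * x⁻¹) = π b)
    (hz : π z = π ⁅a, b⁆) : Commute x z := by
  have h1 : x * ⁅a, b⁆ * x⁻¹ = ⁅a, b⁆ := by
    rw [conjugate_commutatorElement]
    exact comm_indep hc ha hb
  have hd : Commute x (⁅a, b⁆⁻¹ * z) :=
    Subgroup.mem_center_iff.1 (hc (by rw [MonoidHom.mem_ker, map_mul, map_inv, hz, inv_mul_cancel])) x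
  have h2 : Commute x ⁅a, b⁆ := mul_inv_eq_iff_eq_mul.1 h1
  have := h2.mul_right hd
  rwa [mul_inv_cancel_left] at this

/-- The standing hypotheses on the space. -/
structure Amb (Q : QuadraticForm F V) : Prop where
  bn : BNondeg Q
  dim : 8 ≤ finrank F V
  witt : finrank F V = 8 → ∀ {a b c z : V}, LinearIndependent F ![a, b, c] → Q a = 0 → Q b = 0 →
    Q c = 0 → Q z = 0 → polar Q a b = 0 → polar Q a c = 0 → polar Q b c = 0 → polar Q z a = 0 →
    polar Q z b = 0 → polar Q z c = 0 → ∃ α β γ : F, z = α • a + β • b + γ • c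

/-- The standing hypotheses on the extension. -/
structure Ext (τ : E →* EQ Q) : Prop where
  amb : Amb Q
  surj : Function.Surjective τ
  central : τ.ker ≤ Subgroup.center E

namespace Ext

variable (hE : Ext τ)
include hE

theorem exists_is {u a : V} (hu : Q u = 0) (ha : polar Q u a = 0) : ∃ x, Is τ x u a := by
  obtain ⟨x, hx⟩ := hE.surj ⟨siegel Q hu ha, siegel_mem_EQ Q hu ha⟩
  exact ⟨x, hu, ha, fun v => by
    show (τ x : OQ Q).1 v = _
    rw [hx]; exact siegel_apply Q hu ha v⟩

open _root_.Classical in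
/-- A lift of an Eichler transformation. -/
noncomputable def L (u a : V) : E :=
  if h : Q u = 0 ∧ polar Q u a = 0 then (hE.exists_is h.1 h.2).choose else 1

theorem L_is {u a : V} (hu : Q u = 0) (ha : polar Q u a = 0) : Is τ (hE.L u a) u a := by
  rw [L, dif_pos ⟨hu, ha⟩]
  exact (hE.exists_is hu ha).choose_spec

end Ext

namespace Amb

variable [FiniteDimensional F V] (hA : Amb Q)
include hA

/-- Few vectors either have a hyperbolic pair in their orthogonal or are mutually orthogonal. -/
theorem perp_pair_or {k : ℕ} (s : Fin k → V) (hk : 2 * k ≤ finrank F V) :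
    (∃ v v', polar Q v v' = 1 ∧ ∀ i, polar Q (s i) v = 0 ∧ polar Q (s i) v' = 0) ∨
      (2 * k = finrank F V ∧ ∀ i j, polar Q (s i) (s j) = 0) := by
  set T := Submodule.span F (Set.range s)
  set P := perpSub Q T
  by_cases h : ∃ v ∈ P, ∃ v' ∈ P, polar Q v v' ≠ 0
  · obtain ⟨v, hv, v', hv', h⟩ := h
    refine Or.inl ⟨v, (polar Q v v')⁻¹ • v',
      by rw [polar_smul_right, smul_eq_mul, inv_mul_cancel₀ h], fun i => ⟨?_, ?_⟩⟩
    · exact hv _ (Submodule.subset_span ⟨i, rfl⟩)
    · have h1 : polar Q (s i) v' = 0 := hv' _ (Submodule.subset_span ⟨i, rfl⟩)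
      rw [polar_smul_right, h1, smul_zero]
  · push Not at h
    have hPP : P ≤ perpSub Q P := fun x hx y hy => h y hy x hx
    have hTP : T ≤ perpSub Q P := fun x hx y hy => (polar_comm Q y x).trans (hy x hx)
    have e2 : finrank F P ≤ finrank F V - finrank F P :=
      (Submodule.finrank_mono hPP).trans (finrank_orthogonal_polar hA.bn P).le
    have e1 : finrank F P = finrank F V - finrank F T := finrank_orthogonal_polar hA.bn T
    have e3 : finrank F T ≤ k :=
      (finrank_range_le_card (R := F) s).trans_eq (Fintype.card_fin k)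
    have hPT : perpSub Q P = P :=
      (Submodule.eq_of_le_of_finrank_eq hPP (by rw [finrank_orthogonal_polar hA.bn P]; omega)).symm
    refine Or.inr ⟨by omega, fun i j => ?_⟩
    have hj : s j ∈ P := hPT ▸ hTP (Submodule.subset_span ⟨j, rfl⟩)
    exact hj _ (Submodule.subset_span ⟨i, rfl⟩)

theorem perp_pair {k : ℕ} (s : Fin k → V) (hk : 2 * k < finrank F V) :
    ∃ v v', polar Q v v' = 1 ∧ ∀ i, polar Q (s i) v = 0 ∧ polar Q (s i) v' = 0 := by
  rcases hA.perp_pair_or s hk.le with h | ⟨h, -⟩
  · exact h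
  · omega

theorem sub_pair {e y : V} (he : Q e = 0) (hy : polar Q e y = 1) :
    IsPair Q e (y - Q y • e) :=
  ⟨he, by rw [qf_sub, QuadraticMap.map_smul, he, polar_smul_right, polar_comm, hy]; simp,
    by rw [polar_sub_right, polar_smul_right, pol_self he, hy]; simp⟩

theorem li_cons {k : ℕ} {s : Fin k → V} (hs : LinearIndependent F s) {x y : V}
    (hy : ∀ i, polar Q (s i) y = 0) (hx : polar Q x y ≠ 0) :
    LinearIndependent F (Fin.cons x s : Fin (k + 1) → V) := by
  refine linearIndependent_fin_cons.2 ⟨hs, fun hmem => hx ?_⟩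
  have hle : Submodule.span F (Set.range s) ≤ LinearMap.ker (Q.polarBilin y) :=
    Submodule.span_le.2 (by
      rintro _ ⟨i, rfl⟩
      show polar Q y (s i) = 0
      rw [polar_comm, hy i])
  rw [polar_comm]
  exact hle hmem

variable [Finite F]

/-- A hyperbolic pair orthogonal to one or two independent vectors. -/
theorem exists_pair₂ {a b : V} (h : LinearIndependent F ![a, b]) :
    ∃ e f, IsPair Q e f ∧ polar Q a e = 0 ∧ polar Q b e = 0 ∧ polar Q a f = 0 ∧
      polar Q b f = 0 := by
  obtain ⟨a', ha'⟩ := OrthMult.exists_values hA.bn h ![1, 0]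
  obtain ⟨b', hb'⟩ := OrthMult.exists_values hA.bn h ![0, 1]
  obtain ⟨e, he0, he, hp⟩ := OrthMult.exists_perp_sing hA.bn ![a, b, a', b']
    (by have := hA.dim; omega)
  obtain ⟨y, hy⟩ : ∃ y, polar Q e y = 1 ∧ polar Q a y = 0 ∧ polar Q b y = 0 := by
    have hli : LinearIndependent F (Fin.cons e ![a, b] : Fin 3 → V) := by
      refine linearIndependent_fin_cons.2 ⟨h, fun hmem => he0 ?_⟩
      rw [Matrix.range_cons_cons_empty, Submodule.mem_span_pair] at hmem
      obtain ⟨α, β, e'⟩ := hmem
      have h1 : polar Q e a' = 0 := (polar_comm Q e a').trans (hp 2)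
      have h2 : polar Q e b' = 0 := (polar_comm Q e b').trans (hp 3)
      rw [← e', polar_add_left, polar_smul_left, polar_smul_left,
        show polar Q a a' = 1 from ha' 0, show polar Q b a' = 0 from ha' 1] at h1
      rw [← e', polar_add_left, polar_smul_left, polar_smul_left,
        show polar Q a b' = 0 from hb' 0, show polar Q b b' = 1 from hb' 1] at h2
      simp only [smul_eq_mul, mul_one, mul_zero, add_zero, zero_add] at h1 h2
      rw [← e', h1, h2, zero_smul, zero_smul, add_zero]
    obtain ⟨y, hy⟩ := OrthMult.exists_values hA.bn hli ![1, 0, 0]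
    exact ⟨y, hy 0, hy 1, hy 2⟩
  refine ⟨e, y - Q y • e, hA.sub_pair he hy.1, hp 0, hp 1, ?_, ?_⟩
  · rw [polar_sub_right, polar_smul_right, show polar Q a e = 0 from hp 0, hy.2.1]; simp
  · rw [polar_sub_right, polar_smul_right, show polar Q b e = 0 from hp 1, hy.2.2]; simp

end Amb

end Cfsg.Agent.CentralExt.MinusMult
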