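/-
Given a compatible system of lifts, the kernel of a central extension of `EQ Q` lies in the lifts
of a rank one subgroup.
-/
import Cfsg.Agent.CentralExt.MinusMult.Is

set_option autoImplicit false
set_option linter.unusedSectionVars false

namespace Cfsg.Agent.CentralExt.MinusMult

open Cfsg.Agent.Classical QuadraticMap

universe u v w

variable {F : Type u} [Field F] {V : Type v} [AddCommGroup V] [Module F V]
  {Q : QuadraticForm F V} {E : Type w} [Group E] {τ : E →* EQ Q}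

namespace Sys

variable (S : Sys τ)

theorem is_s {u a : V} (hu : Q u = 0) (ha : polar Q u a = 0) : Is τ (S.s u a) u a :=
  ⟨hu, ha, S.act_s hu ha⟩

theorem s_one (u : V) {a : V} (hu : Q u = 0) (h : a = 0) : S.s u a = 1 := h ▸ S.s_zero hu

theorem nl_scale (e f e' f' : V) (c t : F) (hc : c ≠ 0) (h : TwoPairs Q e f e' f') :
    S.nl (c • e) (c⁻¹ • f) e' f' t = S.nl e f e' f' (c * t) := by
  obtain ⟨a1, a2, b1, b2, a3, b3, c1, c2, c3, c4, -⟩ := polar_facts h
  have h1 : polar Q e (t • f') = 0 := by rw [polar_smul_right, c2, smul_zero]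
  simp only [nl, S.smul c a1 h1, smul_smul, mul_inv_rev]
  congr 4
  field_simp

theorem nl_scale' (e f e' f' : V) (c t : F) (hc : c ≠ 0) (h : TwoPairs Q e f e' f') :
    S.nl e f (c • e') (c⁻¹ • f') t = S.nl e f e' f' (t / c) := by
  obtain ⟨a1, a2, b1, b2, a3, b3, c1, c2, c3, c4, -⟩ := polar_facts h
  have h1 : polar Q e' (-t⁻¹ • f) = 0 := by
    rw [polar_smul_right, polar_comm, c3, smul_zero]
  simp only [nl, S.smul c b1 h1, smul_smul, div_eq_mul_inv, mul_inv_rev, inv_inv]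
  congr 4
  field_simp

theorem ns_scale (e f w : V) (c : F) (hc : c ≠ 0) (h : IsPair Q e f) (he : polar Q e w = 0)
    (hf : polar Q f w = 0) (hw : Q w ≠ 0) :
    S.ns (c • e) (c⁻¹ • f) w = S.ns e f (c • w) := by
  have hy : polar Q f ((Q w)⁻¹ • w) = 0 := by rw [polar_smul_right, hf, smul_zero]
  simp only [ns, S.smul c h.1 he, S.smul c⁻¹ h.2.1 hy, smul_smul, QuadraticMap.map_smul,
    smul_eq_mul]
  congr 4
  field_simp

theorem ns_flip (e f w : V) (h : IsPair Q e f) (he : polar Q e w = 0) (hf : polar Q f w = 0)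
    (hw : Q w ≠ 0) : S.ns f e w = S.ns e f ((Q w)⁻¹ • w) := by
  have h2 : Q ((Q w)⁻¹ • w) = (Q w)⁻¹ := by
    rw [QuadraticMap.map_smul, smul_eq_mul]; field_simp
  rw [S.ns_eq h (by rw [polar_smul_right, he, smul_zero]) (by rw [polar_smul_right, hf, smul_zero])
    (by rw [h2]; exact inv_ne_zero hw), h2, inv_inv, smul_smul, mul_inv_cancel₀ hw, one_smul, ns]

end Sys

/-- A frame: hyperbolic pairs with anisotropic common orthogonal containing `w0`. -/
structure Fr (Q : QuadraticForm F V) (n : ℕ) where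
  e : ℕ → V
  f : ℕ → V
  w0 : V
  pair : ∀ i, i < n → IsPair Q (e i) (f i)
  two : ∀ i j, i < n → j < n → i ≠ j → TwoPairs Q (e i) (f i) (e j) (f j)
  he0 : ∀ i, i < n → polar Q (e i) w0 = 0
  hf0 : ∀ i, i < n → polar Q (f i) w0 = 0
  q0 : Q w0 ≠ 0
  aniso : ∀ v, (∀ i, i < n → polar Q (e i) v = 0 ∧ polar Q (f i) v = 0) → Q v = 0 → v = 0
  rep : ∀ t : F, t ≠ 0 → ∃ w, (∀ i, i < n → polar Q (e i) w = 0 ∧ polar Q (f i) w = 0) ∧ Q w = t

namespace Fr

variable {n : ℕ} (R : Fr Q n)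

/-- Orthogonality to the first `i` pairs. -/
def U (i : ℕ) (v : V) : Prop := ∀ j, j < i → polar Q (R.e j) v = 0 ∧ polar Q (R.f j) v = 0

theorem U_mono {i j : ℕ} (h : i ≤ j) {v : V} (hv : R.U j v) : R.U i v :=
  fun k hk => hv k (lt_of_lt_of_le hk h)

theorem U_add {i : ℕ} {x y : V} (hx : R.U i x) (hy : R.U i y) : R.U i (x + y) := fun j hj =>
  ⟨by rw [polar_add_right, (hx j hj).1, (hy j hj).1, add_zero],
    by rw [polar_add_right, (hx j hj).2, (hy j hj).2, add_zero]⟩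

theorem U_smul {i : ℕ} (c : F) {x : V} (hx : R.U i x) : R.U i (c • x) := fun j hj =>
  ⟨by rw [polar_smul_right, (hx j hj).1, smul_zero],
    by rw [polar_smul_right, (hx j hj).2, smul_zero]⟩

theorem U_neg {i : ℕ} {x : V} (hx : R.U i x) : R.U i (-x) := by
  simpa using R.U_smul (-1) hx

theorem U_sub {i : ℕ} {x y : V} (hx : R.U i x) (hy : R.U i y) : R.U i (x - y) := by
  rw [sub_eq_add_neg]; exact R.U_add hx (R.U_neg hy)

theorem U_zero {i : ℕ} : R.U i 0 := fun _ _ => ⟨polar_zero_right Q _, polar_zero_right Q _⟩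

theorem U_e {i j : ℕ} (hij : i ≤ j) (hj : j < n) : R.U i (R.e j) := fun k hk => by
  have h := R.two k j (by omega) hj (by omega)
  exact ⟨h.2.2.1, h.2.2.2.2.1⟩

theorem U_f {i j : ℕ} (hij : i ≤ j) (hj : j < n) : R.U i (R.f j) := fun k hk => by
  have h := R.two k j (by omega) hj (by omega)
  exact ⟨h.2.2.2.1, h.2.2.2.2.2⟩

theorem U_w0 {i : ℕ} (hi : i ≤ n) : R.U i R.w0 := fun k hk =>
  ⟨R.he0 k (by omega), R.hf0 k (by omega)⟩

theorem U_succ {i : ℕ} {v : V} (hv : R.U i v) (h1 : polar Q (R.e i) v = 0)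
    (h2 : polar Q (R.f i) v = 0) : R.U (i + 1) v := fun j hj => by
  rcases eq_or_ne j i with rfl | hne
  · exact ⟨h1, h2⟩
  · exact hv j (by omega)

variable (S : Sys τ)

/-- The subgroup of the lifts living on `U i`. -/
def G (i : ℕ) : Subgroup E :=
  Subgroup.closure {x | ∃ u a, Q u = 0 ∧ polar Q u a = 0 ∧ R.U i u ∧ R.U i a ∧ x = S.s u a}

theorem s_mem_G {i : ℕ} {u a : V} (hu : Q u = 0) (hua : polar Q u a = 0) (h1 : R.U i u)
    (h2 : R.U i a) : S.s u a ∈ R.G S i :=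
  Subgroup.subset_closure ⟨u, a, hu, hua, h1, h2, rfl⟩

theorem G_fix {i : ℕ} {x : E} (hx : x ∈ R.G S i) {v : V} (hv : ∀ z, R.U i z → polar Q z v = 0) :
    act τ x v = v := by
  induction hx using Subgroup.closure_induction with
  | mem x hx =>
    obtain ⟨u, a, hu, hua, h1, h2, rfl⟩ := hx
    exact (S.is_s hu hua).fix (hv u h1) (hv a h2)
  | one => exact act_one v
  | mul a b _ _ ha hb => rw [act_mul_apply, hb, ha]
  | inv a _ ha =>
    conv_lhs => rw [← ha]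
    exact act_inv_apply τ a v

theorem G_fix_e {i j : ℕ} {x : E} (hx : x ∈ R.G S i) (hj : j < i) :
    act τ x (R.e j) = R.e j ∧ act τ x (R.f j) = R.f j :=
  ⟨R.G_fix S hx fun z hz => by rw [polar_comm]; exact (hz j hj).1,
    R.G_fix S hx fun z hz => by rw [polar_comm]; exact (hz j hj).2⟩

theorem U_act {i : ℕ} {x : E}
    (h : ∀ j, j < i → ∃ a b : F, act τ x (R.e j) = a • R.e j ∧ act τ x (R.f j) = b • R.f j ∧
      a ≠ 0 ∧ b ≠ 0)
    {v : V} (hv : R.U i v) : R.U i (act τ x v) := fun j hj => by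
  obtain ⟨a, b, h1, h2, ha, hb⟩ := h j hj
  have e1 := act_polar τ x (R.e j) v
  have e2 := act_polar τ x (R.f j) v
  rw [h1, polar_smul_left, (hv j hj).1, smul_eq_mul] at e1
  rw [h2, polar_smul_left, (hv j hj).2, smul_eq_mul] at e2
  exact ⟨(mul_eq_zero.1 e1).resolve_left ha, (mul_eq_zero.1 e2).resolve_left hb⟩

theorem U_act_G {i k : ℕ} (hk : k ≤ i) {x : E} (hx : x ∈ R.G S i) {v : V} (hv : R.U k v) :
    R.U k (act τ x v) :=
  R.U_act (fun j hj => ⟨1, 1, by rw [one_smul]; exact (R.G_fix_e S hx (by omega)).1,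
    by rw [one_smul]; exact (R.G_fix_e S hx (by omega)).2, one_ne_zero, one_ne_zero⟩) hv

theorem G_mono {i j : ℕ} (h : i ≤ j) : R.G S j ≤ R.G S i :=
  Subgroup.closure_mono fun _ ⟨u, a, h1, h2, h3, h4, e⟩ =>
    ⟨u, a, h1, h2, R.U_mono h h3, R.U_mono h h4, e⟩

theorem G_conj {i : ℕ} {x : E} (h : ∀ v, R.U i v → R.U i (act τ x v)) {y : E}
    (hy : y ∈ R.G S i) : x * y * x⁻¹ ∈ R.G S i := by
  induction hy using Subgroup.closure_induction with
  | mem y hy =>
    obtain ⟨u, a, hu, hua, h1, h2, rfl⟩ := hy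
    rw [S.conj x hu hua]
    exact R.s_mem_G S (by rw [act_Q, hu]) (by rw [act_polar, hua]) (h u h1) (h a h2)
  | one => simp
  | mul a b _ _ ha hb =>
    rw [show x * (a * b) * x⁻¹ = (x * a * x⁻¹) * (x * b * x⁻¹) by group]
    exact mul_mem ha hb
  | inv a _ ha =>
    rw [show x * a⁻¹ * x⁻¹ = (x * a * x⁻¹)⁻¹ by group]
    exact inv_mem ha

/-- The short torus element of the pair `i`. -/
def k (i : ℕ) (w : V) : E :=
  S.ns (R.e i) (R.f i) w * (S.ns (R.e i) (R.f i) R.w0)⁻¹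

/-- The short torus of the pair `i`. -/
def T (i : ℕ) : Subgroup E :=
  Subgroup.closure {x | ∃ w, R.U n w ∧ Q w ≠ 0 ∧ x = R.k S i w}

theorem k_mem {i : ℕ} {w : V} (hw : R.U n w) (hw0 : Q w ≠ 0) : R.k S i w ∈ R.T S i :=
  Subgroup.subset_closure ⟨w, hw, hw0, rfl⟩

theorem k_act {i : ℕ} (hi : i < n) {w : V} (hw : R.U n w) (hw0 : Q w ≠ 0) :
    act τ (R.k S i w) (R.e i) = (Q w / Q R.w0) • R.e i ∧
      act τ (R.k S i w) (R.f i) = (Q R.w0 / Q w) • R.f i ∧
      ∀ v, polar Q (R.e i) v = 0 → polar Q (R.f i) v = 0 → polar Q R.w0 v = 0 →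
        polar Q w v = 0 → act τ (R.k S i w) v = v := by
  have hp := R.pair i hi
  have h0 := R.he0 i hi
  have h0' := R.hf0 i hi
  have hn : (S.ns (R.e i) (R.f i) R.w0)⁻¹ = S.ns (R.e i) (R.f i) (-R.w0) := S.ns_inv hp h0 h0'
  have q' : Q (-R.w0) ≠ 0 := by rw [QuadraticMap.map_neg]; exact R.q0
  have m1 : polar Q (R.e i) (-R.w0) = 0 := by rw [polar_neg_right, h0, neg_zero]
  have m2 : polar Q (R.f i) (-R.w0) = 0 := by rw [polar_neg_right, h0', neg_zero]
  refine ⟨?_, ?_, fun v h1 h2 h3 h4 => ?_⟩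
  · rw [k, hn, act_mul_apply, S.ns_e hp m1 m2 q', map_smul,
      S.ns_f hp (hw i hi).1 (hw i hi).2 hw0, smul_smul, QuadraticMap.map_neg]
    congr 1
    ring
  · rw [k, hn, act_mul_apply, S.ns_f hp m1 m2 q', map_smul,
      S.ns_e hp (hw i hi).1 (hw i hi).2 hw0, smul_smul, QuadraticMap.map_neg]
    congr 1
    ring
  · rw [k, hn, act_mul_apply, S.ns_perp hp m1 m2 q' h1 h2, polar_neg_left, h3, neg_zero, zero_div,
      zero_smul, sub_zero, S.ns_perp hp (hw i hi).1 (hw i hi).2 hw0 h1 h2, h4, zero_div, zero_smul,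
      sub_zero]

theorem T_act {i : ℕ} (hi : i < n) {x : E} (hx : x ∈ R.T S i) :
    (∃ c : F, c ≠ 0 ∧ act τ x (R.e i) = c • R.e i ∧ act τ x (R.f i) = c⁻¹ • R.f i) ∧
      ∀ j, j < n → j ≠ i → act τ x (R.e j) = R.e j ∧ act τ x (R.f j) = R.f j := by
  induction hx using Subgroup.closure_induction with
  | mem x hx =>
    obtain ⟨w, hw, hw0, rfl⟩ := hx
    obtain ⟨h1, h2, h3⟩ := R.k_act S hi hw hw0
    refine ⟨⟨Q w / Q R.w0, div_ne_zero hw0 R.q0, h1, by rw [inv_div]; exact h2⟩, fun j hj hne => ?_⟩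
    have hp := R.two i j hi hj (Ne.symm hne)
    exact ⟨h3 _ hp.2.2.1 hp.2.2.2.2.1 (by rw [polar_comm]; exact R.he0 j hj)
        (by rw [polar_comm]; exact (hw j hj).1),
      h3 _ hp.2.2.2.1 hp.2.2.2.2.2 (by rw [polar_comm]; exact R.hf0 j hj)
        (by rw [polar_comm]; exact (hw j hj).2)⟩
  | one => exact ⟨⟨1, one_ne_zero, by rw [act_one, one_smul],
      by rw [act_one, inv_one, one_smul]⟩, fun j _ _ => ⟨act_one _, act_one _⟩⟩
  | mul a b _ _ ha hb =>
    obtain ⟨⟨c, hc, a1, a2⟩, a3⟩ := ha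
    obtain ⟨⟨d, hd, b1, b2⟩, b3⟩ := hb
    refine ⟨⟨d * c, mul_ne_zero hd hc, by rw [act_mul_apply, b1, map_smul, a1, smul_smul],
      by rw [act_mul_apply, b2, map_smul, a2, smul_smul, ← mul_inv]⟩, fun j hj hne => ⟨?_, ?_⟩⟩
    · rw [act_mul_apply, (b3 j hj hne).1, (a3 j hj hne).1]
    · rw [act_mul_apply, (b3 j hj hne).2, (a3 j hj hne).2]
  | inv a _ ha =>
    obtain ⟨⟨c, hc, a1, a2⟩, a3⟩ := ha
    refine ⟨⟨c⁻¹, inv_ne_zero hc, ?_, ?_⟩, fun j hj hne => ⟨?_, ?_⟩⟩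
    · rw [← act_inv_apply τ a (c⁻¹ • R.e i), map_smul (act τ a), a1, smul_smul,
        inv_mul_cancel₀ hc, one_smul]
    · rw [← act_inv_apply τ a (c⁻¹⁻¹ • R.f i), map_smul (act τ a), a2, smul_smul, inv_inv,
        mul_inv_cancel₀ hc, one_smul]
    · conv_lhs => rw [← (a3 j hj hne).1]
      exact act_inv_apply τ a _
    · conv_lhs => rw [← (a3 j hj hne).2]
      exact act_inv_apply τ a _

theorem U_act_T {i m : ℕ} (hi : i < n) (hm : m ≤ n) {x : E} (hx : x ∈ R.T S i) {v : V}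
    (hv : R.U m v) : R.U m (act τ x v) := by
  obtain ⟨⟨c, hc, h1, h2⟩, h3⟩ := R.T_act S hi hx
  refine R.U_act (fun j hj => ?_) hv
  rcases eq_or_ne j i with rfl | hne
  · exact ⟨c, c⁻¹, h1, h2, hc, inv_ne_zero hc⟩
  · exact ⟨1, 1, by rw [one_smul]; exact (h3 j (by omega) hne).1,
      by rw [one_smul]; exact (h3 j (by omega) hne).2, one_ne_zero, one_ne_zero⟩

theorem s_self_mem_G {i : ℕ} (hi : i < n) {a : V} (ha : R.U i a)
    (h : polar Q (R.e i) a = 0) : S.s (R.e i) a ∈ R.G S i :=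
  R.s_mem_G S (R.pair i hi).1 h (R.U_e le_rfl hi) ha

theorem ns_mem_G {i : ℕ} (hi : i < n) {w : V} (hw : R.U n w) :
    S.ns (R.e i) (R.f i) w ∈ R.G S i := by
  have hwi : R.U i w := R.U_mono hi.le hw
  refine mul_mem (mul_mem ?_ ?_) ?_
  · exact R.s_self_mem_G S hi hwi (hw i hi).1
  · exact R.s_mem_G S (R.pair i hi).2.1 (by rw [polar_smul_right, (hw i hi).2, smul_zero])
      (R.U_f le_rfl hi) (R.U_smul _ hwi)
  · exact R.s_self_mem_G S hi hwi (hw i hi).1

theorem T_le_G {i : ℕ} (hi : i < n) : R.T S i ≤ R.G S i :=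
  (Subgroup.closure_le _).2 (by
    rintro _ ⟨w, hw, -, rfl⟩
    exact mul_mem (R.ns_mem_G S hi hw) (inv_mem (R.ns_mem_G S hi (R.U_w0 le_rfl))))

/-- The long Weyl element of the pairs `i` and `i + 1`. -/
def nw (i : ℕ) (t : F) : E := S.nl (R.e i) (R.f i) (R.e (i + 1)) (R.f (i + 1)) t

/-- The short Weyl element of the pair `i`. -/
def om (i : ℕ) : E := S.ns (R.e i) (R.f i) R.w0

theorem twoSucc {i : ℕ} (hi : i + 1 < n) :
    TwoPairs Q (R.e i) (R.f i) (R.e (i + 1)) (R.f (i + 1)) :=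
  R.two i (i + 1) (by omega) hi (by omega)

theorem nw_mem_G {i : ℕ} (hi : i + 1 < n) (t : F) : R.nw S i t ∈ R.G S i := by
  have hp := R.twoSucc hi
  refine mul_mem (mul_mem ?_ ?_) ?_
  · exact R.s_self_mem_G S (by omega) (R.U_smul _ (R.U_f (by omega) hi))
      (by rw [polar_smul_right, hp.2.2.2.1, smul_zero])
  · exact R.s_mem_G S (R.pair (i + 1) hi).1
      (by rw [polar_smul_right, polar_comm, hp.2.2.2.2.1, smul_zero]) (R.U_e (by omega) hi)
      (R.U_smul _ (R.U_f le_rfl (by omega)))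
  · exact R.s_self_mem_G S (by omega) (R.U_smul _ (R.U_f (by omega) hi))
      (by rw [polar_smul_right, hp.2.2.2.1, smul_zero])

/-- The parabolic subgroup of the pair `i`. -/
def M (i : ℕ) (hi : i < n) : Subgroup E where
  carrier := {g | ∃ a x t, R.U i a ∧ polar Q (R.e i) a = 0 ∧ x ∈ R.G S (i + 1) ∧ t ∈ R.T S i ∧
    g = S.s (R.e i) a * x * t}
  one_mem' := ⟨0, 1, 1, R.U_zero, polar_zero_right Q _, one_mem _, one_mem _,
    by rw [S.s_zero (R.pair i hi).1, mul_one, mul_one]⟩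
  mul_mem' := by
    rintro _ _ ⟨a, x, t, ha, hae, hx, ht, rfl⟩ ⟨b, y, r, hb, hbe, hy, hr, rfl⟩
    obtain ⟨⟨c, hc, t1, -⟩, -⟩ := R.T_act S hi ht
    have hxt : act τ (x * t) (R.e i) = c • R.e i := by
      rw [act_mul_apply, t1, map_smul, (R.G_fix_e S hx (by omega)).1]
    set b' := c • act τ (x * t) b with hb'
    have hbU : R.U i b' := R.U_smul _ (by
      rw [act_mul_apply]
      exact R.U_act_G S (by omega) hx (R.U_act_T S hi hi.le ht hb))
    have hbe' : polar Q (R.e i) b' = 0 := by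
      have h := act_polar τ (x * t) (R.e i) b
      rw [hxt, polar_smul_left, hbe] at h
      rw [hb', polar_smul_right]; exact h
    have hpe : polar Q (R.e i) (act τ (x * t) b) = 0 := by
      rw [hb', polar_smul_right, smul_eq_mul] at hbe'
      exact (mul_eq_zero.1 hbe').resolve_left hc
    have hs : (x * t) * S.s (R.e i) b = S.s (R.e i) b' * (x * t) := by
      rw [S.mul_s _ (R.pair i hi).1 hbe, hxt, S.smul c (R.pair i hi).1 hpe]
    refine ⟨a + b', x * (t * y * t⁻¹), t * r, R.U_add ha hbU,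
      by rw [polar_add_right, hae, hbe', add_zero],
      mul_mem hx (R.G_conj S (fun v => R.U_act_T S hi (by omega) ht) hy), mul_mem ht hr, ?_⟩
    rw [S.add (R.pair i hi).1 hae hbe']
    calc S.s (R.e i) a * x * t * (S.s (R.e i) b * y * r)
        = S.s (R.e i) a * ((x * t) * S.s (R.e i) b) * (y * r) := by group
      _ = _ := by rw [hs]; group
  inv_mem' := by
    rintro _ ⟨a, x, t, ha, hae, hx, ht, rfl⟩
    obtain ⟨⟨c, hc, t1, -⟩, -⟩ := R.T_act S hi ht
    have hxt : act τ (x * t)⁻¹ (R.e i) = c⁻¹ • R.e i := by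
      rw [← act_inv_apply τ (x * t) (c⁻¹ • R.e i), map_smul (act τ (x * t)), act_mul_apply, t1,
        map_smul (act τ x), (R.G_fix_e S hx (Nat.lt_succ_self i)).1, smul_smul, inv_mul_cancel₀ hc,
        one_smul]
    have hna : polar Q (R.e i) (-a) = 0 := by rw [polar_neg_right, hae, neg_zero]
    have hbe : polar Q (R.e i) (act τ (x * t)⁻¹ (-a)) = 0 := by
      have h := act_polar τ (x * t)⁻¹ (R.e i) (-a)
      rw [hxt, polar_smul_left, hna, smul_eq_mul] at h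
      exact (mul_eq_zero.1 h).resolve_left (inv_ne_zero hc)
    refine ⟨c⁻¹ • act τ (x * t)⁻¹ (-a), t⁻¹ * x⁻¹ * t, t⁻¹, R.U_smul _ ?_,
      by rw [polar_smul_right, hbe, smul_zero], ?_, inv_mem ht, ?_⟩
    · rw [mul_inv_rev, act_mul_apply]
      exact R.U_act_T S hi hi.le (inv_mem ht) (R.U_act_G S (by omega) (inv_mem hx) (R.U_neg ha))
    · have := R.G_conj S (fun v => R.U_act_T S hi (Nat.succ_le_of_lt hi) (inv_mem ht)) (inv_mem hx)
      rwa [inv_inv] at this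
    · rw [← S.smul c⁻¹ (R.pair i hi).1 hbe, ← hxt, ← S.conj _ (R.pair i hi).1 hna,
        S.s_neg (R.pair i hi).1 hae]
      group

section

variable {i : ℕ} (hi : i < n)
include hi

theorem C_mem_M {a : V} (ha : R.U i a) (h : polar Q (R.e i) a = 0) :
    S.s (R.e i) a ∈ R.M S i hi :=
  ⟨a, 1, 1, ha, h, one_mem _, one_mem _, by group⟩

theorem G_mem_M {x : E} (hx : x ∈ R.G S (i + 1)) : x ∈ R.M S i hi :=
  ⟨0, x, 1, R.U_zero, polar_zero_right Q _, hx, one_mem _,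
    by rw [S.s_zero (R.pair i hi).1]; group⟩

theorem T_mem_M {x : E} (hx : x ∈ R.T S i) : x ∈ R.M S i hi :=
  ⟨0, 1, x, R.U_zero, polar_zero_right Q _, one_mem _, hx,
    by rw [S.s_zero (R.pair i hi).1]; group⟩

theorem M_le_G : R.M S i hi ≤ R.G S i := by
  rintro _ ⟨a, x, t, ha, hae, hx, ht, rfl⟩
  exact mul_mem (mul_mem (R.s_self_mem_G S hi ha hae) (R.G_mono S (by omega) hx))
    (R.T_le_G S hi ht)

theorem M_line {m : E} (hm : m ∈ R.M S i hi) :
    ∃ c : F, c ≠ 0 ∧ act τ m (R.e i) = c • R.e i := by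
  obtain ⟨a, x, t, ha, hae, hx, ht, rfl⟩ := hm
  obtain ⟨⟨c, hc, t1, -⟩, -⟩ := R.T_act S hi ht
  refine ⟨c, hc, ?_⟩
  rw [act_mul_apply, act_mul_apply, t1, map_smul, (R.G_fix_e S hx (by omega)).1, map_smul,
    (S.is_s (R.pair i hi).1 hae).fix_self]

theorem om_e : act τ (R.om S i) (R.e i) = -(Q R.w0)⁻¹ • R.f i :=
  S.ns_e (R.pair i hi) (R.he0 i hi) (R.hf0 i hi) R.q0

theorem om_f : act τ (R.om S i) (R.f i) = -Q R.w0 • R.e i :=
  S.ns_f (R.pair i hi) (R.he0 i hi) (R.hf0 i hi) R.q0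

theorem om_fix {j : ℕ} (hj : j < n) (hne : j ≠ i) :
    act τ (R.om S i) (R.e j) = R.e j ∧ act τ (R.om S i) (R.f j) = R.f j := by
  have hp := R.two i j hi hj (Ne.symm hne)
  exact ⟨by rw [om, S.ns_perp (R.pair i hi) (R.he0 i hi) (R.hf0 i hi) R.q0 hp.2.2.1 hp.2.2.2.2.1,
      polar_comm Q R.w0, R.he0 j hj, zero_div, zero_smul, sub_zero],
    by rw [om, S.ns_perp (R.pair i hi) (R.he0 i hi) (R.hf0 i hi) R.q0 hp.2.2.2.1 hp.2.2.2.2.2,
      polar_comm Q R.w0, R.hf0 j hj, zero_div, zero_smul, sub_zero]⟩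

theorem U_act_om {m : ℕ} (hm : m ≤ n) {v : V} (hv : R.U m v) :
    R.U m (act τ (R.om S i) v) := fun j hj => by
  rcases eq_or_ne j i with rfl | hne
  · have e1 := act_polar τ (R.om S j) (R.f j) v
    have e2 := act_polar τ (R.om S j) (R.e j) v
    rw [R.om_f S hi, (hv j hj).2, polar_smul_left, smul_eq_mul] at e1
    rw [R.om_e S hi, (hv j hj).1, polar_smul_left, smul_eq_mul] at e2
    exact ⟨(mul_eq_zero.1 e1).resolve_left (neg_ne_zero.2 R.q0),
      (mul_eq_zero.1 e2).resolve_left (neg_ne_zero.2 (inv_ne_zero R.q0))⟩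
  · have h := R.om_fix S hi (show j < n by omega) hne
    have e1 := act_polar τ (R.om S i) (R.e j) v
    have e2 := act_polar τ (R.om S i) (R.f j) v
    rw [h.1, (hv j hj).1] at e1
    rw [h.2, (hv j hj).2] at e2
    exact ⟨e1, e2⟩

/-- The Levi part is normalised by `om`. -/
theorem om_L {x t : E} (hx : x ∈ R.G S (i + 1)) (ht : t ∈ R.T S i) :
    (R.om S i)⁻¹ * (x * t) * R.om S i ∈ R.M S i hi := by
  have hinv : (R.om S i)⁻¹ = R.k S i (-R.w0) * R.om S i := by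
    rw [k, om, inv_mul_cancel_right, S.ns_inv (R.pair i hi) (R.he0 i hi) (R.hf0 i hi)]
  have hk : R.k S i (-R.w0) ∈ R.T S i :=
    R.k_mem S (R.U_neg (R.U_w0 le_rfl)) (by rw [QuadraticMap.map_neg]; exact R.q0)
  have key : ∀ {y}, y ∈ R.T S i → R.om S i * y * (R.om S i)⁻¹ ∈ R.T S i := by
    intro y hy
    induction hy using Subgroup.closure_induction with
    | mem y hy =>
      obtain ⟨w, hw, hw0, rfl⟩ := hy
      have hp := R.pair i hi
      have conjns : ∀ v, R.U n v → Q v ≠ 0 → ∃ v', R.U n v' ∧ Q v' ≠ 0 ∧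
          R.om S i * S.ns (R.e i) (R.f i) v * (R.om S i)⁻¹ = S.ns (R.e i) (R.f i) v' := by
        intro v hv hv0
        have r1 : R.U n (act τ (R.om S i) v) := R.U_act_om S hi le_rfl hv
        set v₁ := act τ (R.om S i) v
        have q1 : Q v₁ ≠ 0 := by rw [act_Q]; exact hv0
        have hc : -(Q R.w0)⁻¹ ≠ 0 := neg_ne_zero.2 (inv_ne_zero R.q0)
        refine ⟨(Q (-(Q R.w0)⁻¹ • v₁))⁻¹ • (-(Q R.w0)⁻¹ • v₁), R.U_smul _ (R.U_smul _ r1), ?_, ?_⟩
        · simp only [QuadraticMap.map_smul, smul_eq_mul, ne_eq, mul_eq_zero, inv_eq_zero]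
          simp [hc, q1, R.q0]
        rw [S.conj_ns _ hp (hv i hi).1 (hv i hi).2, R.om_e S hi, R.om_f S hi,
          show -Q R.w0 = (-(Q R.w0)⁻¹)⁻¹ by rw [inv_neg, inv_inv],
          S.ns_scale _ _ _ _ hc hp.symm (r1 i hi).2 (r1 i hi).1 q1,
          S.ns_flip _ _ _ hp (by rw [polar_smul_right, (r1 i hi).1, smul_zero])
            (by rw [polar_smul_right, (r1 i hi).2, smul_zero])
            (by simp [QuadraticMap.map_smul, q1, R.q0])]
      obtain ⟨a, ha, ha0, ea⟩ := conjns w hw hw0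
      obtain ⟨b, hb, hb0, eb⟩ := conjns R.w0 (R.U_w0 le_rfl) R.q0
      rw [show R.om S i * R.k S i w * (R.om S i)⁻¹ = R.k S i a * (R.k S i b)⁻¹ by
        rw [k, show R.om S i * (S.ns (R.e i) (R.f i) w * (S.ns (R.e i) (R.f i) R.w0)⁻¹) *
          (R.om S i)⁻¹ = (R.om S i * S.ns (R.e i) (R.f i) w * (R.om S i)⁻¹) *
          (R.om S i * S.ns (R.e i) (R.f i) R.w0 * (R.om S i)⁻¹)⁻¹ by group, ea, eb, k, k]
        group]
      exact mul_mem (R.k_mem S ha ha0) (inv_mem (R.k_mem S hb hb0))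
    | one => simp
    | mul a b _ _ ha hb =>
      rw [show R.om S i * (a * b) * (R.om S i)⁻¹ =
        (R.om S i * a * (R.om S i)⁻¹) * (R.om S i * b * (R.om S i)⁻¹) by group]
      exact mul_mem ha hb
    | inv a _ ha =>
      rw [show R.om S i * a⁻¹ * (R.om S i)⁻¹ = (R.om S i * a * (R.om S i)⁻¹)⁻¹ by group]
      exact inv_mem ha
  have e : (R.om S i)⁻¹ * (x * t) * R.om S i =
      R.k S i (-R.w0) * ((R.om S i * x * (R.om S i)⁻¹) * (R.om S i * t * (R.om S i)⁻¹)) *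
        (R.k S i (-R.w0))⁻¹ := by
    calc (R.om S i)⁻¹ * (x * t) * R.om S i
        = (R.k S i (-R.w0) * R.om S i) * (x * t) * (R.k S i (-R.w0) * R.om S i)⁻¹ := by
          rw [← hinv, inv_inv]
      _ = _ := by group
  rw [e]
  refine mul_mem (mul_mem (R.T_mem_M S hi hk) (mul_mem (R.G_mem_M S hi ?_)
    (R.T_mem_M S hi (key ht)))) (inv_mem (R.T_mem_M S hi hk))
  exact R.G_conj S (fun v hv => R.U_act_om S hi hi hv) hx

end

end Fr

end Cfsg.Agent.CentralExt.MinusMult
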