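/-
The three double cosets of the parabolic of the first pair, and the descent of the kernel.
-/
import Cfsg.Agent.CentralExt.MinusMult.Bruhat

set_option autoImplicit false
set_option linter.unusedSectionVars false

namespace Cfsg.Agent.CentralExt.MinusMult

open Cfsg.Agent.Classical QuadraticMap

universe u v w

variable {F : Type u} [Field F] {V : Type v} [AddCommGroup V] [Module F V]
  {Q : QuadraticForm F V} {E : Type w} [Group E] {τ : E →* EQ Q}

theorem smul_q0 {c : F} (hc : c ≠ 0) {w : V} (hw0 : Q w ≠ 0) : Q (c • w) ≠ 0 := by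
  rw [QuadraticMap.map_smul, smul_eq_mul]; exact mul_ne_zero (mul_ne_zero hc hc) hw0

namespace Fr

variable {n : ℕ} (R : Fr Q n) (S : Sys τ)

section long

variable {i : ℕ} (hi : i + 1 < n)
include hi

theorem ns_mul_mem_T {j : ℕ} {a b : V} (ha : R.U n a) (hb : R.U n b) (ha0 : Q a ≠ 0)
    (hb0 : Q b ≠ 0) :
    S.ns (R.e j) (R.f j) a * (S.ns (R.e j) (R.f j) b)⁻¹ ∈ R.T S j := by
  rw [show S.ns (R.e j) (R.f j) a * (S.ns (R.e j) (R.f j) b)⁻¹ =
    R.k S j a * (R.k S j b)⁻¹ by rw [k, k]; group]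
  exact mul_mem (R.k_mem S ha ha0) (inv_mem (R.k_mem S hb hb0))

theorem nw_fix (t : F) {v : V} (h1 : polar Q (R.e i) v = 0) (h2 : polar Q (R.f i) v = 0)
    (h3 : polar Q (R.e (i + 1)) v = 0) (h4 : polar Q (R.f (i + 1)) v = 0) :
    act τ (R.nw S i t) v = v :=
  S.nl_fix (R.twoSucc hi) t h1 h2 h3 h4

theorem nw_inv (t : F) : (R.nw S i t)⁻¹ = R.nw S i (-t) := S.nl_inv (R.twoSucc hi) t

theorem nw_ns (t : F) (ht : t ≠ 0) {w : V} (hw : R.U n w) (hw0 : Q w ≠ 0) :
    R.nw S i t * S.ns (R.e i) (R.f i) w * (R.nw S i t)⁻¹ =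
      S.ns (R.e (i + 1)) (R.f (i + 1)) (t⁻¹ • w) := by
  have h := R.twoSucc hi
  have hiw := hw i (by omega)
  have hjw := hw (i + 1) hi
  rw [S.conj_ns _ h.1 hiw.1 hiw.2, nw, S.nl_e h t ht, S.nl_f h t ht,
    S.nl_fix h t hiw.1 hiw.2 hjw.1 hjw.2]
  conv_lhs => arg 3; rw [← inv_inv t]
  exact S.ns_scale _ _ _ _ (inv_ne_zero ht) h.2.1 hjw.1 hjw.2 hw0

theorem nw_ns' (t : F) (ht : t ≠ 0) {w : V} (hw : R.U n w) (hw0 : Q w ≠ 0) :
    R.nw S i t * S.ns (R.e (i + 1)) (R.f (i + 1)) w * (R.nw S i t)⁻¹ =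
      S.ns (R.e i) (R.f i) ((-t) • w) := by
  have h := R.twoSucc hi
  have hiw := hw i (by omega)
  have hjw := hw (i + 1) hi
  rw [S.conj_ns _ h.2.1 hjw.1 hjw.2, nw, S.nl_e' h t ht, S.nl_f' h t ht,
    S.nl_fix h t hiw.1 hiw.2 hjw.1 hjw.2, show -t⁻¹ = (-t)⁻¹ from inv_neg.symm]
  exact S.ns_scale _ _ _ _ (neg_ne_zero.2 ht) h.1 hiw.1 hiw.2 hw0

theorem nw_T (t : F) (ht : t ≠ 0) {y : E} (hy : y ∈ R.T S i) :
    R.nw S i t * y * (R.nw S i t)⁻¹ ∈ R.T S (i + 1) := by
  induction hy using Subgroup.closure_induction with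
  | mem y hy =>
    obtain ⟨w, hw, hw0, rfl⟩ := hy
    rw [k, show R.nw S i t * (S.ns (R.e i) (R.f i) w * (S.ns (R.e i) (R.f i) R.w0)⁻¹) *
      (R.nw S i t)⁻¹ = (R.nw S i t * S.ns (R.e i) (R.f i) w * (R.nw S i t)⁻¹) *
      (R.nw S i t * S.ns (R.e i) (R.f i) R.w0 * (R.nw S i t)⁻¹)⁻¹ by group,
      R.nw_ns S hi t ht hw hw0, R.nw_ns S hi t ht (R.U_w0 le_rfl) R.q0]
    exact R.ns_mul_mem_T S hi (R.U_smul _ hw) (R.U_smul _ (R.U_w0 le_rfl))
      (smul_q0 (inv_ne_zero ht) hw0) (smul_q0 (inv_ne_zero ht) R.q0)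
  | one => simp
  | mul a b _ _ ha hb =>
    rw [show R.nw S i t * (a * b) * (R.nw S i t)⁻¹ =
      (R.nw S i t * a * (R.nw S i t)⁻¹) * (R.nw S i t * b * (R.nw S i t)⁻¹) by group]
    exact mul_mem ha hb
  | inv a _ ha =>
    rw [show R.nw S i t * a⁻¹ * (R.nw S i t)⁻¹ = (R.nw S i t * a * (R.nw S i t)⁻¹)⁻¹ by group]
    exact inv_mem ha

theorem nw_T' (t : F) (ht : t ≠ 0) {y : E} (hy : y ∈ R.T S (i + 1)) :
    R.nw S i t * y * (R.nw S i t)⁻¹ ∈ R.T S i := by
  induction hy using Subgroup.closure_induction with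
  | mem y hy =>
    obtain ⟨w, hw, hw0, rfl⟩ := hy
    rw [k, show R.nw S i t * (S.ns (R.e (i + 1)) (R.f (i + 1)) w *
        (S.ns (R.e (i + 1)) (R.f (i + 1)) R.w0)⁻¹) * (R.nw S i t)⁻¹ =
      (R.nw S i t * S.ns (R.e (i + 1)) (R.f (i + 1)) w * (R.nw S i t)⁻¹) *
      (R.nw S i t * S.ns (R.e (i + 1)) (R.f (i + 1)) R.w0 * (R.nw S i t)⁻¹)⁻¹ by group,
      R.nw_ns' S hi t ht hw hw0, R.nw_ns' S hi t ht (R.U_w0 le_rfl) R.q0]
    exact R.ns_mul_mem_T S hi (R.U_smul _ hw) (R.U_smul _ (R.U_w0 le_rfl))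
      (smul_q0 (neg_ne_zero.2 ht) hw0) (smul_q0 (neg_ne_zero.2 ht) R.q0)
  | one => simp
  | mul a b _ _ ha hb =>
    rw [show R.nw S i t * (a * b) * (R.nw S i t)⁻¹ =
      (R.nw S i t * a * (R.nw S i t)⁻¹) * (R.nw S i t * b * (R.nw S i t)⁻¹) by group]
    exact mul_mem ha hb
  | inv a _ ha =>
    rw [show R.nw S i t * a⁻¹ * (R.nw S i t)⁻¹ = (R.nw S i t * a * (R.nw S i t)⁻¹)⁻¹ by group]
    exact inv_mem ha

theorem nw_scale (t μ : F) (hμ : μ ≠ 0) :
    ∃ y ∈ R.T S i, y * R.nw S i t * y⁻¹ = R.nw S i (μ * t) := by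
  obtain ⟨w, hw, hwq⟩ := R.rep (μ * Q R.w0) (mul_ne_zero hμ R.q0)
  have hw0 : Q w ≠ 0 := by rw [hwq]; exact mul_ne_zero hμ R.q0
  refine ⟨_, R.k_mem S hw hw0, ?_⟩
  have h := R.twoSucc hi
  obtain ⟨h1, h2, h3⟩ := R.k_act S (show i < n by omega) hw hw0
  rw [nw, S.conj_nl _ h, h1, h2,
    h3 _ h.2.2.1 h.2.2.2.2.1 (by rw [polar_comm]; exact R.he0 _ hi)
      (by rw [polar_comm]; exact (hw _ hi).1),
    h3 _ h.2.2.2.1 h.2.2.2.2.2 (by rw [polar_comm]; exact R.hf0 _ hi)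
      (by rw [polar_comm]; exact (hw _ hi).2), hwq, mul_div_cancel_right₀ _ R.q0,
    show Q R.w0 / (μ * Q R.w0) = μ⁻¹ by have := R.q0; field_simp]
  exact S.nl_scale _ _ _ _ _ _ hμ h

theorem U_act_nw (t : F) {v : V} (hv : R.U i v) : R.U i (act τ (R.nw S i t) v) :=
  R.U_act_G S le_rfl (R.nw_mem_G S hi t) hv

theorem nw_C0 (t : F) (ht : t ≠ 0) {a : V} (ha : R.U i a) (hae : polar Q (R.e i) a = 0)
    (hae' : polar Q (R.e (i + 1)) a = 0) :
    R.nw S i t * S.s (R.e i) a * (R.nw S i t)⁻¹ ∈ R.M S i (by omega) := by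
  have h := R.twoSucc hi
  obtain ⟨⟨e0, -, ef⟩, ⟨e1, -, -⟩, ee', ef', fe', -⟩ := h
  have h := R.twoSucc hi
  set b₀ := act τ (R.nw S i t) a with hb0
  have k1 : polar Q (R.e (i + 1)) b₀ = 0 := by
    have := act_polar τ (R.nw S i t) (R.e i) a
    rw [hae, nw, S.nl_e h t ht, polar_smul_left, smul_eq_mul] at this
    exact (mul_eq_zero.1 this).resolve_left (inv_ne_zero ht)
  have k2 : polar Q (R.e i) b₀ = 0 := by
    have := act_polar τ (R.nw S i t) (R.e (i + 1)) a
    rw [hae', nw, S.nl_e' h t ht, polar_smul_left, smul_eq_mul] at this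
    exact (mul_eq_zero.1 this).resolve_left (neg_ne_zero.2 ht)
  rw [S.conj _ e0 hae, nw, S.nl_e h t ht, ← nw, ← hb0, S.smul _ e1 k1]
  set b := t⁻¹ • b₀ with hb
  have b1 : polar Q (R.e (i + 1)) b = 0 := by rw [hb, polar_smul_right, k1, smul_zero]
  have b2 : polar Q (R.e i) b = 0 := by rw [hb, polar_smul_right, k2, smul_zero]
  have bU : R.U i b := R.U_smul _ (R.U_act_nw S hi t ha)
  set μ := polar Q (R.f i) b
  have he' : polar Q (R.e (i + 1)) (μ • R.e i) = 0 := by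
    rw [polar_smul_right, polar_comm, ee', smul_zero]
  have hr : polar Q (R.e (i + 1)) (b - μ • R.e i) = 0 := by
    rw [polar_sub_right, he', b1, sub_zero]
  have hrU : R.U (i + 1) (b - μ • R.e i) :=
    R.U_succ (R.U_sub bU (R.U_smul _ (R.U_e le_rfl (by omega))))
      (by rw [polar_sub_right, b2, polar_smul_right, pol_self e0]; simp)
      (by simp [polar_sub_right, polar_smul_right, polar_comm Q (R.f i) (R.e i), ef, μ])
  rw [show b = μ • R.e i + (b - μ • R.e i) by abel, S.add e1 he' hr,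
    S.swap e1 (by rw [QuadraticMap.map_smul, e0, smul_zero]) he',
    S.smul μ e0 (by rw [polar_neg_right, ee', neg_zero])]
  exact mul_mem
    (R.C_mem_M S _ (R.U_smul _ (R.U_neg (R.U_e (by omega) hi)))
      (by rw [polar_smul_right, polar_neg_right, ee']; simp))
    (R.G_mem_M S _ (R.s_mem_G S e1 hr (R.U_e le_rfl hi) hrU))

theorem nw_M (t : F) (ht : t ≠ 0) {m : E} (hm : m ∈ R.M S (i + 1) hi) :
    R.nw S i t * m * (R.nw S i t)⁻¹ ∈ R.M S i (by omega) := by
  obtain ⟨b, x, y, hb, hbe, hx, hy, rfl⟩ := hm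
  have h := R.twoSucc hi
  obtain ⟨⟨e0, -, ef⟩, ⟨e1, -, -⟩, ee', ef', fe', -⟩ := h
  have h := R.twoSucc hi
  have hcomm : R.nw S i t * x * (R.nw S i t)⁻¹ = x := by
    have := S.conj_nl x h t
    rw [(R.G_fix_e S hx (show i < i + 1 + 1 by omega)).1,
      (R.G_fix_e S hx (show i < i + 1 + 1 by omega)).2,
      (R.G_fix_e S hx (show i + 1 < i + 1 + 1 by omega)).1,
      (R.G_fix_e S hx (show i + 1 < i + 1 + 1 by omega)).2, ← nw] at this
    rw [mul_inv_eq_iff_eq_mul] at this ⊢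
    exact this.symm
  rw [show R.nw S i t * (S.s (R.e (i + 1)) b * x * y) * (R.nw S i t)⁻¹ =
      (R.nw S i t * S.s (R.e (i + 1)) b * (R.nw S i t)⁻¹) *
        (R.nw S i t * x * (R.nw S i t)⁻¹) * (R.nw S i t * y * (R.nw S i t)⁻¹) by group, hcomm]
  refine mul_mem (mul_mem ?_ (R.G_mem_M S _ (R.G_mono S (by omega) hx)))
    (R.T_mem_M S _ (R.nw_T' S hi t ht hy))
  have k2 : polar Q (R.e i) (act τ (R.nw S i t) b) = 0 := by
    have := act_polar τ (R.nw S i t) (R.e (i + 1)) b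
    rw [hbe, nw, S.nl_e' h t ht, polar_smul_left, smul_eq_mul] at this
    exact (mul_eq_zero.1 this).resolve_left (neg_ne_zero.2 ht)
  rw [S.conj _ e1 hbe, nw, S.nl_e' h t ht, ← nw, S.smul _ e0 k2]
  exact R.C_mem_M S _ (R.U_smul _ (R.U_act_nw S hi t (R.U_mono (by omega) hb)))
    (by rw [polar_smul_right, k2, smul_zero])

theorem nw_sq : R.nw S i 1 * R.nw S i 1 ∈ R.M S i (by omega) := by
  obtain ⟨y, hy, e⟩ := R.nw_scale S hi 1 (-1) (neg_ne_zero.2 one_ne_zero)
  rw [neg_one_mul, ← R.nw_inv S hi] at e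
  have h2 : R.nw S i 1 * R.nw S i 1 =
      y⁻¹ * (y * R.nw S i 1 * y⁻¹) * (y * R.nw S i 1) := by group
  rw [h2, e, show y⁻¹ * (R.nw S i 1)⁻¹ * (y * R.nw S i 1) =
    y⁻¹ * ((R.nw S i 1)⁻¹ * y * R.nw S i 1) by group]
  refine mul_mem (R.T_mem_M S _ (inv_mem hy)) (R.G_mem_M S _ (R.T_le_G S hi ?_))
  have := R.nw_T S hi (-1) (neg_ne_zero.2 one_ne_zero) hy
  rwa [← R.nw_inv S hi, inv_inv] at this

theorem nw_mul_nw (t : F) (ht : t ≠ 0) : R.nw S i 1 * R.nw S i t ∈ R.M S i (by omega) := by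
  obtain ⟨y, hy, e⟩ := R.nw_scale S hi 1 t ht
  rw [mul_one] at e
  rw [← e, show R.nw S i 1 * (y * R.nw S i 1 * y⁻¹) =
    (R.nw S i 1 * y * (R.nw S i 1)⁻¹) * (R.nw S i 1 * R.nw S i 1) * y⁻¹ by group]
  exact mul_mem (mul_mem (R.G_mem_M S _ (R.T_le_G S hi (R.nw_T S hi 1 one_ne_zero hy)))
    (R.nw_sq S hi)) (R.T_mem_M S _ (inv_mem hy))

end long

/-- The representatives of the double cosets. -/
def Rep (i : ℕ) (r : E) : Prop := r = 1 ∨ (i + 1 < n ∧ r = R.nw S i 1) ∨ r = R.om S i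

theorem Rep.mem_G {i : ℕ} (hi : i < n) {r : E} (h : R.Rep S i r) : r ∈ R.G S i := by
  rcases h with rfl | ⟨h, rfl⟩ | rfl
  · exact one_mem _
  · exact R.nw_mem_G S h 1
  · exact R.ns_mem_G S hi (R.U_w0 le_rfl)

/-- The union of the double cosets. -/
def Cell (i : ℕ) (hi : i < n) (g : E) : Prop :=
  ∃ m ∈ R.M S i hi, ∃ r, R.Rep S i r ∧ ∃ m' ∈ R.M S i hi, g = m * r * m'

variable {i : ℕ} (hi : i < n)

theorem Cell.left {g : E} (hg : R.Cell S i hi g) {a : E} (ha : a ∈ R.M S i hi) :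
    R.Cell S i hi (a * g) := by
  obtain ⟨m, hm, r, hr, m', hm', rfl⟩ := hg
  exact ⟨a * m, mul_mem ha hm, r, hr, m', hm', by group⟩

theorem Cell.right {g : E} (hg : R.Cell S i hi g) {a : E} (ha : a ∈ R.M S i hi) :
    R.Cell S i hi (g * a) := by
  obtain ⟨m, hm, r, hr, m', hm', rfl⟩ := hg
  exact ⟨m, hm, r, hr, m' * a, mul_mem hm' ha, by group⟩

theorem cell_rep {r : E} (hr : R.Rep S i r) : R.Cell S i hi r :=
  ⟨1, one_mem _, r, hr, 1, one_mem _, by group⟩

theorem cell_M {a : E} (ha : a ∈ R.M S i hi) : R.Cell S i hi a :=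
  ⟨a, ha, 1, Or.inl rfl, 1, one_mem _, by group⟩

/-- The elements generating `G i`. -/
def H (i : ℕ) (hi : i < n) : Subgroup E :=
  Subgroup.closure ((R.M S i hi : Set E) ∪ {r | R.Rep S i r})

theorem H_le_G : R.H S i hi ≤ R.G S i :=
  (Subgroup.closure_le _).2 (by
    rintro x (hx | hx)
    · exact R.M_le_G S hi hx
    · exact Rep.mem_G R S hi hx)

include hi in
theorem om_inv : (R.om S i)⁻¹ = R.k S i (-R.w0) * R.om S i ∧ R.k S i (-R.w0) ∈ R.T S i ∧
    R.om S i = S.ns (R.e i) (R.f i) R.w0 := by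
  refine ⟨?_, R.k_mem S (R.U_neg (R.U_w0 le_rfl)) (by rw [QuadraticMap.map_neg]; exact R.q0), rfl⟩
  rw [k, om, inv_mul_cancel_right]
  exact S.ns_inv (R.pair i hi) (R.he0 i hi) (R.hf0 i hi)

theorem cell_xm (hi1 : i + 1 < n) (c : F) :
    R.Cell S i hi (S.s (R.e (i + 1)) (c • R.f i)) := by
  have h := R.twoSucc hi1
  rcases eq_or_ne c 0 with rfl | hc
  · rw [zero_smul, S.s_zero h.2.1.1]
    exact R.cell_M S hi (one_mem _)
  · set t := -c⁻¹
    have ht : t ≠ 0 := neg_ne_zero.2 (inv_ne_zero hc)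
    have hC : S.s (R.e i) (t • R.f (i + 1)) ∈ R.M S i hi :=
      R.C_mem_M S hi (R.U_smul _ (R.U_f (by omega) hi1))
        (by rw [polar_smul_right, h.2.2.2.1, smul_zero])
    obtain ⟨y, hy, e⟩ := R.nw_scale S hi1 1 t ht
    rw [mul_one] at e
    have hn : R.nw S i t = S.s (R.e i) (t • R.f (i + 1)) * S.s (R.e (i + 1)) (c • R.f i) *
        S.s (R.e i) (t • R.f (i + 1)) := by
      rw [nw, Sys.nl]
      simp [t]
    rw [show S.s (R.e (i + 1)) (c • R.f i) = (S.s (R.e i) (t • R.f (i + 1)))⁻¹ *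
      (y * R.nw S i 1 * y⁻¹) * (S.s (R.e i) (t • R.f (i + 1)))⁻¹ by rw [e, hn]; group]
    exact Cell.right R S hi (Cell.left R S hi
      (Cell.right R S hi (Cell.left R S hi (R.cell_rep S hi (Or.inr (Or.inl ⟨hi1, rfl⟩)))
        (R.T_mem_M S hi hy)) (R.T_mem_M S hi (inv_mem hy))) (inv_mem hC)) (inv_mem hC)

set_option maxHeartbeats 800000 in
/-- Left multiplication by the long Weyl element preserves the cells. -/
theorem nw_cell (hi1 : i + 1 < n)
    (IH : ∀ x ∈ R.G S (i + 1), R.Cell S (i + 1) hi1 x) {g : E} (hg : R.Cell S i hi g) :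
    R.Cell S i hi (R.nw S i 1 * g) := by
  have h := R.twoSucc hi1
  have h' := R.twoSucc hi1
  obtain ⟨⟨e0, f0, ef⟩, ⟨e1, f1, ef1⟩, ee', ef', fe', ff'⟩ := h'
  set N := R.nw S i 1 with hN
  have hNrep : R.Rep S i N := Or.inr (Or.inl ⟨hi1, rfl⟩)
  obtain ⟨m, hm, r, hr, m', hm', rfl⟩ := hg
  rw [show N * (m * r * m') = (N * m * r) * m' by group]
  refine Cell.right R S hi ?_ hm'
  by_cases hr1 : r = 1
  · subst hr1
    exact ⟨1, one_mem _, N, hNrep, m, hm, by group⟩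
  obtain ⟨a, x, y, ha, hae, hx, hy, rfl⟩ := hm
  obtain ⟨m1, hm1, c', hc', m2, hm2, rfl⟩ := IH x hx
  set β := polar Q (R.e (i + 1)) a
  set a0 := a - β • R.f (i + 1)
  have hfU : R.U i (R.f (i + 1)) := R.U_f (by omega) hi1
  have hfe : ∀ c : F, polar Q (R.e i) (c • R.f (i + 1)) = 0 := fun c => by
    rw [polar_smul_right, ef', smul_zero]
  have ha0 : polar Q (R.e i) a0 = 0 := by rw [polar_sub_right, hae, hfe, sub_zero]
  have ha0' : polar Q (R.e (i + 1)) a0 = 0 := by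
    rw [polar_sub_right, polar_smul_right, ef1]; simp [β]
  have hm1G : m1 ∈ R.G S (i + 1) := R.M_le_G S hi1 hm1
  set a' := act τ m1⁻¹ (β • R.f (i + 1))
  have ha'U : R.U i a' := R.U_act_G S (by omega) (inv_mem hm1G) (R.U_smul _ hfU)
  have hm1e : act τ m1⁻¹ (R.e i) = R.e i := (R.G_fix_e S (inv_mem hm1G) (Nat.lt_succ_self i)).1
  have ha'e : polar Q (R.e i) a' = 0 := by
    have := act_polar τ m1⁻¹ (R.e i) (β • R.f (i + 1))
    rwa [hm1e, hfe] at this
  set β' := polar Q (R.e (i + 1)) a'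
  set a1 := a' - β' • R.f (i + 1)
  have ha1 : polar Q (R.e i) a1 = 0 := by rw [polar_sub_right, ha'e, hfe, sub_zero]
  have ha1' : polar Q (R.e (i + 1)) a1 = 0 := by
    rw [polar_sub_right, polar_smul_right, ef1]; simp [β']
  have es : S.s (R.e i) a = S.s (R.e i) a0 * S.s (R.e i) (β • R.f (i + 1)) := by
    rw [← S.add e0 ha0 (hfe _), sub_add_cancel]
  have em : S.s (R.e i) (β • R.f (i + 1)) * m1 =
      m1 * (S.s (R.e i) a1 * S.s (R.e i) (β' • R.f (i + 1))) := by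
    rw [← S.add e0 ha1 (hfe _), sub_add_cancel]
    have := S.conj m1⁻¹ e0 (hfe β)
    rw [hm1e] at this
    rw [← this]; group
  set X := S.s (R.e i) (β' • R.f (i + 1)) with hX
  set A := (N * S.s (R.e i) a0 * N⁻¹) * (N * m1 * N⁻¹) * (N * S.s (R.e i) a1 * N⁻¹)
  have hA : A ∈ R.M S i hi := mul_mem (mul_mem
    (R.nw_C0 S hi1 1 one_ne_zero (R.U_sub ha (R.U_smul _ hfU)) ha0 ha0')
    (R.nw_M S hi1 1 one_ne_zero hm1))
    (R.nw_C0 S hi1 1 one_ne_zero (R.U_sub ha'U (R.U_smul _ hfU)) ha1 ha1')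
  have hexp : N * (S.s (R.e i) a * (m1 * c' * m2) * y) * r = A * (N * X * c' * (m2 * y) * r) := by
    rw [es, show N * (S.s (R.e i) a0 * S.s (R.e i) (β • R.f (i + 1)) * (m1 * c' * m2) * y) * r =
      N * S.s (R.e i) a0 * (S.s (R.e i) (β • R.f (i + 1)) * m1) * c' * m2 * y * r by group, em]
    simp only [A]
    group
  rw [hexp]
  refine Cell.left R S hi ?_ hA
  have hc'G : c' ∈ R.G S (i + 1) := Rep.mem_G R S hi1 hc'
  have hNX : N * X * N⁻¹ = S.s (R.e (i + 1)) ((-β') • R.f i) := by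
    rw [hX, hN, nw, S.conj _ e0 (hfe β'), S.nl_e h 1 one_ne_zero, map_smul,
      S.nl_f' h 1 one_ne_zero, inv_one, one_smul, smul_smul, mul_neg_one]
  have hxm : ∀ c : F, polar Q (R.e (i + 1)) (c • R.f i) = 0 := fun c => by
    rw [polar_smul_right, polar_comm, fe', smul_zero]
  rcases hr with hr | ⟨-, rfl⟩ | rfl
  · exact absurd hr hr1
  · -- `r` is the long element
    have hc2 : N⁻¹ * (m2 * y) * N ∈ R.M S i hi := by
      rw [show N⁻¹ * (m2 * y) * N = (N⁻¹ * m2 * N⁻¹⁻¹) * (N⁻¹ * y * N⁻¹⁻¹) by group, hN,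
        R.nw_inv S hi1]
      exact mul_mem (R.nw_M S hi1 (-1) (neg_ne_zero.2 one_ne_zero) hm2)
        (R.G_mem_M S hi (R.T_le_G S hi1 (R.nw_T S hi1 (-1) (neg_ne_zero.2 one_ne_zero) hy)))
    rw [show N * X * c' * (m2 * y) * N =
      (N * X * N⁻¹) * ((N * c' * N⁻¹) * (N * N)) * (N⁻¹ * (m2 * y) * N) by group]
    refine Cell.right R S hi ?_ hc2
    rw [hNX, ← mul_assoc]
    refine Cell.right R S hi ?_ (R.nw_sq S hi1)
    set d := -β'
    rcases hc' with rfl | ⟨hi2, rfl⟩ | rfl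
    · rw [show S.s (R.e (i + 1)) (d • R.f i) * (N * 1 * N⁻¹) =
        S.s (R.e (i + 1)) (d • R.f i) by group]
      exact R.cell_xm S hi hi1 d
    · -- two long elements
      have h02 := R.two i (i + 1 + 1) hi hi2 (by omega)
      have h12 := R.twoSucc hi2
      set t := R.nw S (i + 1) 1 with ht
      have et : ∀ c : F, t * R.nw S i c * t⁻¹ =
          S.nl (R.e i) (R.f i) (R.e (i + 1 + 1)) (R.f (i + 1 + 1)) c := by
        intro c
        rw [ht, nw, nw, S.conj_nl _ h, S.nl_e h12 1 one_ne_zero, S.nl_f h12 1 one_ne_zero,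
          inv_one, one_smul, one_smul, S.nl_fix h12 1 (by rw [polar_comm]; exact ee')
            (by rw [polar_comm]; exact ef') (by rw [polar_comm]; exact h02.2.2.1)
            (by rw [polar_comm]; exact h02.2.2.2.1),
          S.nl_fix h12 1 (by rw [polar_comm]; exact fe') (by rw [polar_comm]; exact ff')
            (by rw [polar_comm]; exact h02.2.2.2.2.1) (by rw [polar_comm]; exact h02.2.2.2.2.2)]
      have eP : N * t * N⁻¹ = t * R.nw S i (-1) * t⁻¹ := by
        rw [et, hN, ht, nw, nw, S.conj_nl _ h12, S.nl_e' h 1 one_ne_zero, S.nl_f' h 1 one_ne_zero,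
          S.nl_fix h 1 h02.2.2.1 h02.2.2.2.2.1 h12.2.2.1 h12.2.2.2.2.1,
          S.nl_fix h 1 h02.2.2.2.1 h02.2.2.2.2.2 h12.2.2.2.1 h12.2.2.2.2.2,
          show -(1 : F)⁻¹ = (-1)⁻¹ from inv_neg.symm,
          S.nl_scale _ _ _ _ (-1) 1 (neg_ne_zero.2 one_ne_zero) h02, mul_one]
      rw [eP]
      set P := t * R.nw S i (-1) * t⁻¹
      have hPcell : R.Cell S i hi P := by
        obtain ⟨z, hz, ez⟩ := R.nw_scale S hi1 1 (-1) (neg_ne_zero.2 one_ne_zero)
        rw [mul_one] at ez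
        have htM : t ∈ R.M S i hi := R.G_mem_M S hi (R.nw_mem_G S hi2 1)
        refine ⟨t * z, mul_mem htM (R.T_mem_M S hi hz), N, hNrep, z⁻¹ * t⁻¹,
          mul_mem (inv_mem (R.T_mem_M S hi hz)) (inv_mem htM), ?_⟩
        simp only [P]
        rw [← ez, hN]; group
      rw [show S.s (R.e (i + 1)) (d • R.f i) * P =
        P * (P⁻¹ * S.s (R.e (i + 1)) (d • R.f i) * P⁻¹⁻¹) by group]
      refine Cell.right R S hi hPcell (R.G_mem_M S hi ?_)
      have hPi : P⁻¹ = S.nl (R.e i) (R.f i) (R.e (i + 1 + 1)) (R.f (i + 1 + 1)) 1 := by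
        simp only [P]
        rw [et, S.nl_inv h02, neg_neg]
      have hfix : act τ P⁻¹ (R.e (i + 1)) = R.e (i + 1) := by
        rw [hPi, S.nl_fix h02 1 ee' fe' (by rw [polar_comm]; exact h12.2.2.1)
          (by rw [polar_comm]; exact h12.2.2.2.1)]
      rw [S.conj _ e1 (hxm d), hfix, map_smul, hPi, S.nl_f h02 1 one_ne_zero, one_smul]
      exact R.s_mem_G S e1 (by rw [polar_smul_right, h12.2.2.2.1, smul_zero]) (R.U_e le_rfl hi1)
        (R.U_smul _ (R.U_f (by omega) hi2))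
    · -- long and short
      rw [hN, om, R.nw_ns' S hi1 1 one_ne_zero (R.U_w0 le_rfl) R.q0, neg_one_smul,
        ← S.ns_inv (R.pair i hi) (R.he0 i hi) (R.hf0 i hi), ← om]
      rw [show S.s (R.e (i + 1)) (d • R.f i) * (R.om S i)⁻¹ =
        (R.om S i)⁻¹ * (R.om S i * S.s (R.e (i + 1)) (d • R.f i) * (R.om S i)⁻¹) by group]
      refine Cell.right R S hi ?_ ?_
      · rw [(R.om_inv S hi).1]
        exact Cell.left R S hi (R.cell_rep S hi (Or.inr (Or.inr rfl)))
          (R.T_mem_M S hi (R.om_inv S hi).2.1)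
      · have hne : i + 1 ≠ i := by omega
        rw [S.conj _ e1 (hxm d), (R.om_fix S hi hi1 hne).1, map_smul, R.om_f S hi, smul_smul,
          S.swap e1 (by rw [QuadraticMap.map_smul, e0, smul_zero])
            (by rw [polar_smul_right, polar_comm, ee', smul_zero]),
          S.smul _ e0 (by rw [polar_neg_right, ee', neg_zero])]
        exact R.C_mem_M S hi (R.U_smul _ (R.U_neg (R.U_e (by omega) hi1)))
          (by rw [polar_smul_right, polar_neg_right, ee']; simp)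
  · -- `r` is the short element
    have hL : (R.om S i)⁻¹ * (c' * m2 * y) * R.om S i ∈ R.M S i hi :=
      R.om_L S hi (mul_mem hc'G (R.M_le_G S hi1 hm2)) hy
    rw [show N * X * c' * (m2 * y) * R.om S i =
      (N * X * R.om S i) * ((R.om S i)⁻¹ * (c' * m2 * y) * R.om S i) by group]
    refine Cell.right R S hi ?_ hL
    rcases eq_or_ne β' 0 with hβ | hβ
    · rw [hX, hβ, zero_smul, S.s_zero e0, mul_one,
        show N * R.om S i = (N * R.om S i * N⁻¹) * N by group]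
      refine Cell.left R S hi (R.cell_rep S hi hNrep) (R.G_mem_M S hi ?_)
      rw [hN, om, R.nw_ns S hi1 1 one_ne_zero (R.U_w0 le_rfl) R.q0]
      exact R.ns_mem_G S hi1 (R.U_smul _ (R.U_w0 le_rfl))
    set c := β'⁻¹ with hc
    set Xm := S.s (R.e (i + 1)) (c • R.f i)
    have hXeq : X = Xm * R.nw S i β' * Xm := by
      rw [nw, S.nl_eq h β' hβ]
      simp only [Xm, hc, hX]
      rw [neg_smul, S.s_neg e1 (hxm _)]
      group
    rw [hXeq, show N * (Xm * R.nw S i β' * Xm) * R.om S i =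
      (N * Xm * N⁻¹) * (N * R.nw S i β') *
        (R.om S i * ((R.om S i)⁻¹ * Xm * (R.om S i)⁻¹⁻¹)) by group]
    refine Cell.left R S hi (Cell.right R S hi (R.cell_rep S hi (Or.inr (Or.inr rfl))) ?_)
      (mul_mem ?_ (R.nw_mul_nw S hi1 β' hβ))
    · have hne : i + 1 ≠ i := by omega
      have f1' : act τ (R.om S i)⁻¹ (R.e (i + 1)) = R.e (i + 1) := by
        conv_lhs => rw [← (R.om_fix S hi hi1 hne).1]
        exact act_inv_apply τ _ _
      have f2' : act τ (R.om S i)⁻¹ (R.f i) = -Q R.w0 • R.e i := by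
        rw [← act_inv_apply τ (R.om S i) (-Q R.w0 • R.e i), map_smul (act τ (R.om S i)),
          R.om_e S hi, smul_smul, neg_mul_neg, mul_inv_cancel₀ R.q0, one_smul]
      rw [S.conj _ e1 (hxm c), f1', map_smul, f2', smul_smul,
        S.swap e1 (by rw [QuadraticMap.map_smul, e0, smul_zero])
          (by rw [polar_smul_right, polar_comm, ee', smul_zero]),
        S.smul _ e0 (by rw [polar_neg_right, ee', neg_zero])]
      exact R.C_mem_M S hi (R.U_smul _ (R.U_neg (R.U_e (by omega) hi1)))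
        (by rw [polar_smul_right, polar_neg_right, ee']; simp)
    · have hef2 : polar Q (R.e i) (c • R.f (i + 1)) = 0 := hfe c
      rw [S.conj _ e1 (hxm c), hN, nw, S.nl_e' h 1 one_ne_zero, map_smul,
        S.nl_f h 1 one_ne_zero, one_smul, S.smul _ e0 hef2]
      exact R.C_mem_M S hi (R.U_smul _ (R.U_smul _ hfU))
        (by rw [polar_smul_right, hef2, smul_zero])

theorem om_base (hn : i + 1 = n) {g : E} (hg : R.Cell S i hi g) :
    R.Cell S i hi (R.om S i * g) := by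
  obtain ⟨m, hm, r, hr, m', hm', rfl⟩ := hg
  rw [show R.om S i * (m * r * m') = (R.om S i * m * r) * m' by group]
  refine Cell.right R S hi ?_ hm'
  have hrep : R.Rep S i (R.om S i) := Or.inr (Or.inr rfl)
  rcases hr with rfl | ⟨h, -⟩ | rfl
  · exact ⟨1, one_mem _, _, hrep, m, hm, by group⟩
  · omega
  obtain ⟨a, x, y, ha, hae, hx, hy, rfl⟩ := hm
  obtain ⟨e0, f0, ef⟩ := R.pair i hi
  have hinv := R.om_inv S hi
  have hy' : (R.om S i)⁻¹ * (x * y) * R.om S i ∈ R.M S i hi := R.om_L S hi hx hy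
  rw [show R.om S i * (S.s (R.e i) a * x * y) * R.om S i =
    (R.om S i * S.s (R.e i) a * R.om S i) * ((R.om S i)⁻¹ * (x * y) * R.om S i) by group]
  refine Cell.right R S hi ?_ hy'
  set μ := polar Q (R.f i) a
  set w := a - μ • R.e i
  have hw : R.U n w := by
    refine (congrArg (fun m => R.U m w) hn).mp ?_
    exact R.U_succ (R.U_sub ha (R.U_smul _ (R.U_e le_rfl hi)))
      (by rw [polar_sub_right, hae, polar_smul_right, pol_self e0]; simp)
      (by rw [polar_sub_right, polar_smul_right, polar_comm Q (R.f i) (R.e i), ef]; simp [μ])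
  rw [show a = w + μ • R.e i by simp [w], S.addSelf μ e0 (hw i hi).1]
  have hsq : R.om S i * R.om S i ∈ R.M S i hi := by
    have : R.om S i * R.om S i = (R.k S i (-R.w0))⁻¹ := by
      calc R.om S i * R.om S i = (R.k S i (-R.w0))⁻¹ * ((R.k S i (-R.w0) * R.om S i) * R.om S i) := by
            group
        _ = _ := by rw [← hinv.1]; group
    rw [this]
    exact R.T_mem_M S hi (inv_mem hinv.2.1)
  rcases eq_or_ne w 0 with hw0 | hw0
  · rw [hw0, S.s_zero e0, mul_one]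
    exact R.cell_M S hi hsq
  have hqw : Q w ≠ 0 := fun h => hw0 (R.aniso w hw h)
  set b := (Q w)⁻¹ • w
  have hfb : polar Q (R.f i) b = 0 := by rw [polar_smul_right, (hw i hi).2, smul_zero]
  have hs : S.s (R.e i) w =
      (S.s (R.f i) b)⁻¹ * S.ns (R.e i) (R.f i) w * (S.s (R.f i) b)⁻¹ := by
    rw [S.ns_eq (R.pair i hi) (hw i hi).1 (hw i hi).2 hqw]; simp only [b]; group
  rw [hs, ← S.s_neg f0 hfb, show R.om S i * (S.s (R.f i) (-b) * S.ns (R.e i) (R.f i) w *
      S.s (R.f i) (-b)) * R.om S i =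
    (R.om S i * S.s (R.f i) (-b) * (R.om S i)⁻¹) *
    ((R.om S i * R.k S i w * (R.om S i)⁻¹) * (R.om S i * R.om S i)) *
    (R.om S i * ((R.om S i)⁻¹ * S.s (R.f i) (-b) * (R.om S i)⁻¹⁻¹)) by
      rw [k, ← hinv.2.2]; group]
  have hbn : polar Q (R.f i) (-b) = 0 := by rw [polar_neg_right, hfb, neg_zero]
  have hbU : R.U i (-b) := R.U_mono hi.le (R.U_neg (R.U_smul _ hw))
  have fto : ∀ z : E, (∃ c : F, c ≠ 0 ∧ act τ z (R.f i) = c • R.e i) →
      R.U i (act τ z (-b)) → z * S.s (R.f i) (-b) * z⁻¹ ∈ R.M S i hi := by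
    rintro z ⟨c, hc, hz⟩ hzU
    have he : polar Q (R.e i) (act τ z (-b)) = 0 := by
      have := act_polar τ z (R.f i) (-b)
      rw [hz, hbn, polar_smul_left, smul_eq_mul] at this
      exact (mul_eq_zero.1 this).resolve_left hc
    rw [S.conj _ f0 hbn, hz, S.smul c e0 he]
    exact R.C_mem_M S hi (R.U_smul _ hzU) (by rw [polar_smul_right, he, smul_zero])
  refine Cell.left R S hi (Cell.right R S hi (R.cell_rep S hi hrep) ?_) (mul_mem ?_ ?_)
  · refine fto _ ⟨-Q R.w0, neg_ne_zero.2 R.q0, ?_⟩ ?_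
    · rw [← act_inv_apply τ (R.om S i) (-Q R.w0 • R.e i), map_smul (act τ (R.om S i)),
        R.om_e S hi, smul_smul, neg_mul_neg, mul_inv_cancel₀ R.q0, one_smul]
    · exact R.U_act_G S le_rfl (inv_mem (R.ns_mem_G S hi (R.U_w0 le_rfl))) hbU
  · exact fto _ ⟨-Q R.w0, neg_ne_zero.2 R.q0, R.om_f S hi⟩ (R.U_act_om S hi hi.le hbU)
  · refine mul_mem ?_ hsq
    rw [show R.om S i * R.k S i w * (R.om S i)⁻¹ =
      (R.k S i (-R.w0))⁻¹ * ((R.om S i)⁻¹ * (1 * R.k S i w) * R.om S i) * R.k S i (-R.w0) by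
      rw [eq_mul_inv_of_mul_eq hinv.1.symm]; group]
    exact mul_mem (mul_mem (inv_mem (R.T_mem_M S hi hinv.2.1))
      (R.om_L S hi (one_mem _) (R.k_mem S hw hqw))) (R.T_mem_M S hi hinv.2.1)

theorem H_cell (IH : ∀ (h : i + 1 < n), ∀ x ∈ R.G S (i + 1), R.Cell S (i + 1) h x)
    {g : E} (hg : g ∈ R.H S i hi) : R.Cell S i hi g := by
  let P : E → Prop := fun g => ∀ x, R.Cell S i hi x → R.Cell S i hi (g * x)
  have hmul : ∀ {a b}, P a → P b → P (a * b) := fun {a b} ha hb x hx => by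
    rw [mul_assoc]; exact ha _ (hb x hx)
  have hM : ∀ {a}, a ∈ R.M S i hi → P a ∧ P a⁻¹ := fun {a} ha =>
    ⟨fun x hx => Cell.left R S hi hx ha, fun x hx => Cell.left R S hi hx (inv_mem ha)⟩
  have hn : ∀ (h : i + 1 < n), P (R.nw S i 1) ∧ P (R.nw S i 1)⁻¹ := fun h => by
    obtain ⟨y, hy, e⟩ := R.nw_scale S h 1 (-1) (neg_ne_zero.2 one_ne_zero)
    rw [neg_one_mul, ← R.nw_inv S h] at e
    have h1 : P (R.nw S i 1) := fun x hx => R.nw_cell S hi h (IH h) hx
    exact ⟨h1, e ▸ hmul (hmul (hM (R.T_mem_M S hi hy)).1 h1) (hM (R.T_mem_M S hi hy)).2⟩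
  have ho : P (R.om S i) ∧ P (R.om S i)⁻¹ := by
    have h1 : P (R.om S i) := by
      by_cases h : i + 1 < n
      · have e : R.om S i = (R.nw S i 1)⁻¹ * (R.nw S i 1 * R.om S i * (R.nw S i 1)⁻¹) *
          R.nw S i 1 := by group
        rw [e]
        refine hmul (hmul (hn h).2 (hM (R.G_mem_M S hi ?_)).1) (hn h).1
        rw [om, R.nw_ns S h 1 one_ne_zero (R.U_w0 le_rfl) R.q0]
        exact R.ns_mem_G S h (R.U_smul _ (R.U_w0 le_rfl))
      · exact fun x hx => R.om_base S hi (by omega) hx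
    exact ⟨h1, (R.om_inv S hi).1 ▸ hmul (hM (R.T_mem_M S hi (R.om_inv S hi).2.1)).1 h1⟩
  have h : P g ∧ P g⁻¹ := by
    induction hg using Subgroup.closure_induction with
    | mem x hx =>
      rcases hx with hx | (rfl | ⟨h, rfl⟩ | rfl)
      · exact hM hx
      · exact hM (one_mem _)
      · exact hn h
      · exact ho
    | one => exact ⟨fun x hx => by rwa [one_mul], fun x hx => by rwa [inv_one, one_mul]⟩
    | mul a b _ _ ha hb => exact ⟨hmul ha.1 hb.1, by rw [mul_inv_rev]; exact hmul hb.2 ha.2⟩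
    | inv a _ ha => exact ⟨ha.2, by rw [inv_inv]; exact ha.1⟩
  simpa using h.1 1 (R.cell_M S hi (one_mem _))

/-- `G i` is transitive on the singular lines in `U i`. -/
def Tr (i : ℕ) (hi : i < n) : Prop :=
  ∀ u, R.U i u → Q u = 0 → u ≠ 0 → ∃ g ∈ R.H S i hi, ∃ c : F, c ≠ 0 ∧ act τ g (R.e i) = c • u

theorem tr_of (IH : ∀ (h : i + 1 < n), R.Tr S (i + 1) h ∧ R.H S (i + 1) h ≤ R.G S (i + 1)) :
    R.Tr S i hi := by
  have hMH : ∀ {x}, x ∈ R.M S i hi → x ∈ R.H S i hi := fun {x} hx =>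
    Subgroup.subset_closure (Or.inl hx)
  have hRH : ∀ {x}, R.Rep S i x → x ∈ R.H S i hi := fun {x} hx =>
    Subgroup.subset_closure (Or.inr hx)
  obtain ⟨e0, f0, ef⟩ := R.pair i hi
  have caseA : ∀ u, R.U i u → Q u = 0 → u ≠ 0 → polar Q (R.e i) u = 0 →
      ∃ g ∈ R.H S i hi, ∃ c : F, c ≠ 0 ∧ act τ g (R.e i) = c • u := by
    intro u hu hq hu0 hγ
    set α := polar Q (R.f i) u
    set v := u - α • R.e i
    have hv : R.U (i + 1) v := R.U_succ (R.U_sub hu (R.U_smul _ (R.U_e le_rfl hi)))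
      (by rw [polar_sub_right, hγ, polar_smul_right, pol_self e0]; simp)
      (by rw [polar_sub_right, polar_smul_right, polar_comm Q (R.f i) (R.e i), ef]; simp [α])
    rcases eq_or_ne v 0 with hv0 | hv0
    · have hα : α ≠ 0 := fun h => hu0 (by
        rw [show u = v + α • R.e i by simp [v], hv0, h]; simp)
      refine ⟨1, one_mem _, α⁻¹, inv_ne_zero hα, ?_⟩
      rw [act_one, show u = α • R.e i from sub_eq_zero.1 hv0, smul_smul, inv_mul_cancel₀ hα,
        one_smul]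
    have hqv : Q v = 0 := by
      simp [v, qf_sub, QuadraticMap.map_smul, e0, polar_smul_right, hq, polar_comm Q u (R.e i), hγ]
    by_cases h1 : i + 1 < n
    · obtain ⟨g, hg, c, hc, hgc⟩ := (IH h1).1 v hv hqv hv0
      have hgG : g ∈ R.G S (i + 1) := (IH h1).2 hg
      have h2 := R.twoSucc h1
      set d := -(c * α) with hd
      have hC : polar Q (R.e i) (d • R.f (i + 1)) = 0 := by
        rw [polar_smul_right, h2.2.2.2.1, smul_zero]
      refine ⟨g * S.s (R.e i) (d • R.f (i + 1)) * R.nw S i 1, mul_mem (mul_mem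
        (hMH (R.G_mem_M S hi hgG))
        (hMH (R.C_mem_M S hi (R.U_smul _ (R.U_f (by omega) h1)) hC)))
        (hRH (Or.inr (Or.inl ⟨h1, rfl⟩))), c, hc, ?_⟩
      rw [act_mul_apply, act_mul_apply, nw, S.nl_e h2 1 one_ne_zero, inv_one, one_smul,
        (S.is_s e0 hC).2.2, h2.2.2.1, polar_smul_left, polar_comm Q (R.f (i + 1)) (R.e (i + 1)),
        h2.2.1.2.2]
      simp only [zero_smul, smul_eq_mul, mul_one, mul_zero, add_zero, sub_zero]
      rw [map_sub, map_smul, hgc, (R.G_fix_e S hgG (Nat.lt_succ_self i)).1, hd]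
      simp only [v]
      module
    · exact absurd (R.aniso v (fun j hj => hv j (by omega)) hqv) hv0
  intro u hu hq hu0
  set γ := polar Q (R.e i) u with hγdef
  rcases eq_or_ne γ 0 with hγ | hγ
  · exact caseA u hu hq hu0 hγ
  set α := polar Q (R.f i) u
  set v := u - α • R.e i - γ • R.f i
  have hee : polar Q (R.e i) (R.e i) = 0 := pol_self e0
  have hv : R.U (i + 1) v := R.U_succ
    (R.U_sub (R.U_sub hu (R.U_smul _ (R.U_e le_rfl hi))) (R.U_smul _ (R.U_f le_rfl hi)))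
    (by simp [v, polar_sub_right, polar_smul_right, hee, ef, hγdef])
    (by simp [v, polar_sub_right, polar_smul_right, pol_self f0, polar_comm Q (R.f i) (R.e i), ef,
      α])
  by_cases h1 : i + 1 < n
  · have h2 := R.twoSucc h1
    set a := γ⁻¹ • (R.e (i + 1) - v)
    have haU : R.U (i + 1) a := R.U_smul _ (R.U_sub (R.U_e le_rfl h1) hv)
    have hea : polar Q (R.e i) a = 0 := (haU i (by omega)).1
    set g := S.s (R.e i) a
    have hgm : g ∈ R.M S i hi := R.C_mem_M S hi (R.U_mono (by omega) haU) hea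
    set k := α - polar Q a u - Q a * γ with hk
    have hgu : act τ g u = γ • R.f i + R.e (i + 1) + k • R.e i := by
      rw [(S.is_s e0 hea).2.2, ← hγdef, show γ • a = R.e (i + 1) - v by
        simp only [a]; rw [smul_smul, mul_inv_cancel₀ hγ, one_smul], hk]
      simp only [v]
      module
    have hk0 : k = 0 := by
      have hq' : Q (γ • R.f i + R.e (i + 1) + k • R.e i) = 0 := by rw [← hgu, act_Q, hq]
      rw [qf_add, qf_add, QuadraticMap.map_smul, QuadraticMap.map_smul, f0, e0, h2.2.1.1,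
        polar_smul_left, h2.2.2.2.2.1, polar_smul_right, polar_add_left, polar_smul_left,
        polar_comm Q (R.f i) (R.e i), ef, polar_comm Q (R.e (i + 1)) (R.e i), h2.2.2.1] at hq'
      simp only [smul_eq_mul, mul_zero, add_zero, mul_one, zero_add] at hq'
      exact (mul_eq_zero.1 hq').resolve_right hγ
    rw [hk0, zero_smul, add_zero] at hgu
    set z := γ • R.f (i + 1) - R.e i
    have hz : act τ (R.nw S i 1) (γ • R.f i + R.e (i + 1)) = z := by
      simp only [nw, map_add, map_smul, S.nl_f h2 1 one_ne_zero, S.nl_e' h2 1 one_ne_zero, z]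
      module
    have hzU : R.U i z :=
      R.U_sub (R.U_smul _ (R.U_f (by omega) h1)) (R.U_e le_rfl hi)
    have hzq : Q z = 0 := by rw [← hz, act_Q, ← hgu, act_Q, hq]
    have hzp : polar Q (R.e i) z = 0 := by
      simp [z, polar_sub_right, polar_smul_right, h2.2.2.2.1, hee]
    have hz0 : z ≠ 0 := fun h => by
      have := congrArg (fun x => polar Q (R.f i) x) h
      simp [z, polar_sub_right, polar_smul_right, h2.2.2.2.2.2, polar_comm Q (R.f i) (R.e i),
        ef] at this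
    obtain ⟨g', hg', c, hc, hgc⟩ := caseA z hzU hzq hz0 hzp
    refine ⟨g⁻¹ * (R.nw S i 1)⁻¹ * g', mul_mem (mul_mem (inv_mem (hMH hgm))
      (inv_mem (hRH (Or.inr (Or.inl ⟨h1, rfl⟩))))) hg', c, hc, ?_⟩
    rw [act_mul_apply, act_mul_apply, hgc, map_smul, ← hz, act_inv_apply, map_smul, ← hgu,
      act_inv_apply]
  · set a := -(γ⁻¹ • v)
    have haU : R.U (i + 1) a := R.U_neg (R.U_smul _ hv)
    have hea : polar Q (R.e i) a = 0 := (haU i (by omega)).1
    set g := S.s (R.e i) a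
    set k := α - polar Q a u - Q a * γ with hk
    have hgu : act τ g u = γ • R.f i + k • R.e i := by
      rw [(S.is_s e0 hea).2.2, ← hγdef, show γ • a = -v by
        simp only [a]; rw [smul_neg, smul_smul, mul_inv_cancel₀ hγ, one_smul], hk]
      simp only [v]
      module
    have hk0 : k = 0 := by
      have hq' : Q (γ • R.f i + k • R.e i) = 0 := by rw [← hgu, act_Q, hq]
      rw [qf_add, QuadraticMap.map_smul, QuadraticMap.map_smul, f0, e0, polar_smul_right,
        polar_smul_left, polar_comm Q (R.f i) (R.e i), ef] at hq'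
      simp only [smul_eq_mul, mul_zero, add_zero, mul_one, zero_add] at hq'
      exact (mul_eq_zero.1 hq').resolve_right hγ
    rw [hk0, zero_smul, add_zero] at hgu
    refine ⟨g⁻¹ * R.om S i, mul_mem (inv_mem (hMH (R.C_mem_M S hi (R.U_mono (by omega) haU) hea)))
      (hRH (Or.inr (Or.inr rfl))), -(Q R.w0)⁻¹ * γ⁻¹, by simp [R.q0, hγ], ?_⟩
    rw [act_mul_apply, R.om_e S hi,
      show (-(Q R.w0)⁻¹) • R.f i = (-(Q R.w0)⁻¹ * γ⁻¹) • (γ • R.f i) by
        rw [smul_smul, mul_assoc, inv_mul_cancel₀ hγ, mul_one],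
      ← hgu, map_smul, act_inv_apply]

/-- The cells fill `G i`, downwards from the last pair. -/
theorem good : ∀ k i, (hi : i < n) → i + k + 1 = n →
    (∀ x ∈ R.G S i, R.Cell S i hi x) ∧ R.Tr S i hi := by
  have key : ∀ i (hi : i < n),
      (∀ h : i + 1 < n, (∀ x ∈ R.G S (i + 1), R.Cell S (i + 1) h x) ∧ R.Tr S (i + 1) h) →
      (∀ x ∈ R.G S i, R.Cell S i hi x) ∧ R.Tr S i hi := by
    intro i hi IH
    have htr : R.Tr S i hi := R.tr_of S hi fun h => ⟨(IH h).2, R.H_le_G S h⟩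
    refine ⟨fun x hx => R.H_cell S hi (fun h => (IH h).1) ?_, htr⟩
    refine (Subgroup.closure_le _).2 ?_ hx
    rintro _ ⟨u, a, hu, hua, hU, haU, rfl⟩
    rcases eq_or_ne u 0 with rfl | hu0
    · rw [SetLike.mem_coe, S.s_left_zero]; exact one_mem _
    obtain ⟨g, hg, c, hc, hgc⟩ := htr u hU hu hu0
    set b := c⁻¹ • act τ g⁻¹ a
    have hgG := R.H_le_G S hi hg
    have hpa : polar Q (R.e i) (act τ g⁻¹ a) = 0 := by
      have h := act_polar τ g (R.e i) (act τ g⁻¹ a)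
      rw [hgc, ← act_mul_apply, mul_inv_cancel, act_one, polar_smul_left, hua, smul_zero] at h
      exact h.symm
    have e : S.s u a = g * S.s (R.e i) b * g⁻¹ := by
      rw [S.conj g (R.pair i hi).1 (by rw [polar_smul_right, hpa, smul_zero]), hgc, map_smul,
        ← act_mul_apply, mul_inv_cancel, act_one,
        S.smul c hu (by rw [polar_smul_right, hua, smul_zero]), smul_smul, mul_inv_cancel₀ hc,
        one_smul]
    rw [e]
    refine mul_mem (mul_mem hg (Subgroup.subset_closure (Or.inl ?_))) (inv_mem hg)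
    exact R.C_mem_M S hi (R.U_smul _ (R.U_act_G S le_rfl (inv_mem hgG) haU))
      (by rw [polar_smul_right, hpa, smul_zero])
  intro k
  induction k with
  | zero => exact fun i hi hk => key i hi fun h => absurd hk (by omega)
  | succ k ih => exact fun i hi hk => key i hi fun h => ih (i + 1) h (by omega)

/-- The kernel descends to the orthogonal of the pair. -/
theorem ker_descend (hi1 : i + 1 < n) {z : E} (hz : z ∈ R.G S i) (hz1 : τ z = 1) :
    z ∈ R.G S (i + 1) := by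
  have hi' : i < n := by omega
  obtain ⟨m, hm, r, hr, m', hm', rfl⟩ := (R.good S (n - i - 1) i hi' (by omega)).1 z hz
  have hact : ∀ v, act τ (m * r * m') v = v := fun v => by
    show (τ (m * r * m') : OQ Q).1 v = v
    rw [hz1]; rfl
  have h2 := R.twoSucc hi1
  rcases hr with rfl | hr
  · rw [mul_one] at hz1 hact ⊢
    obtain ⟨a, x, t, ha, hae, hx, ht, e⟩ := mul_mem hm hm'
    rw [e] at hact hz1 ⊢
    obtain ⟨e0, f0, ef⟩ := R.pair i hi'
    obtain ⟨⟨c, hc, t1, t2⟩, t3⟩ := R.T_act S hi' ht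
    have hx1 := R.G_fix_e S hx (Nat.lt_succ_self i)
    have hc1 : c = 1 := by
      have h := hact (R.e i)
      rw [act_mul_apply, act_mul_apply, t1, map_smul, hx1.1, map_smul,
        (S.is_s e0 hae).fix_self] at h
      have h' := congrArg (fun v => polar Q (R.f i) v) h
      simp only [polar_smul_right, polar_comm Q (R.f i) (R.e i), ef, smul_eq_mul, mul_one] at h'
      exact h'
    subst hc1
    have hs1 : S.s (R.e i) a = 1 := by
      have h := hact (R.f i)
      rw [act_mul_apply, act_mul_apply, t2, inv_one, one_smul, hx1.2, (S.is_s e0 hae).2.2, ef,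
        one_smul, mul_one] at h
      have ha' : a = (polar Q a (R.f i) + Q a) • R.e i := by
        linear_combination (norm := module) h
      rw [ha', S.s_smul_self e0]
    rw [hs1, one_mul] at hact ⊢
    refine mul_mem hx ?_
    have htj : act τ t (R.e (i + 1)) = R.e (i + 1) ∧ act τ t (R.f (i + 1)) = R.f (i + 1) :=
      t3 (i + 1) hi1 (by omega)
    have h := S.conj_nl t h2 (1 : F)
    rw [t1, t2, inv_one, one_smul, one_smul, htj.1, htj.2, ← nw] at h
    have e' : R.nw S i 1 * t * (R.nw S i 1)⁻¹ = t := by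
      rw [mul_inv_eq_iff_eq_mul] at h ⊢
      exact h.symm
    rw [← e']
    exact R.T_le_G S hi1 (R.nw_T S hi1 1 one_ne_zero ht)
  · exfalso
    obtain ⟨c, hc, hce⟩ := R.M_line S hi' hm'
    obtain ⟨d, hd, hde⟩ := R.M_line S hi' hm
    have h := hact (R.e i)
    rw [act_mul_apply, act_mul_apply, hce, map_smul, map_smul] at h
    have h' := congrArg (act τ m⁻¹) h
    have hmi := act_inv_apply τ m (d⁻¹ • R.e i)
    rw [map_smul (act τ m), hde, smul_smul, inv_mul_cancel₀ hd, one_smul] at hmi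
    rw [map_smul, act_inv_apply, hmi] at h'
    have q := congrArg (fun v => polar Q (R.f i) v) h'
    have q' := congrArg (fun v => polar Q (R.e i) v) h'
    rcases hr with ⟨-, rfl⟩ | rfl
    · rw [nw, S.nl_e h2 1 one_ne_zero] at q
      simp [polar_smul_right, h2.2.2.2.2.1, polar_comm Q (R.f i) (R.e i), h2.1.2.2] at q
      exact hd q.symm
    · rw [R.om_e S hi'] at q'
      simp [polar_smul_right, h2.1.2.2, pol_self h2.1.1, hc, R.q0] at q'

/-- The kernel lies in the lifts living on the last pair. -/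
theorem ker_le_last (hn : 1 ≤ n) {z : E} (hz : z ∈ R.G S 0) (hz1 : τ z = 1) :
    z ∈ R.G S (n - 1) := by
  have : ∀ i, i ≤ n - 1 → z ∈ R.G S i := by
    intro i
    induction i with
    | zero => exact fun _ => hz
    | succ i ih => exact fun h => R.ker_descend S (by omega) (ih (by omega)) hz1
  exact this _ le_rfl

end Fr

end Cfsg.Agent.CentralExt.MinusMult
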