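/-
The rank one subgroup of the last pair is perfect.
-/
import Cfsg.Agent.CentralExt.MinusMult.Cells

set_option autoImplicit false
set_option linter.unusedSectionVars false

namespace Cfsg.Agent.CentralExt.MinusMult

open Cfsg.Agent.Classical QuadraticMap
open scoped commutatorElement

universe u v w

variable {F : Type u} [Field F] {V : Type v} [AddCommGroup V] [Module F V] [Finite V]
  {Q : QuadraticForm F V} {E : Type w} [Group E] {τ : E →* EQ Q}

namespace Fr

variable {m : ℕ} (R : Fr Q (m + 1)) (S : Sys τ)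

theorem s_e_mem_commutator {w w' : V} (hw : R.U (m + 1) w) (hw' : R.U (m + 1) w') (hw0 : Q w ≠ 0)
    (he : Q w' = Q w) (hind : ∀ x y : F, x • w' + y • w = 0 → x = 0 ∧ y = 0)
    (hspan : ∀ p, R.U (m + 1) p → polar Q w p = 0 → polar Q w' p = 0 → p = 0)
    {p : V} (hp : R.U (m + 1) p) :
    S.s (R.e m) p ∈ ⁅R.G S m, R.G S m⁆ ∧ S.s (R.f m) p ∈ ⁅R.G S m, R.G S m⁆ := by
  have hm : m < m + 1 := Nat.lt_succ_self m
  have hpair := R.pair m hm
  have m1 : polar Q (R.e m) (-w') = 0 := by rw [polar_neg_right, (hw' m hm).1, neg_zero]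
  have m2 : polar Q (R.f m) (-w') = 0 := by rw [polar_neg_right, (hw' m hm).2, neg_zero]
  have q' : Q (-w') ≠ 0 := by rwa [QuadraticMap.map_neg, he]
  set h := S.ns (R.e m) (R.f m) w * S.ns (R.e m) (R.f m) (-w') with hh
  have hG : h ∈ R.G S m := by
    have hns : ∀ {y : V}, R.U (m + 1) y → S.ns (R.e m) (R.f m) y ∈ R.G S m := fun {y} hy => by
      have u1 := R.U_e (le_refl m) hm
      have u2 := R.U_f (le_refl m) hm
      have hy' := R.U_mono (Nat.le_succ m) hy
      have a1 := R.s_mem_G S hpair.1 (hy m hm).1 u1 hy'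
      exact mul_mem (mul_mem a1 (R.s_mem_G S hpair.2.1
        (by rw [polar_smul_right, (hy m hm).2, smul_zero]) u2 (R.U_smul _ hy'))) a1
    exact mul_mem (hns hw) (hns (R.U_neg hw'))
  have hhe : act τ h (R.e m) = R.e m := by
    rw [hh, act_mul_apply, S.ns_e hpair m1 m2 q', map_smul,
      S.ns_f hpair (hw m hm).1 (hw m hm).2 hw0, smul_smul, QuadraticMap.map_neg, he]
    rw [show -(Q w)⁻¹ * -Q w = (1 : F) by field_simp, one_smul]
  have hhf : act τ h (R.f m) = R.f m := by
    rw [hh, act_mul_apply, S.ns_f hpair m1 m2 q', map_smul,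
      S.ns_e hpair (hw m hm).1 (hw m hm).2 hw0, smul_smul, QuadraticMap.map_neg, he]
    rw [show -Q w * -(Q w)⁻¹ = (1 : F) by field_simp, one_smul]
  set r : V → V := fun v => act τ h v - v
  have hr : ∀ v, R.U (m + 1) v → act τ h v =
      (v - (polar Q w' v / Q w) • w') -
        (polar Q w (v - (polar Q w' v / Q w) • w') / Q w) • w := fun v hv => by
    have e1 : act τ (S.ns (R.e m) (R.f m) (-w')) v = v - (polar Q w' v / Q w) • w' := by
      rw [S.ns_perp hpair m1 m2 q' (hv m hm).1 (hv m hm).2, QuadraticMap.map_neg, he,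
        polar_neg_left]
      module
    have h1 : R.U (m + 1) (v - (polar Q w' v / Q w) • w') := R.U_sub hv (R.U_smul _ hw')
    rw [hh, act_mul_apply, e1, S.ns_perp hpair (hw m hm).1 (hw m hm).2 hw0 (h1 m hm).1 (h1 m hm).2]
  have hrU : ∀ v, R.U (m + 1) v → R.U (m + 1) (r v) := fun v hv => by
    show R.U (m + 1) (act τ h v - v)
    rw [hr v hv]
    exact R.U_sub (R.U_sub (R.U_sub hv (R.U_smul _ hw')) (R.U_smul _ hw)) hv
  have hinj : Function.Injective
      (fun v : {v // R.U (m + 1) v} => (⟨r v.1, hrU v.1 v.2⟩ : {v // R.U (m + 1) v})) := by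
    rintro ⟨a, ha⟩ ⟨b, hb⟩ hab
    have hd := R.U_sub ha hb
    have h0 : act τ h (a - b) = a - b := by
      have := congrArg Subtype.val hab
      simp only [r] at this
      rw [map_sub]
      exact sub_eq_sub_iff_sub_eq_sub.1 this
    rw [hr _ hd, sub_sub, sub_eq_self] at h0
    obtain ⟨x0, y0⟩ := hind _ _ h0
    rw [div_eq_zero_iff] at x0
    have hx := x0.resolve_right hw0
    rw [hx, zero_div, zero_smul, sub_zero, div_eq_zero_iff] at y0
    exact Subtype.ext (sub_eq_zero.1 (hspan _ hd (y0.resolve_right hw0) hx))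
  obtain ⟨⟨v, hv⟩, hvp⟩ := (Finite.injective_iff_surjective.1 hinj) ⟨p, hp⟩
  have hvp : act τ h v - v = p := congrArg Subtype.val hvp
  have key : ∀ {u : V}, Q u = 0 → act τ h u = u → R.U m u →
      polar Q u v = 0 → S.s u p ∈ ⁅R.G S m, R.G S m⁆ := fun {u} hu hfix hU huv => by
    have hp' : polar Q u (act τ h v) = 0 := by
      have := act_polar τ h u v
      rwa [hfix, huv] at this
    have e : ⁅h, S.s u v⁆ = S.s u p := by
      rw [commutatorElement_def, S.conj h hu huv, hfix, ← S.s_neg hu huv,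
        ← S.add hu hp' (by rw [polar_neg_right, huv, neg_zero]), ← sub_eq_add_neg, hvp]
    rw [← e]
    exact Subgroup.commutator_mem_commutator hG
      (R.s_mem_G S hu huv hU (R.U_mono (Nat.le_succ m) hv))
  exact ⟨key hpair.1 hhe (R.U_e (le_refl m) hm) (hv m hm).1,
    key hpair.2.1 hhf (R.U_f (le_refl m) hm) (hv m hm).2⟩

theorem G_last_perfect {w w' : V} (hw : R.U (m + 1) w) (hw' : R.U (m + 1) w') (hw0 : Q w ≠ 0)
    (he : Q w' = Q w) (hind : ∀ x y : F, x • w' + y • w = 0 → x = 0 ∧ y = 0)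
    (hspan : ∀ p, R.U (m + 1) p → polar Q w p = 0 → polar Q w' p = 0 → p = 0) :
    ⁅R.G S m, R.G S m⁆ = R.G S m := by
  refine le_antisymm (Subgroup.commutator_le_self _) ?_
  set C := ⁅R.G S m, R.G S m⁆
  have hm : m < m + 1 := Nat.lt_succ_self m
  have hpair := R.pair m hm
  have hee := pol_self hpair.1
  have hff := pol_self hpair.2.1
  have hfe : polar Q (R.f m) (R.e m) = 1 := by rw [polar_comm]; exact hpair.2.2
  -- the part of a vector in the plane
  have hdec : ∀ {a : V}, R.U m a →
      R.U (m + 1) (a - polar Q (R.f m) a • R.e m - polar Q (R.e m) a • R.f m) := fun {a} ha =>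
    R.U_succ (R.U_sub (R.U_sub ha (R.U_smul _ (R.U_e le_rfl hm))) (R.U_smul _ (R.U_f le_rfl hm)))
      (by simp [polar_sub_right, polar_smul_right, hee, hpair.2.2])
      (by simp [polar_sub_right, polar_smul_right, hff, hfe])
  have hconj : ∀ {x c : E}, x ∈ R.G S m → c ∈ C → x * c * x⁻¹ ∈ C := fun {x c} hx hc => by
    rw [show x * c * x⁻¹ = ⁅x, c⁆ * c by rw [commutatorElement_def]; group]
    exact mul_mem (Subgroup.commutator_mem_commutator hx (Subgroup.commutator_le_self _ hc)) hc
  have he' : ∀ {a : V}, R.U m a → polar Q (R.e m) a = 0 → S.s (R.e m) a ∈ C := fun {a} ha ha0 => by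
    have h1 := hdec ha
    rw [ha0, zero_smul, sub_zero] at h1
    have h2 := (R.s_e_mem_commutator S hw hw' hw0 he hind hspan h1).1
    rwa [← S.addSelf (polar Q (R.f m) a) hpair.1
      (by rw [polar_sub_right, polar_smul_right, hee, ha0]; simp), sub_add_cancel] at h2
  have hf' : ∀ {a : V}, R.U m a → polar Q (R.f m) a = 0 → S.s (R.f m) a ∈ C := fun {a} ha ha0 => by
    have h1 := hdec ha
    rw [ha0, zero_smul, sub_zero] at h1
    have h2 := (R.s_e_mem_commutator S hw hw' hw0 he hind hspan h1).2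
    rwa [← S.addSelf (polar Q (R.e m) a) hpair.2.1
      (by rw [polar_sub_right, polar_smul_right, hff, ha0]; simp), sub_add_cancel] at h2
  refine (Subgroup.closure_le _).2 ?_
  rintro _ ⟨u, a, hu, hua, hUu, hUa, rfl⟩
  show S.s u a ∈ C
  set z := u - polar Q (R.f m) u • R.e m - polar Q (R.e m) u • R.f m with hz
  have hzU := hdec hUu
  have hu' : u = polar Q (R.f m) u • R.e m + z + polar Q (R.e m) u • R.f m := by rw [hz]; abel
  have hQ : polar Q (R.f m) u * polar Q (R.e m) u + Q z = 0 := by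
    have h1 := (hzU m hm).1
    have h2 := (hzU m hm).2
    rw [← hz] at h1 h2
    have := hu
    rw [hu'] at this
    simp only [qf_add, QuadraticMap.map_smul, polar_add_left, polar_smul_left, polar_smul_right,
      hpair.1, hpair.2.1, h1, hpair.2.2, polar_comm Q z (R.f m), h2, smul_eq_mul, mul_zero,
      zero_add, add_zero, mul_one] at this
    linear_combination this
  by_cases hα : polar Q (R.f m) u = 0
  · rw [hα, zero_mul, zero_add] at hQ
    have hz0 : z = 0 := R.aniso z (fun i hi => hzU i hi) hQ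
    rw [hα, zero_smul, zero_add, hz0, zero_add] at hu'
    rw [hu'] at hua ⊢
    rw [polar_smul_left, smul_eq_mul] at hua
    rcases eq_or_ne (polar Q (R.e m) u) 0 with h0 | h0
    · rw [h0, zero_smul, S.s_left_zero]; exact one_mem _
    · rw [S.smul _ hpair.2.1 ((mul_eq_zero.1 hua).resolve_left h0)]
      exact hf' (R.U_smul _ hUa)
        (by rw [polar_smul_right, (mul_eq_zero.1 hua).resolve_left h0, smul_zero])
  · set α := polar Q (R.f m) u
    have hw2 : polar Q (R.f m) (α⁻¹ • z) = 0 := by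
      rw [polar_smul_right, (hzU m hm).2, smul_zero]
    have hxG : S.s (R.f m) (α⁻¹ • z) ∈ R.G S m :=
      R.s_mem_G S hpair.2.1 hw2 (R.U_f le_rfl hm) (R.U_smul _ (R.U_mono (Nat.le_succ m) hzU))
    set x := S.s (R.f m) (α⁻¹ • z) with hx
    have hxe : act τ x (α • R.e m) = u := by
      conv_rhs => rw [hu']
      rw [map_smul, hx, S.act_s hpair.2.1 hw2, hfe, polar_smul_left, polar_comm Q z (R.e m),
        (hzU m hm).1, QuadraticMap.map_smul, smul_eq_mul, mul_zero, zero_smul, sub_zero, smul_eq_mul,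
        show polar Q (R.e m) u = -(Q z) / α by field_simp; linear_combination hQ]
      match_scalars <;> field_simp <;> ring
    have hb : act τ x (act τ x⁻¹ a) = a := by rw [← act_mul_apply, mul_inv_cancel, act_one]
    have hbU : R.U m (act τ x⁻¹ a) := R.U_act_G S le_rfl (inv_mem hxG) hUa
    have hb0 : polar Q (R.e m) (act τ x⁻¹ a) = 0 := by
      have := act_polar τ x (α • R.e m) (act τ x⁻¹ a)
      rw [hxe, hb, hua, polar_smul_left, smul_eq_mul] at this
      exact (mul_eq_zero.1 this.symm).resolve_left hα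
    have e : S.s u a = x * S.s (α • R.e m) (act τ x⁻¹ a) * x⁻¹ := by
      rw [S.conj x (by rw [QuadraticMap.map_smul, hpair.1, smul_zero])
        (by rw [polar_smul_left, hb0, smul_zero]), hxe, hb]
    rw [e, S.smul _ hpair.1 hb0]
    exact hconj hxG (he' (R.U_smul _ hbU) (by rw [polar_smul_right, hb0, smul_zero]))

end Fr

end Cfsg.Agent.CentralExt.MinusMult
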