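/-
The minus type space: the standing hypotheses and a frame.
-/
import Cfsg.Agent.CentralExt.MinusMult.Cells
import Cfsg.Agent.Classical.OrthFinal

set_option autoImplicit false
set_option linter.unusedSectionVars false

namespace Cfsg.Agent.CentralExt.MinusMult

open Cfsg.Agent.Classical QuadraticMap Module

universe u w

variable {F : Type u} [Field F] {W : Type w} [AddCommGroup W] [Module F W]

theorem polar_hypExt' (m : ℕ) (Q₀ : QuadraticForm F W) (x y : HypSpace F m W) :
    polar (hypExt m Q₀) x y =
      (∑ i : Fin m, (x.1 (.inl i) * y.1 (.inr i) + x.1 (.inr i) * y.1 (.inl i))) +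
        polar Q₀ x.2 y.2 := by
  simp only [polar, hypExt_apply, Prod.fst_add, Prod.snd_add, Pi.add_apply, add_mul, mul_add,
    Finset.sum_add_distrib, mul_comm (x.1 (Sum.inr _)) (y.1 (Sum.inl _))]
  ring

theorem polar_hypExt_single_inl (m : ℕ) (Q₀ : QuadraticForm F W) (i : Fin m) (c : F)
    (y : HypSpace F m W) :
    polar (hypExt m Q₀) (Pi.single (.inl i) c, 0) y = c * y.1 (.inr i) := by
  rw [polar_hypExt', polar_zero_left, add_zero, Finset.sum_eq_single i]
  · simp
  · intro j _ hj
    simp [Ne.symm hj]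
  · simp

theorem polar_hypExt_single_inr (m : ℕ) (Q₀ : QuadraticForm F W) (i : Fin m) (c : F)
    (y : HypSpace F m W) :
    polar (hypExt m Q₀) (Pi.single (.inr i) c, 0) y = c * y.1 (.inl i) := by
  rw [polar_hypExt', polar_zero_left, add_zero, Finset.sum_eq_single i]
  · simp
  · intro j _ hj
    simp [Ne.symm hj]
  · simp

theorem hypExt_single (m : ℕ) (Q₀ : QuadraticForm F W) (i : Fin m ⊕ Fin m) (c : F) :
    hypExt m Q₀ (Pi.single i c, 0) = 0 := by
  rw [hypExt_apply, QuadraticMap.map_zero, add_zero]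
  refine Finset.sum_eq_zero fun j _ => ?_
  rcases i with i | i <;> simp

variable [FiniteDimensional F W]

/-- Totally singular subspaces over an anisotropic core are small. -/
theorem finrank_le_of_totallySingular {Q₀ : QuadraticForm F W} (hA : Q₀.Anisotropic) :
    ∀ (m : ℕ) (T : Submodule F (HypSpace F m W)), (∀ x ∈ T, hypExt m Q₀ x = 0) →
      finrank F T ≤ m
  | 0, T, h => by
    rw [Nat.le_zero, Submodule.finrank_eq_zero, Submodule.eq_bot_iff]
    intro x hx
    have := h x hx
    rw [hypExt_apply, Finset.univ_eq_empty, Finset.sum_empty, zero_add] at this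
    exact Prod.ext (Subsingleton.elim _ _) (hA _ this)
  | m + 1, T, h => by
    let c : HypSpace F (m + 1) W →ₗ[F] F :=
      (LinearMap.proj (Sum.inl 0)).comp (LinearMap.fst F _ W)
    let p : HypSpace F (m + 1) W →ₗ[F] HypSpace F m W :=
      (LinearMap.snd F (F × F) _).comp (hypSplit m).toLinearMap
    let T' : Submodule F (HypSpace F (m + 1) W) := T ⊓ LinearMap.ker c
    have hc : ∀ x, c x = ((hypSplit m x).1).1 := fun x => rfl
    have hval : ∀ x, hypExt (m + 1) Q₀ x =
        ((hypSplit m x).1).1 * ((hypSplit m x).1).2 + hypExt m Q₀ (p x) := fun x => by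
      rw [← hypSplit_spec, hypAdd_apply]; rfl
    have himg : ∀ y ∈ T'.map p, hypExt m Q₀ y = 0 := by
      rintro _ ⟨x, ⟨hxT, hxc⟩, rfl⟩
      have h1 := h x hxT
      have h2 : ((hypSplit m x).1).1 = 0 := hxc
      rwa [hval, h2, zero_mul, zero_add] at h1
    have ih := finrank_le_of_totallySingular hA m _ himg
    set f₀ : HypSpace F (m + 1) W := (hypSplit m).symm ((0, 1), 0)
    have hker : T' ⊓ LinearMap.ker p ≤ Submodule.span F {f₀} ⊓ T := by
      rintro x ⟨⟨hxT, hxc⟩, hxp⟩
      refine ⟨Submodule.mem_span_singleton.2 ⟨((hypSplit m x).1).2, ?_⟩, hxT⟩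
      apply (hypSplit m).injective
      rw [map_smul, LinearEquiv.apply_symm_apply]
      refine Prod.ext (Prod.ext ?_ ?_) ?_
      · simpa using (show ((hypSplit m x).1).1 = 0 from hxc).symm
      · simp
      · simpa using (show (hypSplit m x).2 = 0 from hxp).symm
    have hrn := LinearMap.finrank_range_add_finrank_ker (p.domRestrict T')
    rw [LinearMap.range_domRestrict, LinearMap.ker_domRestrict] at hrn
    have hk : finrank F (Submodule.comap T'.subtype (LinearMap.ker p)) =
        finrank F (T' ⊓ LinearMap.ker p : Submodule F _) := by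
      rw [← Submodule.finrank_map_subtype_eq, Submodule.map_comap_subtype]
    rw [hk] at hrn
    by_cases hf : f₀ ∈ T
    · have hTT : T ≤ T' := fun x hx => by
        refine ⟨hx, ?_⟩
        have h1 := h _ (add_mem hx hf)
        rw [qf_add, h x hx, h _ hf, zero_add, zero_add] at h1
        have e : ∀ y, polar (hypExt (m + 1) Q₀) x y =
            polar (hypAdd (hypExt m Q₀)) (hypSplit m x) (hypSplit m y) := fun y => by
          simp only [polar, ← map_add, hypSplit_spec]
        rw [e, LinearEquiv.apply_symm_apply, polar_hypAdd] at h1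
        simpa [hc] using h1
      have h1 : finrank F (T' ⊓ LinearMap.ker p : Submodule F _) ≤ 1 :=
        (Submodule.finrank_mono (hker.trans inf_le_left)).trans
          ((finrank_span_le_card ({f₀} : Set _)).trans (by simp))
      have h2 := Submodule.finrank_mono hTT
      omega
    · have h1 : (T' ⊓ LinearMap.ker p : Submodule F _) = ⊥ := by
        rw [eq_bot_iff]
        intro x hx
        obtain ⟨hx1, hx2⟩ := hker hx
        obtain ⟨r, rfl⟩ := Submodule.mem_span_singleton.1 hx1
        rcases eq_or_ne r 0 with rfl | hr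
        · simp
        · exact absurd ((Submodule.smul_mem_iff _ hr).1 hx2) hf
      rw [h1, finrank_bot, add_zero] at hrn
      have hrn2 := LinearMap.finrank_range_add_finrank_ker (c.domRestrict T)
      have hk2 : finrank F (LinearMap.ker (c.domRestrict T)) = finrank F T' := by
        rw [LinearMap.ker_domRestrict, ← Submodule.finrank_map_subtype_eq,
          Submodule.map_comap_subtype]
      have h3 : finrank F (LinearMap.range (c.domRestrict T)) ≤ 1 :=
        (Submodule.finrank_le _).trans (finrank_self F).le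
      omega

section Minus

variable [Finite F]

/-- The anisotropic plane. -/
abbrev Plane (F : Type u) : Type u := Fin 2 → F

/-- The minus type space with `k + 3` hyperbolic pairs. -/
abbrev MSpace (F : Type u) (k : ℕ) : Type u := (F × F) × HypSpace F (k + 2) (Plane F)

/-- Its form. -/
noncomputable abbrev mForm (a b : F) (k : ℕ) : QuadraticForm F (MSpace F k) :=
  hypAdd (hypExt (k + 2) (binQF a b))

theorem finrank_MSpace (k : ℕ) : finrank F (MSpace F k) = 2 * k + 8 := by
  rw [finrank_prod, finrank_prod, finrank_self, finrank_HypSpace, finrank_fin_fun]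
  omega

variable {a b : F}

theorem polar_split (k : ℕ) (x y : HypSpace F (k + 3) (Plane F)) :
    polar (mForm a b k) (hypSplit (k + 2) x) (hypSplit (k + 2) y) =
      polar (hypExt (k + 3) (binQF a b)) x y := by
  simp only [polar, ← map_add, mForm, hypSplit_spec]

theorem amb_minus (hA : (binQF a b).Anisotropic) (k : ℕ) : Amb (mForm a b k) := by
  refine ⟨bNondeg_hypAdd (bNondeg_hypExt _ (goodCore_binQF hA).nondeg),
    by rw [finrank_MSpace]; omega, fun hdim x y z t hli hx hy hz ht hxy hxz hyz htx hty htz => ?_⟩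
  rw [finrank_MSpace] at hdim
  obtain rfl : k = 0 := by omega
  set S := Submodule.span F (Set.range ![x, y, z])
  by_contra hne
  have ht' : t ∉ S := fun hmem => by
    obtain ⟨c, hc⟩ := (Submodule.mem_span_range_iff_exists_fun F).1 hmem
    exact hne ⟨c 0, c 1, c 2, by rw [← hc]; simp [Fin.sum_univ_three]⟩
  have hli' : LinearIndependent F (Fin.cons t ![x, y, z] : Fin 4 → MSpace F 0) :=
    linearIndependent_finCons.2 ⟨hli, ht'⟩
  set T := Submodule.span F (Set.range (Fin.cons t ![x, y, z] : Fin 4 → MSpace F 0))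
  have hT4 : finrank F T = 4 := by rw [finrank_span_eq_card hli', Fintype.card_fin]
  have hsing : ∀ v ∈ T, mForm a b 0 v = 0 := by
    intro v hv
    obtain ⟨c, rfl⟩ := (Submodule.mem_span_range_iff_exists_fun F).1 hv
    simp [Fin.sum_univ_succ, qf_add, polar_add_left, polar_add_right, polar_smul_left,
      polar_smul_right, QuadraticMap.map_smul, hx, hy, hz, ht, hxy, hxz, hyz, htx, hty, htz,
      -hypAdd_apply, -polar_hypAdd]
  have h3 := finrank_le_of_totallySingular hA 3 (T.map (hypSplit 2).symm.toLinearMap) (by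
    rintro _ ⟨v, hv, rfl⟩
    rw [← hypSplit_spec]
    simpa using hsing v hv)
  rw [LinearEquiv.finrank_map_eq, hT4] at h3
  omega

/-- The first vectors of the pairs. -/
noncomputable def mE (F : Type u) [Field F] (k i : ℕ) : MSpace F k :=
  if h : i < k + 3 then hypSplit (k + 2) (Pi.single (.inl ⟨i, h⟩) 1, 0) else 0

/-- The second vectors of the pairs. -/
noncomputable def mF (F : Type u) [Field F] (k i : ℕ) : MSpace F k :=
  if h : i < k + 3 then hypSplit (k + 2) (Pi.single (.inr ⟨i, h⟩) 1, 0) else 0

theorem polar_mE (k : ℕ) {i : ℕ} (h : i < k + 3) (v : MSpace F k) :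
    polar (mForm a b k) (mE F k i) v = ((hypSplit (k + 2)).symm v).1 (.inr ⟨i, h⟩) := by
  conv_lhs => rw [← (hypSplit (k + 2)).apply_symm_apply v]
  rw [mE, dif_pos h, polar_split, polar_hypExt_single_inl, one_mul]

theorem polar_mF (k : ℕ) {i : ℕ} (h : i < k + 3) (v : MSpace F k) :
    polar (mForm a b k) (mF F k i) v = ((hypSplit (k + 2)).symm v).1 (.inl ⟨i, h⟩) := by
  conv_lhs => rw [← (hypSplit (k + 2)).apply_symm_apply v]
  rw [mF, dif_pos h, polar_split, polar_hypExt_single_inr, one_mul]

theorem Q_mE (k i : ℕ) : mForm a b k (mE F k i) = 0 := by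
  by_cases h : i < k + 3
  · rw [mE, dif_pos h, mForm, hypSplit_spec, hypExt_single]
  · rw [mE, dif_neg h, QuadraticMap.map_zero]

theorem Q_mF (k i : ℕ) : mForm a b k (mF F k i) = 0 := by
  by_cases h : i < k + 3
  · rw [mF, dif_pos h, mForm, hypSplit_spec, hypExt_single]
  · rw [mF, dif_neg h, QuadraticMap.map_zero]

/-- The frame. -/
noncomputable def mFr (hA : (binQF a b).Anisotropic) (k : ℕ) : Fr (mForm a b k) (k + 3) where
  e := mE F k
  f := mF F k
  w0 := hypSplit (k + 2) (0, ![1, 0])
  pair i hi := ⟨Q_mE k i, Q_mF k i, by rw [polar_mE k hi, mF, dif_pos hi]; simp⟩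
  two i j hi hj hij := by
    have hne : (⟨i, hi⟩ : Fin (k + 3)) ≠ ⟨j, hj⟩ := fun h => hij (congrArg Fin.val h)
    refine ⟨⟨Q_mE k i, Q_mF k i, by rw [polar_mE k hi, mF, dif_pos hi]; simp⟩,
      ⟨Q_mE k j, Q_mF k j, by rw [polar_mE k hj, mF, dif_pos hj]; simp⟩, ?_, ?_, ?_, ?_⟩
    · rw [polar_mE k hi, mE, dif_pos hj]; simp
    · rw [polar_mE k hi, mF, dif_pos hj]; simp [hne]
    · rw [polar_mF k hi, mE, dif_pos hj]; simp [hne]
    · rw [polar_mF k hi, mF, dif_pos hj]; simp
  he0 i hi := by rw [polar_mE k hi]; simp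
  hf0 i hi := by rw [polar_mF k hi]; simp
  q0 := by rw [mForm, hypSplit_spec, hypExt_apply]; simp
  aniso v hv hQ := by
    obtain ⟨x, rfl⟩ := (hypSplit (k + 2)).surjective v
    have h1 : x.1 = 0 := by
      ext (i | i)
      · simpa [polar_mF k i.2] using (hv i i.2).2
      · simpa [polar_mE k i.2] using (hv i i.2).1
    rw [mForm, hypSplit_spec, hypExt_apply, h1] at hQ
    simp only [Pi.zero_apply, mul_zero, Finset.sum_const_zero, zero_add] at hQ
    rw [show x = 0 from Prod.ext h1 (hA _ hQ), map_zero]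
  rep t ht := by
    obtain ⟨z, hz | ⟨hz, hz'⟩⟩ := exists_binQF_eq a b t
    · refine ⟨hypSplit (k + 2) (0, z), fun i hi => ?_, ?_⟩
      · rw [polar_mE k hi, polar_mF k hi]; simp
      · rw [mForm, hypSplit_spec, hypExt_apply, hz]; simp
    · exact absurd (hA z hz) hz'

end Minus

end Cfsg.Agent.CentralExt.MinusMult
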