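/-
The rank one subgroup of the last pair seen on the four dimensional space.
-/
import Cfsg.Agent.CentralExt.MinusMult.Space
import Cfsg.Agent.CentralExt.MinusMult.Rank

set_option autoImplicit false
set_option linter.unusedSectionVars false

namespace Cfsg.Agent.CentralExt.MinusMult

open Cfsg.Agent.Classical QuadraticMap

universe u w

variable {F : Type u} [Field F] [Finite F] {a b : F}

/-- The four dimensional space. -/
abbrev FourSpace (F : Type u) : Type u := (F × F) × Plane F

/-- Its form. -/
noncomputable abbrev fourForm (a b : F) : QuadraticForm F (FourSpace F) := hypAdd (binQF a b)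

/-- The embedding of the four dimensional space on the last pair and the plane. -/
noncomputable def inc (F : Type u) [Field F] (k : ℕ) : FourSpace F →ₗ[F] MSpace F k :=
  (hypSplit (k + 2)).toLinearMap.comp
    (
    { toFun := fun y => (Pi.single (.inl (Fin.last (k + 2))) y.1.1 +
        Pi.single (.inr (Fin.last (k + 2))) y.1.2, y.2)
      map_add' := fun y z => by
        refine Prod.ext ?_ rfl
        simp only [Prod.fst_add, Prod.snd_add, Pi.single_add]
        abel
      map_smul' := fun c y => by
        refine Prod.ext ?_ rfl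
        ext i
        simp [Pi.single_apply, mul_add, mul_ite] } : FourSpace F →ₗ[F] HypSpace F (k + 2 + 1) (Plane F))

/-- The projection onto the four dimensional space. -/
noncomputable def prj (F : Type u) [Field F] (k : ℕ) : MSpace F k →ₗ[F] FourSpace F :=
  LinearMap.comp
    (
    { toFun := fun x => ((x.1 (.inl (Fin.last (k + 2))), x.1 (.inr (Fin.last (k + 2)))), x.2)
      map_add' := fun _ _ => rfl
      map_smul' := fun _ _ => rfl } : HypSpace F (k + 2 + 1) (Plane F) →ₗ[F] FourSpace F)
    (hypSplit (k + 2)).symm.toLinearMap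

theorem symm_inc (k : ℕ) (y : FourSpace F) :
    (hypSplit (k + 2)).symm (inc F k y) =
      (Pi.single (.inl (Fin.last (k + 2))) y.1.1 + Pi.single (.inr (Fin.last (k + 2))) y.1.2, y.2) :=
  by simp only [inc, LinearMap.comp_apply, LinearEquiv.coe_coe, LinearEquiv.symm_apply_apply]; rfl

theorem prj_inc (k : ℕ) (y : FourSpace F) : prj F k (inc F k y) = y := by
  simp only [prj, LinearMap.comp_apply, LinearEquiv.coe_coe, symm_inc, LinearMap.coe_mk,
    AddHom.coe_mk]
  refine Prod.ext (Prod.ext ?_ ?_) rfl <;> simp

theorem polar_inc (k : ℕ) (y : FourSpace F) (v : MSpace F k) :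
    polar (mForm a b k) (inc F k y) v = polar (fourForm a b) y (prj F k v) := by
  obtain ⟨x, rfl⟩ := (hypSplit (k + 2)).surjective v
  rw [← (hypSplit (k + 2)).apply_symm_apply (inc F k y), symm_inc, polar_split, polar_hypExt',
    Finset.sum_eq_single (Fin.last (k + 2)) (fun i _ hi => by simp [hi]) (by simp), fourForm,
    polar_hypAdd]
  simp [prj]

theorem Q_inc (k : ℕ) (y : FourSpace F) : mForm a b k (inc F k y) = fourForm a b y := by
  rw [← (hypSplit (k + 2)).apply_symm_apply (inc F k y), symm_inc, mForm, hypSplit_spec,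
    hypExt_apply, Finset.sum_eq_single (Fin.last (k + 2)) (fun i _ hi => by simp [hi]) (by simp),
    fourForm, hypAdd_apply]
  simp

theorem U_inc (hA : (binQF a b).Anisotropic) (k : ℕ) (y : FourSpace F) :
    (mFr hA k).U (k + 2) (inc F k y) := fun j hj => by
  have hne : (⟨j, by omega⟩ : Fin (k + 3)) ≠ Fin.last (k + 2) := fun h => by
    have := congrArg Fin.val h
    simp at this
    omega
  exact ⟨by show polar _ (mE F k j) _ = 0; rw [polar_mE k (by omega), symm_inc]; simp [hne],
    by show polar _ (mF F k j) _ = 0; rw [polar_mF k (by omega), symm_inc]; simp [hne]⟩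

theorem inc_prj (hA : (binQF a b).Anisotropic) (k : ℕ) {v : MSpace F k}
    (hv : (mFr hA k).U (k + 2) v) : inc F k (prj F k v) = v := by
  apply (hypSplit (k + 2)).symm.injective
  rw [symm_inc]
  refine Prod.ext ?_ rfl
  ext (i | i)
  all_goals rcases eq_or_ne i (Fin.last (k + 2)) with rfl | hi
  · simp [prj]
  · have h := (hv i (Fin.val_lt_last hi)).2
    change polar _ (mF F k i) v = 0 at h
    rw [polar_mF k i.2] at h
    simpa [prj, hi] using h.symm
  · simp [prj]
  · have h := (hv i (Fin.val_lt_last hi)).1
    change polar _ (mE F k i) v = 0 at h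
    rw [polar_mE k i.2] at h
    simpa [prj, hi] using h.symm

theorem inc_he (k : ℕ) : inc F k (hE F (Plane F)) = mE F k (k + 2) := by
  rw [mE, dif_pos (by omega)]
  simp only [inc, LinearMap.comp_apply, LinearEquiv.coe_coe, LinearMap.coe_mk, AddHom.coe_mk]
  congr 1
  refine Prod.ext ?_ rfl
  simp
  rfl


end Cfsg.Agent.CentralExt.MinusMult
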