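/-
The restriction of the last rank one subgroup to the four dimensional space.
-/
import Cfsg.Agent.CentralExt.MinusMult.Plane

set_option autoImplicit false
set_option linter.unusedSectionVars false

namespace Cfsg.Agent.CentralExt.MinusMult

open Cfsg.Agent.Classical QuadraticMap
open scoped commutatorElement

universe u w

variable {F : Type u} [Field F] [Finite F] {a b : F} (hA : (binQF a b).Anisotropic) (k : ℕ)
  {E : Type w} [Group E] {τ : E →* EQ (mForm a b k)} (S : Sys τ)

/-- The last rank one subgroup. -/
noncomputable abbrev G4 : Subgroup E := (mFr hA k).G S (k + 2)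

/-- The induced endomorphism of the four dimensional space. -/
noncomputable def resLin (x : E) : FourSpace F →ₗ[F] FourSpace F :=
  (prj F k).comp ((act τ x).toLinearMap.comp (inc F k))

theorem inc_resLin {x : E} (hx : x ∈ G4 hA k S) (y : FourSpace F) :
    inc F k (resLin k (τ := τ) x y) = act τ x (inc F k y) :=
  inc_prj hA k ((mFr hA k).U_act_G S le_rfl hx (U_inc hA k y))

theorem resLin_mul {x y : E} (hy : y ∈ G4 hA k S) :
    resLin k (τ := τ) (x * y) = (resLin k (τ := τ) x).comp (resLin k (τ := τ) y) := by
  refine LinearMap.ext fun v => ?_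
  show prj F k (act τ (x * y) (inc F k v)) =
    prj F k (act τ x (inc F k (resLin k (τ := τ) y v)))
  rw [inc_resLin hA k S hy, act_mul_apply]

theorem resLin_one : resLin k (τ := τ) (1 : E) = LinearMap.id :=
  LinearMap.ext fun v => by
    show prj F k (act τ (1 : E) (inc F k v)) = v
    rw [act_one, prj_inc]

/-- The restriction to the four dimensional space. -/
noncomputable def res : G4 hA k S →* OQ (fourForm a b) where
  toFun x :=
    ⟨LinearEquiv.ofLinearMap (resLin k (τ := τ) x.1) (resLin k (τ := τ) x.1⁻¹)
      (by rw [← resLin_mul hA k S (inv_mem x.2), mul_inv_cancel, resLin_one])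
      (by rw [← resLin_mul hA k S x.2, inv_mul_cancel, resLin_one]), fun v => by
      show fourForm a b (resLin k (τ := τ) x.1 v) = fourForm a b v
      rw [← Q_inc k, inc_resLin hA k S x.2, act_Q, Q_inc]⟩
  map_one' := Subtype.ext (LinearEquiv.ext fun v => by
    show resLin k (τ := τ) (1 : E) v = v
    rw [resLin_one]; rfl)
  map_mul' x y := Subtype.ext (LinearEquiv.ext fun v => by
    show resLin k (τ := τ) (x.1 * y.1) v = resLin k (τ := τ) x.1 (resLin k (τ := τ) y.1 v)
    rw [resLin_mul hA k S y.2]; rfl)

theorem inc_res (x : G4 hA k S) (y : FourSpace F) :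
    inc F k ((res hA k S x).1 y) = act τ x.1 (inc F k y) :=
  inc_resLin hA k S x.2 y

theorem res_eq_one_iff (x : G4 hA k S) : res hA k S x = 1 ↔ τ x.1 = 1 := by
  constructor
  · intro h
    rw [← map_one τ]
    refine act_injective fun v => ?_
    rw [act_one]
    have h1 : act τ x.1 (inc F k (prj F k v)) = inc F k (prj F k v) := by
      rw [← inc_res hA k S x, h]; rfl
    have h2 : act τ x.1 (v - inc F k (prj F k v)) = v - inc F k (prj F k v) := by
      refine (mFr hA k).G_fix S x.2 fun z hz => ?_
      rw [← inc_prj hA k hz, polar_inc, map_sub, prj_inc, sub_self, polar_zero_right]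
    calc act τ x.1 v = act τ x.1 (v - inc F k (prj F k v) + inc F k (prj F k v)) := by
          rw [sub_add_cancel]
      _ = v := by rw [map_add, h1, h2, sub_add_cancel]
  · intro h
    refine Subtype.ext (LinearEquiv.ext fun v => ?_)
    show prj F k (act τ x.1 (inc F k v)) = v
    rw [show act τ x.1 = act τ 1 by unfold act; simp [h], act_one, prj_inc]

/-- A lift of a Siegel transformation lies in the rank one subgroup. -/
theorem s_inc_mem {u v : FourSpace F} (hu : fourForm a b u = 0)
    (huv : polar (fourForm a b) u v = 0) : S.s (inc F k u) (inc F k v) ∈ G4 hA k S :=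
  (mFr hA k).s_mem_G S (by rw [Q_inc, hu]) (by rw [polar_inc, prj_inc, huv]) (U_inc hA k u)
    (U_inc hA k v)

theorem res_s {u v : FourSpace F} (hu : fourForm a b u = 0)
    (huv : polar (fourForm a b) u v = 0) :
    res hA k S ⟨_, s_inc_mem hA k S hu huv⟩ = siegel (fourForm a b) hu huv := by
  refine Subtype.ext (LinearEquiv.ext fun y => ?_)
  show prj F k (act τ (S.s (inc F k u) (inc F k v)) (inc F k y)) = _
  rw [S.act_s (by rw [Q_inc, hu]) (by rw [polar_inc, prj_inc, huv]), siegel_apply, polar_inc,
    polar_inc, prj_inc, Q_inc]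
  simp only [map_add, map_sub, map_smul, prj_inc]

theorem range_res : (res hA k S).range = EQ (fourForm a b) := by
  refine le_antisymm ?_ ?_
  · rintro _ ⟨⟨x, hx⟩, rfl⟩
    have key : ∀ {x : E} (hx : x ∈ G4 hA k S), res hA k S ⟨x, hx⟩ ∈ EQ (fourForm a b) := by
      intro x hx
      induction hx using Subgroup.closure_induction with
      | mem y hy =>
        obtain ⟨u, v, hu, huv, h1, h2, rfl⟩ := hy
        have hu' : fourForm a b (prj F k u) = 0 := by rw [← Q_inc k, inc_prj hA k h1, hu]
        have huv' : polar (fourForm a b) (prj F k u) (prj F k v) = 0 := by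
          rw [← polar_inc k, inc_prj hA k h1, huv]
        have e : S.s u v = S.s (inc F k (prj F k u)) (inc F k (prj F k v)) := by
          rw [inc_prj hA k h1, inc_prj hA k h2]
        simp only [e]
        rw [res_s hA k S hu' huv']
        exact siegel_mem_EQ _ hu' huv'
      | one => exact (map_one (res hA k S)).symm ▸ one_mem _
      | mul y z hy hz ihy ihz =>
        rw [show (⟨y * z, mul_mem hy hz⟩ : G4 hA k S) = ⟨y, hy⟩ * ⟨z, hz⟩ from rfl, map_mul]
        exact mul_mem ihy ihz
      | inv y hy ihy =>
        rw [show (⟨y⁻¹, inv_mem hy⟩ : G4 hA k S) = ⟨y, hy⟩⁻¹ from rfl, map_inv]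
        exact inv_mem ihy
    exact key hx
  · rw [EQ, Subgroup.closure_le]
    rintro _ ⟨u, v, hu, huv, rfl⟩
    exact ⟨_, res_s hA k S hu huv⟩

include hA in
/-- Two independent vectors of the plane with the same value. -/
theorem exists_plane_pair : ∃ y y' : Plane F, binQF a b y ≠ 0 ∧ binQF a b y' = binQF a b y ∧
    y 0 * y' 1 - y 1 * y' 0 ≠ 0 := by
  have hb : b ≠ 0 := fun hb => by
    have := congrFun (hA ![0, 1] (by simp [hb])) 1
    simp at this
  by_cases ha : a = 0
  · have h2 : (2 : F) ≠ 0 := fun h2 => binDisc_ne_zero hA (by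
      rw [ha, show (4 : F) = 2 * 2 by norm_num, h2]; ring)
    refine ⟨![1, 1], ![1, -1], fun h => ?_, by simp [ha], ?_⟩
    · simpa using congrFun (hA _ h) 0
    · simpa using fun h : (-1 : F) - 1 = 0 => h2 (by linear_combination -h)
  · refine ⟨![1, 0], ![1, -a / b], fun h => ?_, ?_, ?_⟩
    · simpa using congrFun (hA _ h) 0
    · simp; field_simp; ring
    · simp [ha, hb]

theorem G4_perfect : ⁅G4 hA k S, G4 hA k S⁆ = G4 hA k S := by
  obtain ⟨y, y', hy, hyy, hdet⟩ := exists_plane_pair hA
  have : Finite (MSpace F k) := Module.finite_of_finite F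
  have hU : ∀ z : Plane F, (mFr hA k).U (k + 3) (inc F k ((0, 0), z)) := fun z => by
    refine (mFr hA k).U_succ (U_inc hA k _) ?_ ?_
    · rw [polar_comm, polar_inc]
      show polar (fourForm a b) _ (prj F k (mE F k (k + 2))) = 0
      rw [← inc_he, prj_inc]; simp
    · show polar (mForm a b k) (mF F k (k + 2)) _ = 0
      rw [polar_mF k (by omega), symm_inc]
      simp [Fin.last]
  refine (mFr hA k).G_last_perfect S (hU y) (hU y') ?_ ?_ ?_ ?_
  · rw [Q_inc]; simpa [-binQF_apply] using hy
  · rw [Q_inc, Q_inc]; simpa [-binQF_apply] using hyy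
  · intro x z h
    have h0 := congrArg (fun v => (prj F k v).2) h
    simp only [map_add, map_smul, prj_inc, map_zero, Prod.snd_add, Prod.smul_snd, Prod.snd_zero]
      at h0
    have e0 := congrFun h0 0
    have e1 := congrFun h0 1
    simp only [Pi.add_apply, Pi.smul_apply, smul_eq_mul, Pi.zero_apply] at e0 e1
    constructor
    · exact (mul_eq_zero.1 (show x * (y 0 * y' 1 - y 1 * y' 0) = 0 by
        linear_combination (y 0) * e1 - (y 1) * e0)).resolve_right hdet
    · exact (mul_eq_zero.1 (show z * (y 0 * y' 1 - y 1 * y' 0) = 0 by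
        linear_combination (y' 1) * e0 - (y' 0) * e1)).resolve_right hdet
  · intro p hp h1 h2
    have e := inc_prj hA k ((mFr hA k).U_mono (Nat.le_succ _) hp)
    have he := (hp (k + 2) (by omega)).1
    have hf := (hp (k + 2) (by omega)).2
    change polar (mForm a b k) (mE F k (k + 2)) p = 0 at he
    change polar (mForm a b k) (mF F k (k + 2)) p = 0 at hf
    rw [polar_mE k (by omega)] at he
    rw [polar_mF k (by omega)] at hf
    rw [polar_inc] at h1 h2
    have hz : (prj F k p).1 = 0 := Prod.ext hf he
    simp only [fourForm, polar_hypAdd, hz, Prod.fst_zero, Prod.snd_zero, mul_zero,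
      add_zero, zero_add] at h1 h2
    set r := (prj F k p).2
    have hr : ∀ z, polar (binQF a b) z r = 0 := fun z => by
      have hz' : (y 0 * y' 1 - y 1 * y' 0) • z =
          (z 0 * y' 1 - z 1 * y' 0) • y + (y 0 * z 1 - y 1 * z 0) • y' := by
        ext i
        fin_cases i <;> simp <;> ring
      have h := congrArg (fun v => polar (binQF a b) v r) hz'
      simp only [polar_add_left, polar_smul_left, h1, h2, smul_eq_mul, mul_zero, add_zero] at h
      exact (mul_eq_zero.1 h).resolve_left hdet
    have hr0 : r = 0 := (goodCore_binQF hA).nondeg r (fun z => by rw [polar_comm, hr z])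
    rw [← e, show prj F k p = 0 from Prod.ext hz hr0, map_zero]

theorem isPerfect_G4 : Group.IsPerfect (G4 hA k S) :=
  Subgroup.isPerfect_iff.2 (G4_perfect hA k S)

end Cfsg.Agent.CentralExt.MinusMult
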