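/-
Stem extensions of `PSL₂(q)` with kernel of order prime to `q`.
-/
import Cfsg.Agent.CentralExt.SL2
import Cfsg.Agent.SchurMul.Perfect
import Cfsg.Agent.Classical.ExcTwo
import Cfsg.Agent.Linear.Orders

set_option autoImplicit false
set_option linter.unusedSectionVars false
set_option linter.style.haveILetI false

namespace Cfsg.Agent.CentralExt.MinusMult

open scoped MatrixGroups

universe u v w

/-- The multiplier of a central quotient of a perfect group. -/
theorem card_schurMult_dvd_mul {G Γ : Type u} [Group G] [Finite G] [Group Γ] [Finite Γ]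
    [hΓ : Group.IsPerfect Γ] (σ : Γ →* G) (hs : Function.Surjective σ)
    (hc : σ.ker ≤ Subgroup.center Γ) :
    Nat.card (schurMult G) ∣ Nat.card (schurMult Γ) * Nat.card σ.ker := by
  have hG : Group.IsPerfect G := by
    rw [Group.isPerfect_def, ← map_commutator_top σ hs, hΓ.commutator_eq_top,
      Subgroup.map_top_of_surjective σ hs]
  obtain ⟨W, iW, fW, θ, hθ, ⟨i⟩⟩ := exists_schurCover G
  obtain ⟨P, iP, fP, π, hP, hπ, hπc, huni⟩ := SchurMul.exists_universal.{u, u} hG
  obtain ⟨η₀, hη₀, -⟩ := huni Γ σ hs hc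
  obtain ⟨η₁, hη₁, -⟩ := huni W θ hθ.1 hθ.2.1
  have hkc : η₀.ker ≤ Subgroup.center P := fun z hz => hπc (by
    rw [MonoidHom.mem_ker] at hz ⊢
    rw [← hη₀, MonoidHom.comp_apply, hz, map_one])
  have hst0 : IsStemExtension σ := ⟨hs, hc, hΓ.commutator_eq_top ▸ le_top⟩
  have hs0 : Function.Surjective η₀ :=
    surjective_of_comp_surjective hst0 η₀ (by rw [hη₀]; exact hπ)
  have hst : IsStemExtension η₀ := ⟨hs0, hkc, hP.commutator_eq_top ▸ le_top⟩
  -- the order of the kernel of `π`
  have hcard : Nat.card π.ker = Nat.card η₀.ker * Nat.card σ.ker := by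
    let r : π.ker →* σ.ker := (η₀.comp π.ker.subtype).codRestrict σ.ker fun z => by
      rw [MonoidHom.mem_ker, ← MonoidHom.comp_apply, ← MonoidHom.comp_assoc, hη₀]
      exact z.2
    have hr : Function.Surjective r := by
      rintro ⟨y, hy⟩
      obtain ⟨x, rfl⟩ := hs0 y
      exact ⟨⟨x, by rw [MonoidHom.mem_ker, ← hη₀]; exact hy⟩, rfl⟩
    have hk : Nat.card r.ker = Nat.card η₀.ker :=
      Nat.card_congr
        { toFun := fun z => ⟨z.1.1, congrArg Subtype.val z.2⟩
          invFun := fun z => ⟨⟨z.1, by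
            rw [MonoidHom.mem_ker, ← hη₀, MonoidHom.comp_apply, MonoidHom.mem_ker.1 z.2, map_one]⟩,
            Subtype.ext z.2⟩
          left_inv := fun _ => rfl
          right_inv := fun _ => rfl }
    rw [Subgroup.card_eq_card_quotient_mul_card_subgroup r.ker,
      Nat.card_congr (QuotientGroup.quotientKerEquivOfSurjective r hr).toEquiv, hk, mul_comm]
  -- the cover is an image of the universal one
  have hs1 : Function.Surjective η₁ :=
    surjective_of_comp_surjective hθ η₁ (by rw [hη₁]; exact hπ)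
  let f : π.ker →* θ.ker := (η₁.comp π.ker.subtype).codRestrict θ.ker fun z => by
    rw [MonoidHom.mem_ker, ← MonoidHom.comp_apply, ← MonoidHom.comp_assoc, hη₁]
    exact z.2
  have hf : Function.Surjective f := by
    rintro ⟨y, hy⟩
    obtain ⟨x, rfl⟩ := hs1 y
    exact ⟨⟨x, by rw [MonoidHom.mem_ker, ← hη₁]; exact hy⟩, rfl⟩
  have h1 := Subgroup.card_dvd_of_surjective f hf
  rw [Nat.card_congr i.toEquiv, hcard] at h1
  exact h1.trans (Nat.mul_dvd_mul_right (card_ker_dvd_schurMult hst) _)

variable {K : Type u} [Field K] [Fintype K]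

/-- A stem extension of `PSL₂(K)` with kernel prime to the characteristic. -/
theorem card_ker_dvd_two (hK : 4 ≤ Fintype.card K) {Δ : Type v} [Group Δ]
    {θ : Δ →* Matrix.ProjectiveSpecialLinearGroup (Fin 2) K} (hθ : IsStemExtension θ)
    (hco : Nat.Coprime (Nat.card θ.ker) (Fintype.card K)) :
    Nat.card θ.ker ∣ Nat.gcd 2 (Fintype.card K - 1) := by
  classical
  haveI : Group.IsPerfect SL(2, K) :=
    Classical.Exc.isPerfect_SL_two (by rwa [Nat.card_eq_fintype_card])
  set σ := QuotientGroup.mk' (Subgroup.center SL(2, K))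
  have hk : σ.ker = Subgroup.center SL(2, K) := QuotientGroup.ker_mk' _
  have h := (card_ker_dvd_schurMult hθ).trans
    (card_schurMult_dvd_mul σ (QuotientGroup.mk'_surjective _) hk.le)
  rw [hk, Linear.card_center_SL, Fintype.card_fin] at h
  refine Nat.Coprime.dvd_of_dvd_mul_left ?_ h
  refine Nat.coprime_of_dvd fun r hr hd hm => ?_
  haveI : Fact r.Prime := ⟨hr⟩
  refine SL2.not_dvd_card_schurMult_of_ne_char (F := K) r (fun hq => ?_) hm
  exact hr.not_dvd_one (hco ▸ Nat.dvd_gcd hd hq)

end Cfsg.Agent.CentralExt.MinusMult
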