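/-
The kernel in the last rank one subgroup.
-/
import Cfsg.Agent.CentralExt.MinusMult.Four
import Cfsg.Agent.CentralExt.MinusMult.PSLTwo
import Cfsg.Agent.Classical.ExcMinus
import Cfsg.Agent.Linear.Transvection

set_option autoImplicit false
set_option linter.unusedSectionVars false
set_option linter.style.haveILetI false

namespace Cfsg.Agent.CentralExt.MinusMult

open Cfsg.Agent.Classical QuadraticMap
open scoped commutatorElement MatrixGroups

universe u w

variable {F : Type u} [Field F] [Finite F] {a b : F}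

/-- Coordinates on the four dimensional space. -/
noncomputable def fourEquiv (F : Type u) [Field F] :
    ((Fin 1 ⊕ Fin 1) ⊕ Fin 2 → F) ≃ₗ[F] FourSpace F :=
  ((minusEquiv 1).trans (hypSplit 0)).trans (hypAddEquiv hypSpaceZero)

theorem fourEquiv_spec (v : (Fin 1 ⊕ Fin 1) ⊕ Fin 2 → F) :
    fourForm a b (fourEquiv F v) = minusQF 1 a b v := by
  rw [fourEquiv, LinearEquiv.trans_apply, LinearEquiv.trans_apply,
    hypAddEquiv_spec (Q := hypExt 0 (binQF a b)) hypSpaceZero
      (fun x => by simp [hypSpaceZero, hypExt_apply]),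
    hypSplit_spec, minusEquiv_spec]

/-- A field with `q²` elements. -/
theorem exists_sq_field (F : Type u) [Field F] [Finite F] :
    ∃ (K : Type) (_ : Field K) (_ : Fintype K), Fintype.card K = Nat.card F ^ 2 := by
  haveI : Fintype F := Fintype.ofFinite F
  obtain ⟨p, hp⟩ := CharP.exists F
  obtain ⟨n, hpp, hn⟩ := FiniteField.card F p
  haveI : Fact p.Prime := ⟨hpp⟩
  letI : Fintype (GaloisField p ((n : ℕ) * 2)) := Fintype.ofFinite _
  refine ⟨GaloisField p ((n : ℕ) * 2), inferInstance, inferInstance, ?_⟩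
  rw [← Nat.card_eq_fintype_card, GaloisField.card p _ (Nat.mul_ne_zero n.ne_zero two_ne_zero),
    Nat.card_eq_fintype_card, hn, pow_mul]

/-- `Ω⁻₄` modulo its centre. -/
theorem nonempty_four_equiv (hA : (binQF a b).Anisotropic) {K : Type} [Field K] [Fintype K]
    (hK : Fintype.card K = Nat.card F ^ 2) :
    Nonempty (commutator (OQ (fourForm a b)) ⧸
        Subgroup.center (commutator (OQ (fourForm a b))) ≃*
      Matrix.ProjectiveSpecialLinearGroup (Fin 2) K) := by
  haveI : Fintype F := Fintype.ofFinite F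
  have hab : ∀ z₁ z₂ : F, z₁ ^ 2 + a * z₁ * z₂ + b * z₂ ^ 2 = 0 → z₁ = 0 ∧ z₂ = 0 := fun x y h => by
    have := hA ![x, y] (by simpa using h)
    exact ⟨congrFun this 0, congrFun this 1⟩
  obtain ⟨e⟩ := Exc.nonempty_POmega_four_minus (K := K) rfl
    (by rw [hK, Nat.card_eq_fintype_card]) a b hab
  let Φ := (isometryGroupEquiv (Cfsg.quadFormMinus 1 F a b) (minusQF 1 a b)
    (minusQF_apply 1 a b)).trans (OQCongr (fourEquiv F) fourEquiv_spec)
  exact ⟨((centerQuotientEquiv ((Φ.subgroupMap _).trans
    (MulEquiv.subgroupCongr (map_commutator_top_of_equiv Φ)))).symm).trans e⟩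

variable (hA : (binQF a b).Anisotropic) (k : ℕ)
  {E : Type w} [Group E] {τ : E →* EQ (mForm a b k)} (S : Sys τ)

theorem range_res_le : (res hA k S).range ≤ commutator (OQ (fourForm a b)) := by
  haveI := isPerfect_G4 hA k S
  rw [MonoidHom.range_eq_map, ← Group.IsPerfect.commutator_eq_top (G := G4 hA k S), commutator_def,
    Subgroup.map_commutator, commutator_def]
  exact Subgroup.commutator_mono le_top le_top

/-- The restriction as a map to the commutator subgroup. -/
noncomputable def resC : G4 hA k S →* commutator (OQ (fourForm a b)) :=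
  (res hA k S).codRestrict _ fun x => range_res_le hA k S ⟨x, rfl⟩

theorem U_he {p : Plane F} :
    fourForm a b (hE F (Plane F)) = 0 ∧
      polar (fourForm a b) (hE F (Plane F)) (((0, 0), p) : FourSpace F) = 0 :=
  ⟨by simp, by simp⟩

/-- The lift of the root element of `p`. -/
noncomputable def root (p : Plane F) : G4 hA k S :=
  ⟨_, s_inc_mem hA k S (U_he (a := a) (b := b) (p := p)).1 (U_he (a := a) (b := b) (p := p)).2⟩

theorem root_add (p p' : Plane F) : root hA k S (p + p') = root hA k S p * root hA k S p' := by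
  refine Subtype.ext ?_
  show S.s _ _ = S.s _ _ * S.s _ _
  rw [← S.add (by rw [Q_inc]; simp) (by rw [polar_inc, prj_inc]; simp)
    (by rw [polar_inc, prj_inc]; simp), ← map_add]
  simp

theorem root_central {p : Plane F}
    (h : ∀ y : G4 hA k S, res hA k S (y * root hA k S p * y⁻¹) = res hA k S (root hA k S p)) :
    p = 0 := by
  have h1 : fourForm a b (hF F (Plane F)) = 0 := by simp
  set w : FourSpace F := ((0, 0), ![1, 0])
  have h2 : polar (fourForm a b) (hF F (Plane F)) w = 0 := by simp [w]
  have h3 : polar (fourForm a b) (hE F (Plane F)) w = 0 := by simp [w]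
  have hw0 : fourForm a b w ≠ 0 := by simp [w]
  have h4 : polar (fourForm a b) (hF F (Plane F)) ((fourForm a b w)⁻¹ • w) = 0 := by
    rw [polar_smul_right, h2, smul_zero]
  set n : G4 hA k S :=
    ⟨_, s_inc_mem hA k S (U_he (a := a) (b := b) (p := ![1, 0])).1 h3⟩ *
      ⟨_, s_inc_mem hA k S h1 h4⟩ *
      ⟨_, s_inc_mem hA k S (U_he (a := a) (b := b) (p := ![1, 0])).1 h3⟩ with hn
  have hnv : n.1 = S.ns (inc F k (hE F (Plane F))) (inc F k (hF F (Plane F))) (inc F k w) := by
    rw [hn]
    show S.s _ _ * S.s _ _ * S.s _ _ = _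
    rw [Sys.ns, Q_inc, map_smul]
  have hpair : IsPair (mForm a b k) (inc F k (hE F (Plane F))) (inc F k (hF F (Plane F))) :=
    ⟨by rw [Q_inc]; simp, by rw [Q_inc]; simp, by rw [polar_inc, prj_inc]; simp⟩
  have hne : act τ n.1 (inc F k (hE F (Plane F))) =
      inc F k (-(fourForm a b w)⁻¹ • hF F (Plane F)) := by
    rw [hnv, S.ns_e hpair (by rw [polar_inc, prj_inc, h3]) (by rw [polar_inc, prj_inc, h2])
      (by rw [Q_inc]; exact hw0), Q_inc, map_smul]
  obtain ⟨y, hy⟩ : ∃ y, act τ n.1 (inc F k (((0, 0), p) : FourSpace F)) = inc F k y :=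
    ⟨_, (inc_res hA k S n _).symm⟩
  set c : F := -(fourForm a b w)⁻¹
  have hc : c ≠ 0 := neg_ne_zero.2 (inv_ne_zero hw0)
  have hh := congrArg (fun g : OQ (fourForm a b) => g.1 (hE F (Plane F))) (h n)
  have hu : mForm a b k (inc F k (hE F (Plane F))) = 0 := hpair.1
  have hp : polar (mForm a b k) (inc F k (hE F (Plane F))) (inc F k (((0, 0), p) : FourSpace F)) = 0 :=
    by rw [polar_inc, prj_inc]; simp
  have hconj : (n * root hA k S p * n⁻¹).1 = S.s (inc F k (c • hF F (Plane F))) (inc F k y) := by
    show n.1 * S.s _ _ * n.1⁻¹ = _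
    rw [S.conj n.1 hu hp, hne, hy]
  have hu' : mForm a b k (inc F k (c • hF F (Plane F))) = 0 := by rw [← hne, act_Q, hu]
  have hy' : polar (mForm a b k) (inc F k (c • hF F (Plane F))) (inc F k y) = 0 := by
    rw [← hne, ← hy, act_polar, hp]
  have hy0 : polar (fourForm a b) (c • hF F (Plane F)) y = 0 := by
    rwa [polar_inc, prj_inc] at hy'
  have e1 : (res hA k S (n * root hA k S p * n⁻¹)).1 (hE F (Plane F)) =
      (res hA k S ⟨_, s_inc_mem hA k S (by rwa [Q_inc] at hu') hy0⟩).1 (hE F (Plane F)) := by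
    congr 3
    exact Subtype.ext hconj
  have e2 : (res hA k S (root hA k S p)).1 (hE F (Plane F)) = hE F (Plane F) := by
    rw [root, res_s hA k S (U_he (a := a) (b := b) (p := p)).1 (U_he (a := a) (b := b) (p := p)).2,
      siegel_apply]
    simp
  rw [e1, res_s hA k S (by rwa [Q_inc] at hu') hy0, e2, siegel_apply] at hh
  have h10 : polar (fourForm a b) (c • hF F (Plane F)) (hE F (Plane F)) = c := by
    simp
  rw [h10] at hh
  have hy1 : y.1.1 = 0 := by
    have := hy0
    rw [polar_smul_left] at this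
    simpa [hc] using this
  have e1' := congrArg (fun v : FourSpace F => v.1.1) hh
  have e2' := congrArg (fun v : FourSpace F => v.2) hh
  simp [hy1] at e1' e2'
  -- the image of `p` is zero
  have hy2 : y.2 = 0 := e2'.resolve_left hc
  have hqy : fourForm a b y = 0 := by simp [hy1, hy2]
  rw [← Q_inc k, ← hy, act_Q, Q_inc] at hqy
  exact hA p (by simpa [-binQF_apply] using hqy)

set_option maxHeartbeats 1000000 in
/-- The kernel in the rank one subgroup has order dividing `gcd(2, q² - 1)`. -/
theorem card_ker_dvd [Finite E] (hc : τ.ker ≤ Subgroup.center E) (hle : τ.ker ≤ G4 hA k S) :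
    Nat.card τ.ker ∣ Nat.gcd 2 (Nat.card F ^ 2 - 1) := by
  haveI : Fintype F := Fintype.ofFinite F
  haveI := isPerfect_G4 hA k S
  obtain ⟨K, iK, fK, hK⟩ := exists_sq_field F
  obtain ⟨ψ⟩ := nonempty_four_equiv hA hK
  obtain ⟨θ, hθ⟩ : ∃ θ : G4 hA k S →* Matrix.ProjectiveSpecialLinearGroup (Fin 2) K,
      θ = ψ.toMonoidHom.comp
        ((QuotientGroup.mk' (Subgroup.center (commutator (OQ (fourForm a b))))).comp
          (resC hA k S)) := ⟨_, rfl⟩
  have hθ1 : ∀ {x}, θ x = 1 → ∀ y, res hA k S (y * x * y⁻¹) = res hA k S x := fun {x} hx y => by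
    have h1 : resC hA k S x ∈ Subgroup.center (commutator (OQ (fourForm a b))) := by
      rw [hθ, MonoidHom.comp_apply, ← map_one ψ.toMonoidHom] at hx
      exact (QuotientGroup.eq_one_iff _).1 (ψ.injective hx)
    have h2 : resC hA k S (y * x * y⁻¹) = resC hA k S x := by
      rw [map_mul, map_mul, map_inv, Subgroup.mem_center_iff.1 h1, mul_inv_cancel_right]
    exact congrArg Subtype.val h2
  -- the root group injects
  let P : Multiplicative (Plane F) →* G4 hA k S :=
    MonoidHom.mk' (fun p => root hA k S p.toAdd) fun x y => root_add hA k S x.toAdd y.toAdd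
  have hinj : Function.Injective (θ.comp P) := by
    rw [← MonoidHom.ker_eq_bot_iff, eq_bot_iff]
    intro p hp
    exact Multiplicative.toAdd.injective (root_central hA k S (hθ1 hp))
  -- surjectivity
  have hq : 4 ≤ Fintype.card K := by
    have := Finite.one_lt_card (α := F)
    rw [hK]
    nlinarith
  haveI : IsSimpleGroup (Matrix.ProjectiveSpecialLinearGroup (Fin 2) K) :=
    Linear.isSimpleGroup_PSL_fin 2 le_rfl fun _ => by rwa [Nat.card_eq_fintype_card]
  haveI hN : θ.range.Normal := by
    have h1 : (resC hA k S).range = (EQ (fourForm a b)).subgroupOf (commutator (OQ (fourForm a b))) := by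
      ext x
      rw [Subgroup.mem_subgroupOf, ← range_res hA k S]
      exact ⟨fun ⟨z, hz⟩ => ⟨z, congrArg Subtype.val hz⟩, fun ⟨z, hz⟩ => ⟨z, Subtype.ext hz⟩⟩
    haveI : (resC hA k S).range.Normal := by
      rw [h1]
      haveI := EQ_normal (fourForm a b)
      infer_instance
    rw [hθ, MonoidHom.range_comp, MonoidHom.range_comp]
    exact ((inferInstance : (resC hA k S).range.Normal).map _
      (QuotientGroup.mk'_surjective _)).map ψ.toMonoidHom ψ.surjective
  have hsurj : Function.Surjective θ := by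
    rw [← MonoidHom.range_eq_top]
    refine (Subgroup.Normal.eq_bot_or_eq_top hN).resolve_left fun hbot => ?_
    have h1 : θ (P (Multiplicative.ofAdd ![1, 0])) = 1 := by
      rw [← Subgroup.mem_bot, ← hbot]; exact ⟨_, rfl⟩
    have h2 := congrFun (congrArg Multiplicative.toAdd
      (hinj (h1.trans (map_one (θ.comp P)).symm))) 0
    simp at h2
  have hkc : θ.ker ≤ Subgroup.center (G4 hA k S) := by
    intro x hx
    rw [Subgroup.mem_center_iff]
    let r := res hA k S
    have hrc : r.ker ≤ Subgroup.center (G4 hA k S) := fun z hz => by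
      rw [Subgroup.mem_center_iff]
      intro y
      exact Subtype.ext (Subgroup.mem_center_iff.1
        (hc ((res_eq_one_iff hA k S z).1 hz)) y.1)
    let η : G4 hA k S →* G4 hA k S := (MulAut.conj x).toMonoidHom
    have heq : r.comp η = r.comp (MonoidHom.id _) := MonoidHom.ext fun y => by
      show r (x * y * x⁻¹) = r y
      have := hθ1 hx y
      rw [map_mul, map_mul, map_inv, mul_inv_eq_iff_eq_mul] at this
      rw [map_mul, map_mul, map_inv, ← this, mul_inv_cancel_right]
    intro y
    have := DFunLike.congr_fun (SchurMul.hom_eq_of_perfect inferInstance r hrc heq) y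
    exact (mul_inv_eq_iff_eq_mul.1 this).symm
  have hst : IsStemExtension θ :=
    ⟨hsurj, hkc, by rw [Group.IsPerfect.commutator_eq_top]; exact le_top⟩
  -- no kernel of order dividing a power of the characteristic
  set H : Subgroup (G4 hA k S) := ((θ.comp P).range).comap θ with hH
  have hHc : ∀ x ∈ H, ∀ y ∈ H, x * y = y * x := by
    have dec : ∀ x ∈ H, ∃ p, ∃ z ∈ θ.ker, x = P p * z := fun x hx => by
      obtain ⟨p, hp⟩ := hx
      exact ⟨p, (P p)⁻¹ * x, by
        rw [MonoidHom.mem_ker, map_mul, map_inv, ← hp]; exact inv_mul_cancel _, by group⟩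
    intro x hx y hy
    obtain ⟨p, z, hz, rfl⟩ := dec x hx
    obtain ⟨p', z', hz', rfl⟩ := dec y hy
    have cz := Subgroup.mem_center_iff.1 (hkc hz)
    have cz' := Subgroup.mem_center_iff.1 (hkc hz')
    have hPP : P p * P p' = P p' * P p := by rw [← map_mul, mul_comm, map_mul]
    calc P p * z * (P p' * z') = P p * (P p' * z') * z := by rw [mul_assoc, ← cz, ← mul_assoc]
      _ = P p' * P p * z' * z := by rw [← mul_assoc, hPP]
      _ = P p' * z' * (P p * z) := by
          rw [mul_assoc (P p') (P p) z', cz' (P p)]; group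
  have hidx : H.index ∣ (Fintype.card K - 1) * (Fintype.card K + 1) := by
    rw [hH, Subgroup.index_comap_of_surjective _ hsurj]
    have hcard : Nat.card (θ.comp P).range = Fintype.card K := by
      rw [← Nat.card_congr (MonoidHom.ofInjective hinj).toEquiv,
        Nat.card_congr Multiplicative.toAdd, Nat.card_fun, Nat.card_fin, hK]
    have h1 := Subgroup.card_mul_index (θ.comp P).range
    have h2 := Subgroup.card_eq_card_quotient_mul_card_subgroup (Subgroup.center SL(2, K))
    rw [Linear.card_SL_two] at h2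
    rw [hcard] at h1
    refine ⟨Nat.card (Subgroup.center SL(2, K)),
      Nat.eq_of_mul_eq_mul_left (by omega : 0 < Fintype.card K) ?_⟩
    rw [← mul_assoc, ← mul_assoc, h1, h2]
  have hco : Nat.Coprime (Nat.card θ.ker) (Fintype.card K) := by
    refine Nat.coprime_of_dvd fun r hr hd hd' => ?_
    haveI : Fact r.Prime := ⟨hr⟩
    obtain ⟨z, hz⟩ := exists_prime_orderOf_dvd_card' r hd
    have hco : Nat.Coprime H.index r := by
      refine ((Nat.Prime.coprime_iff_not_dvd hr).2 fun h => ?_).symm
      rcases (Nat.Prime.dvd_mul hr).1 (h.trans hidx) with h' | h'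
      · have h'' := Nat.dvd_sub hd' h'
        rw [show Fintype.card K - (Fintype.card K - 1) = 1 by omega] at h''
        exact hr.not_dvd_one h''
      · have h'' := Nat.dvd_sub h' hd'
        rw [show Fintype.card K + 1 - Fintype.card K = 1 by omega] at h''
        exact hr.not_dvd_one h''
    have hzH : (z : G4 hA k S) ∈ H := by
      show θ z.1 ∈ (θ.comp P).range
      rw [MonoidHom.mem_ker.1 z.2]; exact one_mem _
    have hord : (z : G4 hA k S) ^ r = 1 := by
      rw [← hz, ← Subgroup.orderOf_coe, pow_orderOf_eq_one]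
    obtain ⟨w, hw, hw'⟩ := mem_commutator_of_coprime H (hkc z.2) (hst.2.2 z.2) hzH hord hco
    have hbot : commutator H = ⊥ := by
      rw [commutator_def, eq_bot_iff, Subgroup.commutator_le]
      intro x _ y _
      rw [Subgroup.mem_bot, commutatorElement_eq_one_iff_mul_comm]
      exact Subtype.ext (hHc x.1 x.2 y.1 y.2)
    rw [hbot] at hw
    rw [show w = 1 from hw, map_one] at hw'
    have : z = 1 := Subtype.ext hw'.symm
    rw [this, orderOf_one] at hz
    exact hr.one_lt.ne hz
  have h := card_ker_dvd_two hq hst hco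
  rw [hK] at h
  refine dvd_trans ?_ h
  -- the kernel of `τ` embeds
  let ι : τ.ker →* θ.ker :=
    MonoidHom.mk' (fun x => ⟨⟨x.1, hle x.2⟩, by
      rw [MonoidHom.mem_ker, hθ, MonoidHom.comp_apply, MonoidHom.comp_apply,
        show resC hA k S ⟨x.1, hle x.2⟩ = 1 from
          Subtype.ext ((res_eq_one_iff hA k S _).2 x.2), map_one, map_one]⟩)
      fun x y => rfl
  exact Subgroup.card_dvd_of_injective ι fun x y h =>
    Subtype.ext (congrArg (fun t : θ.ker => t.1.1) h)

end Cfsg.Agent.CentralExt.MinusMult
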