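/-
Commutators of lifts of two Eichler transformations attached to the two ends of a totally singular
line depend only on the inner product of the two middle vectors.
-/
import Cfsg.Agent.CentralExt.MinusMult.Is

set_option autoImplicit false
set_option linter.unusedSectionVars false

namespace Cfsg.Agent.CentralExt.MinusMult

open Cfsg.Agent.Classical Cfsg.Agent.OrthGen QuadraticMap Module
open scoped commutatorElement

universe u v w

variable {F : Type u} [Field F] {V : Type v} [AddCommGroup V] [Module F V]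
  {Q : QuadraticForm F V} {E : Type w} [Group E] {τ : E →* EQ Q}

theorem Is.long_swap {x : E} {u c : V} {t : F} (hx : Is τ x u (t • c)) (hc : Q c = 0)
    (huc : polar Q u c = 0) : Is τ x c (-(t • u)) := by
  have h := (hx.swap (by rw [QuadraticMap.map_smul, hc, smul_zero])).smul t hc
    (by rw [polar_neg_right, polar_comm, huc, neg_zero])
  rwa [smul_neg] at h

/-- The commutator of two Eichler transformations attached to orthogonal singular vectors. -/
theorem Is.comm {x y : E} {u c w w' : V} (hx : Is τ x u w) (hy : Is τ y c w')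
    (huc : polar Q u c = 0) (huw : polar Q u w' = 0) (hcw : polar Q c w = 0) :
    Is τ ⁅x, y⁆ u (polar Q w w' • c) := by
  have e := hx.inv.conj y
  have h1 : act τ y u = u :=
    hy.fix (by rw [polar_comm, huc]) (by rw [polar_comm, huw])
  rw [h1, map_neg, hy.2.2 w, hcw, polar_comm Q w' w] at e
  have h := hx.mul e
  rw [show x * (y * x⁻¹ * y⁻¹) = ⁅x, y⁆ by rw [commutatorElement_def]; group] at h
  simpa using h

/-- The middle vectors of a line. -/
def InS (Q : QuadraticForm F V) (u c w : V) : Prop := polar Q u w = 0 ∧ polar Q c w = 0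

theorem InS.add {u c w w' : V} (h : InS Q u c w) (h' : InS Q u c w') : InS Q u c (w + w') :=
  ⟨by rw [polar_add_right, h.1, h'.1, add_zero], by rw [polar_add_right, h.2, h'.2, add_zero]⟩

theorem InS.smul {u c w : V} (r : F) (h : InS Q u c w) : InS Q u c (r • w) :=
  ⟨by rw [polar_smul_right, h.1, smul_zero], by rw [polar_smul_right, h.2, smul_zero]⟩

theorem InS.sub {u c w w' : V} (h : InS Q u c w) (h' : InS Q u c w') : InS Q u c (w - w') :=
  ⟨by rw [polar_sub_right, h.1, h'.1, sub_zero], by rw [polar_sub_right, h.2, h'.2, sub_zero]⟩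

theorem InS.zero {u c : V} : InS Q u c 0 := ⟨polar_zero_right Q u, polar_zero_right Q c⟩

theorem InS.symm {u c w : V} (h : InS Q u c w) : InS Q c u w := ⟨h.2, h.1⟩

namespace Ext

variable (hE : Ext τ)
include hE

/-- The commutator through two middle vectors. -/
noncomputable def Phi (u c w w' : V) : E := ⁅hE.L u w, hE.L c w'⁆

variable {u c : V}

theorem Phi_is (hu : Q u = 0) (hc : Q c = 0) (huc : polar Q u c = 0) {w w' : V}
    (hw : InS Q u c w) (hw' : InS Q u c w') :
    Is τ (hE.Phi u c w w') u (polar Q w w' • c) :=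
  (hE.L_is hu hw.1).comm (hE.L_is hc hw'.2) huc hw'.1 hw.2

theorem Phi_congr {x y : E} {w w' : V} (hx : Is τ x u w) (hy : Is τ y c w') :
    ⁅x, y⁆ = hE.Phi u c w w' :=
  comm_indep hE.central (hx.eq (hE.L_is hx.1 hx.2.1)) (hy.eq (hE.L_is hy.1 hy.2.1))

theorem Phi_conj (g : E) (hu : Q u = 0) (hc : Q c = 0) {w w' : V} (hw : polar Q u w = 0)
    (hw' : polar Q c w' = 0) :
    g * hE.Phi u c w w' * g⁻¹ = hE.Phi (act τ g u) (act τ g c) (act τ g w) (act τ g w') := by
  rw [Phi, conjugate_commutatorElement]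
  exact hE.Phi_congr ((hE.L_is hu hw).conj g) ((hE.L_is hc hw').conj g)

variable [FiniteDimensional F V] [Finite F]

/-- A short lift commutes with a long lift at the same vector. -/
theorem commute_short {z x : E} {w : V} {t : F} (hz : Is τ z u w) (hx : Is τ x u (t • c))
    (hc : Q c = 0) (huc : polar Q u c = 0) (hwc : polar Q w c = 0) : Commute z x := by
  obtain ⟨v, v', hvv, hp⟩ := hE.amb.perp_pair ![u, c, w] (by have := hE.amb.dim; omega)
  have hu := hz.1
  have hcv : polar Q c (t • v') = 0 := by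
    rw [polar_smul_right, show polar Q c v' = 0 from (hp 1).2, smul_zero]
  have ha := hE.L_is hu (show polar Q u v = 0 from (hp 0).1)
  have hb := hE.L_is hc hcv
  refine commute_decomp hE.central (a := hE.L u v) (b := hE.L c (t • v'))
    (ha.tau_conj (k := 0) hz.fix_self ?_) (hb.tau_conj (k := 0) (hz.fix huc hwc) ?_) ?_
  · rw [zero_smul, add_zero]; exact hz.fix (hp 0).1 (hp 2).1
  · rw [zero_smul, add_zero, map_smul,
      hz.fix (show polar Q u v' = 0 from (hp 0).2) (show polar Q w v' = 0 from (hp 2).2)]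
  · refine hx.eq ?_
    have h := ha.comm hb huc
      (by rw [polar_smul_right, show polar Q u v' = 0 from (hp 0).2, smul_zero]) (hp 1).1
    rwa [polar_smul_right, hvv, smul_eq_mul, mul_one] at h

theorem Phi_add_left (hu : Q u = 0) (hc : Q c = 0) (huc : polar Q u c = 0) {w₁ w₂ w' : V}
    (h₁ : InS Q u c w₁) (h₂ : InS Q u c w₂) (h' : InS Q u c w') :
    hE.Phi u c (w₁ + w₂) w' = hE.Phi u c w₁ w' * hE.Phi u c w₂ w' := by
  have hl := hE.L_is hu h₁.1
  rw [← hE.Phi_congr (hl.mul (hE.L_is hu h₂.1)) (hE.L_is hc h'.2)]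
  have hp₂ := hE.Phi_is hu hc huc h₂ h'
  have hp₁ := hE.Phi_is hu hc huc h₁ h'
  have c1 : Commute (hE.L u w₁) (hE.Phi u c w₂ w') :=
    hE.commute_short hl hp₂ hc huc (by rw [polar_comm, h₁.2])
  have c2 : Commute (hE.Phi u c w₁ w') (hE.Phi u c w₂ w') :=
    hE.commute_short hp₁ hp₂ hc huc (by rw [polar_smul_left, pol_self hc, smul_zero])
  rw [show ⁅hE.L u w₁ * hE.L u w₂, hE.L c w'⁆ =
      hE.L u w₁ * hE.Phi u c w₂ w' * (hE.L u w₁)⁻¹ * hE.Phi u c w₁ w' by
    simp only [Phi, commutatorElement_def]; group]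
  rw [c1.eq, mul_inv_cancel_right, c2.eq]

theorem Phi_swap (w w' : V) : hE.Phi c u w' w = (hE.Phi u c w w')⁻¹ := by
  rw [Phi, Phi, commutatorElement_inv]

theorem Phi_add_right (hu : Q u = 0) (hc : Q c = 0) (huc : polar Q u c = 0) {w w₁ w₂ : V}
    (h : InS Q u c w) (h₁ : InS Q u c w₁) (h₂ : InS Q u c w₂) :
    hE.Phi u c w (w₁ + w₂) = hE.Phi u c w w₁ * hE.Phi u c w w₂ := by
  have hcu : polar Q c u = 0 := by rw [polar_comm, huc]
  have e := hE.Phi_add_left hc hu hcu h₁.symm h₂.symm h.symm
  have hcm : Commute (hE.Phi c u w₁ w) (hE.Phi c u w₂ w) :=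
    hE.commute_short (hE.Phi_is hc hu hcu h₁.symm h.symm) (hE.Phi_is hc hu hcu h₂.symm h.symm)
      hu hcu (by rw [polar_smul_left, pol_self hu, smul_zero])
  rw [hcm.eq, hE.Phi_swap (u := u) (c := c), hE.Phi_swap (u := u) (c := c),
    hE.Phi_swap (u := u) (c := c), ← mul_inv_rev, inv_inj] at e
  exact e

theorem Phi_zero_left (hu : Q u = 0) (hc : Q c = 0) (huc : polar Q u c = 0) {w' : V}
    (h' : InS Q u c w') : hE.Phi u c 0 w' = 1 := by
  have e := hE.Phi_add_left hu hc huc (InS.zero (Q := Q)) InS.zero h'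
  rw [add_zero] at e
  exact left_eq_mul.mp e

theorem Phi_zero_right (hu : Q u = 0) (hc : Q c = 0) (huc : polar Q u c = 0) {w : V}
    (h : InS Q u c w) : hE.Phi u c w 0 = 1 := by
  have e := hE.Phi_add_right hu hc huc h (InS.zero (Q := Q)) InS.zero
  rw [add_zero] at e
  exact left_eq_mul.mp e

/-- A transformation inside the middle space commutes with the long lifts. -/
theorem commute_flip {z x : E} {e f a : V} {t : F} (hz : Is τ z e a) (hx : Is τ x u (t • c))
    (hc : Q c = 0) (huc : polar Q u c = 0) (hli : LinearIndependent F ![u, c])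
    (hp : IsPair Q e f) (he : InS Q u c e) (hf : InS Q u c f) (ha : InS Q u c a)
    (haf : polar Q a f = 0) : Commute z x := by
  have hu := hx.1
  have heu : polar Q e u = 0 := by rw [polar_comm, he.1]
  have hec : polar Q e c = 0 := by rw [polar_comm, he.2]
  have hea := hz.2.1
  have hzu : act τ z u = u := hz.fix heu (by rw [polar_comm, ha.1])
  have hzc : act τ z c = c := hz.fix hec (by rw [polar_comm, ha.2])
  by_cases hg : ∃ v v', polar Q v v' = 1 ∧ ∀ i : Fin 4,
      polar Q (![u, c, e, a] i) v = 0 ∧ polar Q (![u, c, e, a] i) v' = 0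
  · obtain ⟨v, v', hvv, hp'⟩ := hg
    have hl := hE.L_is hu (show polar Q u v = 0 from (hp' 0).1)
    have hcv : polar Q c (t • v') = 0 := by
      rw [polar_smul_right, show polar Q c v' = 0 from (hp' 1).2, smul_zero]
    have hb := hE.L_is hc hcv
    refine commute_decomp hE.central (a := hE.L u v) (b := hE.L c (t • v'))
      (hl.tau_conj (k := 0) hzu ?_) (hb.tau_conj (k := 0) hzc ?_) ?_
    · rw [zero_smul, add_zero]; exact hz.fix (hp' 2).1 (hp' 3).1
    · rw [zero_smul, add_zero, map_smul,
        hz.fix (show polar Q e v' = 0 from (hp' 2).2) (show polar Q a v' = 0 from (hp' 3).2)]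
    · refine hx.eq ?_
      have h := hl.comm hb huc
        (by rw [polar_smul_right, show polar Q u v' = 0 from (hp' 0).2, smul_zero]) (hp' 1).1
      rwa [polar_smul_right, hvv, smul_eq_mul, mul_one] at h
  obtain ⟨h8, horth⟩ := (hE.amb.perp_pair_or ![u, c, e, a]
    (by have := hE.amb.dim; omega)).resolve_left hg
  have haa : polar Q a a = 0 := horth 3 3
  have hl3 : LinearIndependent F ![e, u, c] := Amb.li_cons hE.amb hli (y := f) (x := e)
    (fun i => by fin_cases i; exacts [hf.1, hf.2]) (by rw [hp.2.2]; exact one_ne_zero)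
  have hw : ∀ m, InS Q u c m → polar Q e m = 0 → Q m = 0 →
      ∀ w, InS Q u c w → polar Q e w = 0 → polar Q m w = 0 := by
    intro m hm hem hQm w hw hew
    obtain ⟨α, β, γ, rfl⟩ := hE.amb.witt (by omega) hl3 hp.1 hu hc hQm heu hec huc
      (by rw [polar_comm, hem]) (by rw [polar_comm, hm.1]) (by rw [polar_comm, hm.2])
    simp [polar_add_left, polar_smul_left, hew, hw.1, hw.2]
  obtain ⟨m, hm, hem, hma⟩ : ∃ m, InS Q u c m ∧ polar Q e m = 0 ∧ polar Q m a ≠ 0 := by
    by_contra hcon
    push Not at hcon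
    obtain ⟨v, v', hvv, hp'⟩ := (hE.amb.perp_pair_or ![u, c, e, f]
      (by have := hE.amb.dim; omega)).resolve_right fun h => by
        have := h.2 2 3
        simp [hp.2.2] at this
    refine hg ⟨v, v', hvv, fun i => ?_⟩
    fin_cases i
    · exact hp' 0
    · exact hp' 1
    · exact hp' 2
    · exact ⟨(polar_comm Q a v).trans (hcon v ⟨(hp' 0).1, (hp' 1).1⟩ (hp' 2).1),
        (polar_comm Q a v').trans (hcon v' ⟨(hp' 0).2, (hp' 1).2⟩ (hp' 2).2)⟩
  have hQm : Q m ≠ 0 := fun h => hma (hw m hm hem h a ha hea)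
  have hQa : Q a ≠ 0 := fun h => hma ((polar_comm Q m a).trans (hw a ha hea h m hm hem))
  set y := (reflQ Q m hQm : V ≃ₗ[F] V) a with hy
  have hy' : y = a - ((Q m)⁻¹ * polar Q m a) • m := by rw [hy, reflQ_apply]
  have hQy : Q a = Q y := (OQ_map_app (reflQ Q m hQm) a).symm
  have hyy : polar Q y y = 0 := by
    rw [hy, OQ_polar]; exact haa
  have hay : polar Q a y ≠ 0 := by
    rw [hy', polar_sub_right, haa, polar_smul_right, polar_comm Q a m, zero_sub, neg_ne_zero]
    exact mul_ne_zero (mul_ne_zero (inv_ne_zero hQm) hma) hma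
  have hyS : InS Q u c y := hy' ▸ ha.sub (hm.smul _)
  have hey : polar Q e y = 0 := by
    rw [hy', polar_sub_right, polar_smul_right, hea, hem, smul_zero, sub_zero]
  set b := (-(Q a / polar Q a y)) • y with hb
  have hbS : InS Q u c b := hyS.smul _
  have heb : polar Q e b = 0 := by rw [hb, polar_smul_right, hey, smul_zero]
  obtain ⟨g, hg'⟩ := hE.surj ⟨_, reflQ_mul_mem_EQ hE.amb.bn
    (hasTwoPairs_of_five_le hE.amb.bn (by omega)) hQa (hQy ▸ hQa) hQy⟩
  have hact : ∀ v, act τ g v =
      (reflQ Q a hQa : V ≃ₗ[F] V) ((reflQ Q y (hQy ▸ hQa) : V ≃ₗ[F] V) v) := fun v => by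
    show (τ g : OQ Q).1 v = _
    rw [hg']; rfl
  have hfixg : ∀ v, polar Q a v = 0 → polar Q y v = 0 → act τ g v = v := fun v h1 h2 => by
    rw [hact, reflQ_apply, reflQ_apply, h2, mul_zero, zero_smul, sub_zero, h1, mul_zero,
      zero_smul, sub_zero]
  have hgu : act τ g u = u :=
    hfixg u (by rw [polar_comm, ha.1]) (by rw [polar_comm, hyS.1])
  have hgc : act τ g c = c :=
    hfixg c (by rw [polar_comm, ha.2]) (by rw [polar_comm, hyS.2])
  have hge : act τ g e = e :=
    hfixg e (by rw [polar_comm, hea]) (by rw [polar_comm, hey])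
  have hgb : act τ g b = a + b := by
    rw [hact, reflQ_apply, reflQ_apply, hb, polar_smul_right, hyy, smul_zero, mul_zero, zero_smul,
      sub_zero, polar_smul_right, smul_eq_mul]
    match_scalars <;> field_simp
  have hgx : τ (g * x * g⁻¹) = τ x :=
    hx.tau_conj (k := 0) hgu (by rw [zero_smul, add_zero, map_smul, hgc])
  have hker : ∀ {m : V}, InS Q u c m → polar Q e m = 0 → ⁅hE.L e m, x⁆ ∈ τ.ker := by
    intro m hm hem
    have hl := hE.L_is hp.1 hem
    have hmu : act τ (hE.L e m) u = u := hl.fix heu (by rw [polar_comm, hm.1])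
    have hmc : act τ (hE.L e m) c = c := hl.fix hec (by rw [polar_comm, hm.2])
    have := hx.tau_conj (g := hE.L e m) (k := 0) hmu
      (by rw [zero_smul, add_zero, map_smul, hmc])
    rw [MonoidHom.mem_ker, commutatorElement_def, map_mul, this, ← map_mul, mul_inv_cancel,
      map_one]
  have key : ⁅hE.L e a * hE.L e b, x⁆ = ⁅hE.L e b, x⁆ := by
    have hcen : ∀ k, k * ⁅hE.L e b, x⁆ = ⁅hE.L e b, x⁆ * k :=
      fun k => Subgroup.mem_center_iff.1 (hE.central (hker hbS heb)) k
    have h1 := ((hE.L_is hp.1 heb).conj g)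
    rw [hge, hgb] at h1
    calc ⁅hE.L e a * hE.L e b, x⁆ = ⁅g * hE.L e b * g⁻¹, g * x * g⁻¹⁆ :=
          comm_indep hE.central (((hE.L_is hp.1 hea).mul (hE.L_is hp.1 heb)).eq h1) hgx.symm
      _ = g * ⁅hE.L e b, x⁆ * g⁻¹ := (conjugate_commutatorElement _ _ _).symm
      _ = _ := by rw [hcen, mul_inv_cancel_right]
  have hone : ⁅hE.L e a, x⁆ = 1 := by
    have hcen : ∀ k, k * ⁅hE.L e b, x⁆ = ⁅hE.L e b, x⁆ * k :=
      fun k => Subgroup.mem_center_iff.1 (hE.central (hker hbS heb)) k
    rw [show ⁅hE.L e a * hE.L e b, x⁆ =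
        hE.L e a * ⁅hE.L e b, x⁆ * (hE.L e a)⁻¹ * ⁅hE.L e a, x⁆ by
      simp only [commutatorElement_def]; group, hcen, mul_inv_cancel_right] at key
    exact mul_eq_left.1 key
  rw [← commutatorElement_eq_one_iff_commute, ← hone]
  exact comm_indep hE.central (hz.eq (hE.L_is hp.1 hea)) rfl

section line

variable (hu : Q u = 0) (hc : Q c = 0) (huc : polar Q u c = 0)
  (hli : LinearIndependent F ![u, c]) {e f : V} (hp : IsPair Q e f) (he : InS Q u c e)
  (hf : InS Q u c f)

include hu hc huc hli hp he hf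

/-- Invariance under the transformations inside the middle space. -/
theorem Phi_inv {a : V} (ha : InS Q u c a) (hea : polar Q e a = 0) (haf : polar Q a f = 0)
    {w w' : V} (hw : InS Q u c w) (hw' : InS Q u c w') :
    hE.Phi u c (w + polar Q e w • a - polar Q a w • e - (Q a * polar Q e w) • e)
      (w' + polar Q e w' • a - polar Q a w' • e - (Q a * polar Q e w') • e) =
      hE.Phi u c w w' := by
  have hg := hE.L_is hp.1 hea
  have hgu : act τ (hE.L e a) u = u :=
    hg.fix (by rw [polar_comm, he.1]) (by rw [polar_comm, ha.1])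
  have hgc : act τ (hE.L e a) c = c :=
    hg.fix (by rw [polar_comm, he.2]) (by rw [polar_comm, ha.2])
  have h := hE.Phi_conj (hE.L e a) hu hc hw.1 hw'.2
  rw [hgu, hgc, hg.2.2 w, hg.2.2 w',
    (hE.commute_flip hg (hE.Phi_is hu hc huc hw hw') hc huc hli hp he hf ha haf).eq,
    mul_inv_cancel_right] at h
  exact h.symm

/-- Two middle vectors with prescribed inner product, orthogonal to the pair. -/
theorem exists_mid (x : F) : ∃ a v, InS Q u c a ∧ polar Q e a = 0 ∧ polar Q f a = 0 ∧
    InS Q u c v ∧ polar Q e v = 0 ∧ polar Q f v = 0 ∧ polar Q a v = x := by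
  obtain ⟨v, v', hvv, hp'⟩ := (hE.amb.perp_pair_or ![u, c, e, f]
    (by have := hE.amb.dim; omega)).resolve_right fun h => by
      have := h.2 2 3
      simp [hp.2.2] at this
  exact ⟨v, x • v', ⟨(hp' 0).1, (hp' 1).1⟩, (hp' 2).1, (hp' 3).1,
    InS.smul x ⟨(hp' 0).2, (hp' 1).2⟩,
    by rw [polar_smul_right, show polar Q e v' = 0 from (hp' 2).2, smul_zero],
    by rw [polar_smul_right, show polar Q f v' = 0 from (hp' 3).2, smul_zero],
    by rw [polar_smul_right, hvv, smul_eq_mul, mul_one]⟩

theorem Phi_self_e (r s : F) : hE.Phi u c (r • e) (s • e) = 1 := by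
  obtain ⟨a, v, ha, hea, hfa, hv, hev, -, hav⟩ := hE.exists_mid hu hc huc hli hp he hf (-s)
  have h := hE.Phi_inv hu hc huc hli hp he hf ha hea (by rw [polar_comm, hfa]) (he.smul r) hv
  rw [polar_smul_right, pol_self hp.1, smul_zero, polar_smul_right, polar_comm Q a e, hea,
    smul_zero, hev, hav] at h
  simp only [mul_zero, zero_smul, add_zero, sub_zero, neg_smul, sub_neg_eq_add] at h
  rw [hE.Phi_add_right hu hc huc (he.smul r) hv (he.smul s), mul_eq_left] at h
  exact h

theorem Phi_e_mid (r : F) {a : V} (ha : InS Q u c a) (hea : polar Q e a = 0)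
    (hfa : polar Q f a = 0) :
    hE.Phi u c (r • e) a = 1 ∧ hE.Phi u c a (r • e) = 1 := by
  have hae : polar Q a e = 0 := by rw [polar_comm, hea]
  have haf : polar Q a f = 0 := by rw [polar_comm, hfa]
  have hk : InS Q u c ((-Q a) • e) := he.smul _
  constructor
  · have h := hE.Phi_inv hu hc huc hli hp he hf ha hea haf (he.smul r) hf
    rw [polar_smul_right, pol_self hp.1, smul_zero, polar_smul_right, hae, smul_zero, hp.2.2,
      haf] at h
    simp only [mul_zero, mul_one, zero_smul, one_smul, add_zero, sub_zero] at h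
    rw [show f + a - Q a • e = f + (a + (-Q a) • e) by module,
      hE.Phi_add_right hu hc huc (he.smul r) hf (ha.add hk), mul_eq_left,
      hE.Phi_add_right hu hc huc (he.smul r) ha hk, hE.Phi_self_e hu hc huc hli hp he hf,
      mul_one] at h
    exact h
  · have h := hE.Phi_inv hu hc huc hli hp he hf ha hea haf hf (he.smul r)
    rw [polar_smul_right, pol_self hp.1, smul_zero, polar_smul_right, hae, smul_zero, hp.2.2,
      haf] at h
    simp only [mul_zero, mul_one, zero_smul, one_smul, add_zero, sub_zero] at h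
    rw [show f + a - Q a • e = f + (a + (-Q a) • e) by module,
      hE.Phi_add_left hu hc huc hf (ha.add hk) (he.smul r), mul_eq_left,
      hE.Phi_add_left hu hc huc ha hk (he.smul r), hE.Phi_self_e hu hc huc hli hp he hf,
      mul_one] at h
    exact h

theorem Phi_mid (r : F) {a v : V} (ha : InS Q u c a) (hea : polar Q e a = 0)
    (hfa : polar Q f a = 0) (hv : InS Q u c v) (hev : polar Q e v = 0) (hfv : polar Q f v = 0) :
    hE.Phi u c (r • a) v = hE.Phi u c (r • f) (polar Q a v • e) := by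
  set x := polar Q a v
  have haf : polar Q a f = 0 := by rw [polar_comm, hfa]
  have h := hE.Phi_inv hu hc huc hli hp he hf ha hea haf (hf.smul r) hv
  rw [polar_smul_right, hp.2.2, polar_smul_right, haf, smul_zero, hev] at h
  simp only [smul_eq_mul, mul_zero, mul_one, zero_smul, add_zero, sub_zero] at h
  have h1 := hf.smul r
  have h2 := ha.smul r
  have h3 : InS Q u c ((-(Q a * r)) • e) := he.smul _
  have h4 : InS Q u c ((-x) • e) := he.smul _
  rw [show r • f + r • a - (Q a * r) • e = r • f + (r • a + (-(Q a * r)) • e) by module,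
    show v - x • e = v + (-x) • e by module,
    hE.Phi_add_left hu hc huc h1 (h2.add h3) (hv.add h4),
    hE.Phi_add_left hu hc huc h2 h3 (hv.add h4),
    hE.Phi_add_right hu hc huc h1 hv h4, hE.Phi_add_right hu hc huc h2 hv h4,
    hE.Phi_add_right hu hc huc h3 hv h4,
    (hE.Phi_e_mid hu hc huc hli hp he hf _ h2
      (by rw [polar_smul_right, hea, smul_zero]) (by rw [polar_smul_right, hfa, smul_zero])).2,
    (hE.Phi_e_mid hu hc huc hli hp he hf _ hv hev hfv).1,
    hE.Phi_self_e hu hc huc hli hp he hf,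
    (hE.Phi_e_mid hu hc huc hli hp.symm hf he r hv hfv hev).1] at h
  simp only [mul_one, one_mul] at h
  have e0 : hE.Phi u c (r • f) ((-x) • e) * hE.Phi u c (r • f) (x • e) = 1 := by
    rw [← hE.Phi_add_right hu hc huc h1 h4 (he.smul x), ← add_smul, neg_add_cancel, zero_smul,
      hE.Phi_zero_right hu hc huc h1]
  exact mul_left_cancel (h.trans e0.symm)

/-- The commutators depend only on the inner product of the middle vectors. -/
theorem Phi_eq {w w' : V} (hw : InS Q u c w) (hw' : InS Q u c w') :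
    hE.Phi u c w w' = hE.Phi u c e (polar Q w w' • f) := by
  have split : ∀ {w : V}, InS Q u c w → ∃ (α β : F) (a : V), InS Q u c a ∧ polar Q e a = 0 ∧
      polar Q f a = 0 ∧ w = α • e + β • f + a := by
    intro w hw
    refine ⟨polar Q f w, polar Q e w, w - polar Q f w • e - polar Q e w • f,
      (hw.sub (he.smul _)).sub (hf.smul _), ?_, ?_, by module⟩
    · simp [polar_sub_right, polar_smul_right, pol_self hp.1, hp.2.2]
    · simp [polar_sub_right, polar_smul_right, pol_self hp.2.1, polar_comm Q f e, hp.2.2]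
  obtain ⟨α, β, a, ha, hea, hfa, rfl⟩ := split hw
  obtain ⟨α', β', v, hv, hev, hfv, rfl⟩ := split hw'
  have hB : polar Q (α • e + β • f + a) (α' • e + β' • f + v) =
      α * β' + β * α' + polar Q a v := by
    simp only [polar_add_left, polar_add_right, polar_smul_left, polar_smul_right, pol_self hp.1,
      pol_self hp.2.1, polar_comm Q f e, hp.2.2, polar_comm Q a e, polar_comm Q a f, hea, hfa, hev,
      hfv, smul_eq_mul]
    ring
  have norm1 : ∀ r x : F, hE.Phi u c (r • e) (x • f) = hE.Phi u c e ((r * x) • f) ∧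
      hE.Phi u c (r • f) (x • e) = hE.Phi u c e ((r * x) • f) := by
    intro r x
    obtain ⟨a0, v0, h0, h01, h02, g0, g01, g02, hx⟩ := hE.exists_mid hu hc huc hli hp he hf x
    have e1 := hE.Phi_mid hu hc huc hli hp.symm hf he r h0 h02 h01 g0 g02 g01
    have e2 := hE.Phi_mid hu hc huc hli hp.symm hf he 1 (h0.smul r)
      (by rw [polar_smul_right, h02, smul_zero]) (by rw [polar_smul_right, h01, smul_zero])
      g0 g02 g01
    have e3 := hE.Phi_mid hu hc huc hli hp he hf r h0 h01 h02 g0 g01 g02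
    rw [hx] at e1 e3
    rw [one_smul, one_smul, polar_smul_left, hx, smul_eq_mul] at e2
    exact ⟨e1.symm.trans e2, e3.symm.trans e2⟩
  have hav := hE.Phi_mid hu hc huc hli hp.symm hf he 1 ha hfa hea hv hfv hev
  rw [one_smul, one_smul] at hav
  have i1 := he.smul α
  have i2 := hf.smul β
  have i1' := he.smul α'
  have i2' := hf.smul β'
  have hw'' := (i1'.add i2').add hv
  rw [hE.Phi_add_left hu hc huc (i1.add i2) ha hw'', hE.Phi_add_left hu hc huc i1 i2 hw'',
    hE.Phi_add_right hu hc huc i1 (i1'.add i2') hv, hE.Phi_add_right hu hc huc i1 i1' i2',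
    hE.Phi_add_right hu hc huc i2 (i1'.add i2') hv, hE.Phi_add_right hu hc huc i2 i1' i2',
    hE.Phi_add_right hu hc huc ha (i1'.add i2') hv, hE.Phi_add_right hu hc huc ha i1' i2',
    hE.Phi_self_e hu hc huc hli hp he hf, hE.Phi_self_e hu hc huc hli hp.symm hf he,
    (hE.Phi_e_mid hu hc huc hli hp he hf α hv hev hfv).1,
    (hE.Phi_e_mid hu hc huc hli hp.symm hf he β hv hfv hev).1,
    (hE.Phi_e_mid hu hc huc hli hp he hf α' ha hea hfa).2,
    (hE.Phi_e_mid hu hc huc hli hp.symm hf he β' ha hfa hea).2, (norm1 α β').1, (norm1 β α').2,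
    hav, hB, add_smul, add_smul,
    hE.Phi_add_right hu hc huc he ((hf.smul (α * β')).add (hf.smul (β * α')))
      (hf.smul (polar Q a v)),
    hE.Phi_add_right hu hc huc he (hf.smul (α * β')) (hf.smul (β * α'))]
  simp only [one_mul, mul_one, mul_assoc]

end line

end Ext

end Cfsg.Agent.CentralExt.MinusMult
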