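/-
The canonical lifts of the long root elements.
-/
import Cfsg.Agent.CentralExt.MinusMult.Phi

set_option autoImplicit false
set_option linter.unusedSectionVars false

namespace Cfsg.Agent.CentralExt.MinusMult

open Cfsg.Agent.Classical Cfsg.Agent.OrthGen QuadraticMap Module
open scoped commutatorElement

universe u v w

variable {F : Type u} [Field F] {V : Type v} [AddCommGroup V] [Module F V]
  {Q : QuadraticForm F V} {E : Type w} [Group E] {τ : E →* EQ Q}

theorem li_smul_left {u c : V} {r : F} (hr : r ≠ 0) :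
    LinearIndependent F ![r • u, c] ↔ LinearIndependent F ![u, r • c] := by
  simp only [LinearIndependent.pair_iff]
  constructor <;> intro h x y e
  · obtain ⟨h1, h2⟩ := h (r⁻¹ * x) (r * y)
      (by linear_combination (norm := (match_scalars <;> field_simp <;> ring)) e)
    exact ⟨(mul_eq_zero.1 h1).resolve_left (inv_ne_zero hr), (mul_eq_zero.1 h2).resolve_left hr⟩
  · obtain ⟨h1, h2⟩ := h (r * x) (r⁻¹ * y)
      (by linear_combination (norm := (match_scalars <;> field_simp <;> ring)) e)
    exact ⟨(mul_eq_zero.1 h1).resolve_left hr, (mul_eq_zero.1 h2).resolve_left (inv_ne_zero hr)⟩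

theorem li_map {u c : V} (g : V ≃ₗ[F] V) :
    LinearIndependent F ![g u, g c] ↔ LinearIndependent F ![u, c] := by
  simp only [LinearIndependent.pair_iff, ← map_smul, ← map_add,
    LinearEquiv.map_eq_zero_iff]

theorem li_swap {u c : V} : LinearIndependent F ![c, -u] ↔ LinearIndependent F ![u, c] := by
  simp only [LinearIndependent.pair_iff]
  constructor <;> intro h x y e
  · obtain ⟨h1, h2⟩ := h y (-x) (by linear_combination (norm := module) e)
    exact ⟨neg_eq_zero.1 h2, h1⟩
  · obtain ⟨h1, h2⟩ := h (-y) x (by linear_combination (norm := module) e)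
    exact ⟨h2, neg_eq_zero.1 h1⟩

theorem li_smul_right {u c : V} {t : F} (ht : t ≠ 0) (h : LinearIndependent F ![u, c]) :
    LinearIndependent F ![u, t • c] := by
  rw [LinearIndependent.pair_iff] at h ⊢
  intro x y e
  obtain ⟨h1, h2⟩ := h x (y * t) (by linear_combination (norm := module) e)
  exact ⟨h1, (mul_eq_zero.1 h2).resolve_right ht⟩

theorem li3_iff {a b c : V} : LinearIndependent F ![a, b, c] ↔
    ∀ x y z : F, x • a + y • b + z • c = 0 → x = 0 ∧ y = 0 ∧ z = 0 := by
  rw [Fintype.linearIndependent_iff]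
  constructor
  · intro h x y z e
    have h' := h ![x, y, z] (by simpa [Fin.sum_univ_three] using e)
    exact ⟨h' 0, h' 1, h' 2⟩
  · intro h g e i
    obtain ⟨h1, h2, h3⟩ := h (g 0) (g 1) (g 2) (by simpa [Fin.sum_univ_three] using e)
    fin_cases i <;> assumption

namespace Ext

variable [FiniteDimensional F V] [Finite F] (hE : Ext τ)
include hE

open _root_.Classical in
/-- The canonical lift of a long root element. -/
noncomputable def lg (u c : V) : E :=
  if h : Q u = 0 ∧ Q c = 0 ∧ polar Q u c = 0 ∧ LinearIndependent F ![u, c] then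
    hE.Phi u c (hE.amb.exists_pair₂ h.2.2.2).choose
      (hE.amb.exists_pair₂ h.2.2.2).choose_spec.choose
  else 1

theorem lg_dep {u c : V} (h : ¬LinearIndependent F ![u, c]) : hE.lg u c = 1 :=
  dif_neg fun h' => h h'.2.2.2

theorem lg_zero (u : V) : hE.lg u 0 = 1 :=
  hE.lg_dep fun h => h.ne_zero 1 rfl

theorem lg_self (u : V) (k : F) : hE.lg u (k • u) = 1 := by
  refine hE.lg_dep fun h => ?_
  rw [LinearIndependent.pair_iff] at h
  exact one_ne_zero (neg_eq_zero.1 (h k (-1) (by module)).2)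

variable {u c : V}

theorem lg_eq (hu : Q u = 0) (hc : Q c = 0) (huc : polar Q u c = 0)
    (hli : LinearIndependent F ![u, c]) {w w' : V} (hw : InS Q u c w) (hw' : InS Q u c w')
    (h1 : polar Q w w' = 1) : hE.Phi u c w w' = hE.lg u c := by
  obtain ⟨hp, p1, p2, p3, p4⟩ := (hE.amb.exists_pair₂ hli).choose_spec.choose_spec
  rw [lg, dif_pos ⟨hu, hc, huc, hli⟩, hE.Phi_eq hu hc huc hli hp ⟨p1, p2⟩ ⟨p3, p4⟩ hw hw', h1,
    one_smul]

theorem Phi_lg (hu : Q u = 0) (hc : Q c = 0) (huc : polar Q u c = 0)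
    (hli : LinearIndependent F ![u, c]) {w w' : V} (hw : InS Q u c w) (hw' : InS Q u c w') :
    hE.Phi u c w w' = hE.lg u (polar Q w w' • c) := by
  set t := polar Q w w' with ht
  rcases eq_or_ne t 0 with h0 | h0
  · obtain ⟨e, f, hp, p1, p2, p3, p4⟩ := hE.amb.exists_pair₂ hli
    rw [hE.Phi_eq hu hc huc hli hp ⟨p1, p2⟩ ⟨p3, p4⟩ hw hw', ← ht, h0, zero_smul, zero_smul,
      hE.Phi_zero_right hu hc huc (⟨p1, p2⟩ : InS Q u c e), hE.lg_zero]
  have htc : Q (t • c) = 0 := by rw [QuadraticMap.map_smul, hc, smul_zero]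
  have hutc : polar Q u (t • c) = 0 := by rw [polar_smul_right, huc, smul_zero]
  have hS : InS Q u (t • c) w := ⟨hw.1, by rw [polar_smul_left, hw.2, smul_zero]⟩
  have hS' : InS Q u (t • c) (t⁻¹ • w') :=
    InS.smul _ ⟨hw'.1, by rw [polar_smul_left, hw'.2, smul_zero]⟩
  rw [← hE.lg_eq hu htc hutc (li_smul_right h0 hli) hS hS'
    (by rw [polar_smul_right, ← ht, smul_eq_mul, inv_mul_cancel₀ h0])]
  refine (hE.Phi_congr (hE.L_is hu hw.1) ?_).symm
  have h := (hE.L_is htc hS'.2).smul t hc (by rw [polar_smul_right, hw'.2, smul_zero])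
  rwa [smul_smul, mul_inv_cancel₀ h0, one_smul] at h

theorem lg_is (hu : Q u = 0) (hc : Q c = 0) (huc : polar Q u c = 0) :
    Is τ (hE.lg u c) u c := by
  by_cases hli : LinearIndependent F ![u, c]
  · obtain ⟨e, f, hp, p1, p2, p3, p4⟩ := hE.amb.exists_pair₂ hli
    rw [← hE.lg_eq hu hc huc hli ⟨p1, p2⟩ ⟨p3, p4⟩ hp.2.2]
    have h := hE.Phi_is hu hc huc (⟨p1, p2⟩ : InS Q u c e) (⟨p3, p4⟩ : InS Q u c f)
    rwa [hp.2.2, one_smul] at h
  · rw [hE.lg_dep hli]
    rcases eq_or_ne u 0 with rfl | hu0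
    · exact Is.zero_left
    · obtain ⟨k, rfl⟩ : ∃ k : F, c = k • u := by
        rw [LinearIndependent.pair_iff' hu0] at hli
        push Not at hli
        obtain ⟨k, hk⟩ := hli
        exact ⟨k, hk.symm⟩
      exact Is.one hu k

theorem lg_line_add (hu : Q u = 0) (hc : Q c = 0) (huc : polar Q u c = 0) (s t : F) :
    hE.lg u ((s + t) • c) = hE.lg u (s • c) * hE.lg u (t • c) := by
  by_cases hli : LinearIndependent F ![u, c]
  · obtain ⟨e, f, hp, p1, p2, p3, p4⟩ := hE.amb.exists_pair₂ hli
    have he : InS Q u c e := ⟨p1, p2⟩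
    have hf : InS Q u c f := ⟨p3, p4⟩
    have h : ∀ r : F, hE.Phi u c e (r • f) = hE.lg u (r • c) := fun r => by
      rw [hE.Phi_lg hu hc huc hli he (hf.smul r), polar_smul_right, hp.2.2, smul_eq_mul, mul_one]
    rw [← h, ← h, ← h, add_smul, hE.Phi_add_right hu hc huc he (hf.smul s) (hf.smul t)]
  · have hd : ∀ r : F, hE.lg u (r • c) = 1 := fun r => hE.lg_dep fun h => hli <| by
      rw [LinearIndependent.pair_iff] at h ⊢
      rcases eq_or_ne r 0 with rfl | hr
      · exact absurd (h 0 1 (by simp)).2 one_ne_zero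
      intro x y e
      obtain ⟨h1, h2⟩ := h x (y / r)
        (by rw [smul_smul, div_mul_cancel₀ _ hr]; exact e)
      exact ⟨h1, by simpa [hr] using h2⟩
    rw [hd, hd, hd, mul_one]

theorem lg_neg (hu : Q u = 0) (hc : Q c = 0) (huc : polar Q u c = 0) :
    hE.lg u (-c) = (hE.lg u c)⁻¹ := by
  refine eq_inv_of_mul_eq_one_left ?_
  have h := hE.lg_line_add hu hc huc (-1) 1
  rw [neg_one_smul, one_smul, neg_add_cancel, zero_smul, hE.lg_zero] at h
  exact h.symm

theorem lg_smul (r : F) (hu : Q u = 0) (hc : Q c = 0) (huc : polar Q u c = 0) :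
    hE.lg (r • u) c = hE.lg u (r • c) := by
  rcases eq_or_ne r 0 with rfl | hr
  · rw [zero_smul, zero_smul, hE.lg_zero]
    exact hE.lg_dep fun h => h.ne_zero 0 rfl
  by_cases hli : LinearIndependent F ![u, c]
  swap
  · rw [hE.lg_dep, hE.lg_dep] <;> intro h
    · refine hli ?_
      rw [← one_smul F c, ← inv_mul_cancel₀ hr, mul_smul]
      exact li_smul_right (inv_ne_zero hr) h
    · refine hli ?_
      rw [← one_smul F c, ← inv_mul_cancel₀ hr, mul_smul]
      exact li_smul_right (inv_ne_zero hr) ((li_smul_left hr).1 h)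
  have hru : Q (r • u) = 0 := by rw [QuadraticMap.map_smul, hu, smul_zero]
  have hruc : polar Q (r • u) c = 0 := by rw [polar_smul_left, huc, smul_zero]
  have hli' : LinearIndependent F ![r • u, c] := (li_smul_left hr).2 (li_smul_right hr hli)
  obtain ⟨e, f, hp, p1, p2, p3, p4⟩ := hE.amb.exists_pair₂ hli
  have hS : InS Q (r • u) c e := ⟨by rw [polar_smul_left, p1, smul_zero], p2⟩
  have hS' : InS Q (r • u) c f := ⟨by rw [polar_smul_left, p3, smul_zero], p4⟩
  rw [← hE.lg_eq hru hc hruc hli' hS hS' hp.2.2]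
  have h1 := hE.Phi_congr ((hE.L_is hru hS.1).smul r hu p1) (hE.L_is hc p4)
  have h2 := hE.Phi_lg hu hc huc hli (InS.smul r (⟨p1, p2⟩ : InS Q u c e))
    (⟨p3, p4⟩ : InS Q u c f)
  rw [polar_smul_left, hp.2.2, smul_eq_mul, mul_one] at h2
  exact h1.trans h2

theorem lg_conj (g : E) (hu : Q u = 0) (hc : Q c = 0) (huc : polar Q u c = 0) :
    g * hE.lg u c * g⁻¹ = hE.lg (act τ g u) (act τ g c) := by
  by_cases hli : LinearIndependent F ![u, c]
  · obtain ⟨e, f, hp, p1, p2, p3, p4⟩ := hE.amb.exists_pair₂ hli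
    rw [← hE.lg_eq hu hc huc hli ⟨p1, p2⟩ ⟨p3, p4⟩ hp.2.2, hE.Phi_conj g hu hc p1 p4,
      hE.lg_eq (by rw [act_Q, hu]) (by rw [act_Q, hc]) (by rw [act_polar, huc])
        ((li_map _).2 hli) ⟨by rw [act_polar, p1], by rw [act_polar, p2]⟩
        ⟨by rw [act_polar, p3], by rw [act_polar, p4]⟩ (by rw [act_polar, hp.2.2])]
  · rw [hE.lg_dep hli, hE.lg_dep fun h => hli ((li_map _).1 h), mul_one, mul_inv_cancel]

theorem lg_swap (hu : Q u = 0) (hc : Q c = 0) (huc : polar Q u c = 0) :
    hE.lg u c = hE.lg c (-u) := by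
  by_cases hli : LinearIndependent F ![u, c]
  swap
  · rw [hE.lg_dep hli, hE.lg_dep fun h => hli (li_swap.1 h)]
  have hcu : polar Q c u = 0 := by rw [polar_comm, huc]
  have hli' : LinearIndependent F ![c, u] := LinearIndependent.pair_symm_iff.1 hli
  obtain ⟨e, f, hp, p1, p2, p3, p4⟩ := hE.amb.exists_pair₂ hli
  rw [← hE.lg_eq hu hc huc hli ⟨p1, p2⟩ ⟨p3, p4⟩ hp.2.2, hE.Phi_swap (u := c) (c := u) f e,
    hE.lg_neg hc hu hcu,
    hE.lg_eq hc hu hcu hli' ⟨p4, p3⟩ ⟨p2, p1⟩ (by rw [polar_comm, hp.2.2])]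

theorem lg_add₃ (hu : Q u = 0) {c c' : V} (hc : Q c = 0) (hc' : Q c' = 0)
    (huc : polar Q u c = 0) (huc' : polar Q u c' = 0) (hcc : polar Q c c' = 0)
    (hli : LinearIndependent F ![u, c, c']) :
    hE.lg u (c + c') = hE.lg u c * hE.lg u c' := by
  obtain ⟨y, hy⟩ := OrthMult.exists_values hE.amb.bn hli ![0, 1, 0]
  have hp := hE.amb.sub_pair hc (show polar Q c y = 1 from hy 1)
  set d := y - Q y • c
  have hud : polar Q u d = 0 := by
    rw [polar_sub_right, polar_smul_right, show polar Q u y = 0 from hy 0, huc]; simp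
  have hdc' : polar Q d c' = 0 := by
    rw [polar_comm, polar_sub_right, polar_smul_right, show polar Q c' y = 0 from hy 2,
      polar_comm Q c' c, hcc]; simp
  have hli' : LinearIndependent F ![u, c'] := by
    rw [LinearIndependent.pair_iff]
    intro x z e
    obtain ⟨h1, -, h3⟩ := li3_iff.1 hli x 0 z (by rw [zero_smul, add_zero]; exact e)
    exact ⟨h1, h3⟩
  have hg := hE.L_is hp.2.1 hdc'
  set g := hE.L d c'
  have hgu : act τ g u = u := hg.fix (by rw [polar_comm, hud]) (by rw [polar_comm, huc'])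
  have hgc : act τ g c = c + c' := by
    rw [hg.2.2 c, hc', polar_comm Q d c, hp.2.2, polar_comm Q c' c, hcc]; simp
  have hX := hE.lg_is hu hc huc
  have hN : ⁅hE.lg u c, g⁆ = hE.lg u (-c') := by
    have hS : InS Q u c' c := ⟨huc, by rw [polar_comm, hcc]⟩
    have hS' : InS Q u c' (-d) := ⟨by rw [polar_neg_right, hud, neg_zero],
      by rw [polar_neg_right, polar_comm, hdc', neg_zero]⟩
    rw [hE.Phi_congr hX (hg.swap hc'), hE.Phi_lg hu hc' huc' hli' hS hS', polar_neg_right,
      hp.2.2, neg_one_smul]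
  rw [hE.lg_neg hu hc' huc'] at hN
  have e := hE.lg_conj g hu hc huc
  rw [hgu, hgc] at e
  rw [← e]
  have h2 : g * hE.lg u c * g⁻¹ = ⁅hE.lg u c, g⁆⁻¹ * hE.lg u c := by
    rw [commutatorElement_def]; group
  have hcm : Commute (hE.lg u c') (hE.lg u c) :=
    hE.commute_short (hE.lg_is hu hc' huc') (t := 1) (by rw [one_smul]; exact hX) hc huc
      (by rw [polar_comm, hcc])
  rw [h2, hN, inv_inv, hcm.eq]

theorem lg_addSelf (k : F) (hu : Q u = 0) (hc : Q c = 0) (huc : polar Q u c = 0) :
    hE.lg u (c + k • u) = hE.lg u c := by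
  rcases eq_or_ne k 0 with rfl | hk
  · rw [zero_smul, add_zero]
  by_cases hli : LinearIndependent F ![u, c]
  swap
  · rw [hE.lg_dep hli, hE.lg_dep fun h => hli ?_]
    rw [LinearIndependent.pair_iff] at h ⊢
    intro x y e
    obtain ⟨h1, h2⟩ := h (x - y * k) y (by linear_combination (norm := module) e)
    exact ⟨by rw [h2, zero_mul, sub_zero] at h1; exact h1, h2⟩
  obtain ⟨b, f, hp, hub, hcb, huf, hcf⟩ := hE.amb.exists_pair₂ hli
  have hb := hp.1
  have hbu : polar Q b u = 0 := by rw [polar_comm, hub]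
  have hbc : polar Q b c = 0 := by rw [polar_comm, hcb]
  have hcu : polar Q c u = 0 := by rw [polar_comm, huc]
  have hl : LinearIndependent F ![b, u, c] := Amb.li_cons hE.amb hli (y := f) (x := b)
    (fun i => by fin_cases i; exacts [huf, hcf]) (by rw [hp.2.2]; exact one_ne_zero)
  set a := u - b with ha_def
  have hua : u = a + b := by rw [ha_def, sub_add_cancel]
  have ha : Q a = 0 := by rw [ha_def, qf_sub, hu, hb, hub]; simp
  have hab : polar Q a b = 0 := by rw [ha_def, polar_sub_left, hub, pol_self hb, sub_zero]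
  have hac : polar Q a c = 0 := by rw [ha_def, polar_sub_left, huc, hbc, sub_zero]
  have hua' : polar Q u a = 0 := by rw [ha_def, polar_sub_right, pol_self hu, hub, sub_zero]
  have hkb : Q (k • b) = 0 := by rw [QuadraticMap.map_smul, hb, smul_zero]
  have hka : Q (k • a) = 0 := by rw [QuadraticMap.map_smul, ha, smul_zero]
  set x := k • b + c with hx_def
  have hx : Q x = 0 := by rw [hx_def, qf_add, hkb, hc, polar_smul_left, hbc]; simp
  have hax : polar Q a x = 0 := by
    rw [hx_def, polar_add_right, polar_smul_right, hab, hac]; simp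
  have hbx : polar Q b x = 0 := by
    rw [hx_def, polar_add_right, polar_smul_right, pol_self hb, hbc]; simp
  have hux : polar Q u x = 0 := by rw [hua, polar_add_left, hax, hbx, add_zero]
  have L := li3_iff.1 hl
  have liA : LinearIndependent F ![u, k • a, x] := li3_iff.2 fun p q r e => by
    obtain ⟨h1, h2, h3⟩ := L ((r - q) * k) (p + q * k) r (by
      rw [hx_def, ha_def] at e
      linear_combination (norm := module) e)
    have hq : q = 0 := by simpa [h3, hk] using h1
    exact ⟨by simpa [hq] using h2, hq, h3⟩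
  have liB : LinearIndependent F ![x, -a, -b] := li3_iff.2 fun p q r e => by
    obtain ⟨h1, h2, h3⟩ := L (p * k + q - r) (-q) p (by
      rw [hx_def, ha_def] at e
      linear_combination (norm := module) e)
    have hq : q = 0 := neg_eq_zero.1 h2
    exact ⟨h3, hq, by simpa [h3, hq] using h1⟩
  have liC : LinearIndependent F ![a, k • b, c] := li3_iff.2 fun p q r e => by
    obtain ⟨h1, h2, h3⟩ := L (q * k - p) p r (by
      rw [ha_def] at e
      linear_combination (norm := module) e)
    exact ⟨h2, by simpa [h2, hk] using h1, h3⟩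
  -- the defects
  have defect : ∀ {x y : V}, Q x = 0 → Q y = 0 → polar Q x y = 0 → ∀ k : F,
      hE.lg x (y + k • x) * (hE.lg x y)⁻¹ ∈ τ.ker := fun {x y} hx hy hxy k => by
    have hxy' : polar Q x (y + k • x) = 0 := by
      rw [polar_add_right, polar_smul_right, hxy, pol_self hx, smul_zero, add_zero]
    have hy' : Q (y + k • x) = 0 := by
      rw [qf_add, QuadraticMap.map_smul, hy, hx, polar_smul_right, polar_comm, hxy]; simp
    rw [MonoidHom.mem_ker, map_mul, map_inv, mul_inv_eq_one]
    exact (hE.lg_is hx hy' hxy').eq ((hE.lg_is hx hy hxy).addSelf k)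
  obtain ⟨d1, D1⟩ : ∃ d, d = hE.lg a (k • b + k • a) * (hE.lg a (k • b))⁻¹ := ⟨_, rfl⟩
  obtain ⟨d2, D2⟩ : ∃ d, d = hE.lg a (c + k • a) * (hE.lg a c)⁻¹ := ⟨_, rfl⟩
  obtain ⟨d3, D3⟩ : ∃ d, d = hE.lg b (c + k • b) * (hE.lg b c)⁻¹ := ⟨_, rfl⟩
  have hakb : polar Q a (k • b) = 0 := by rw [polar_smul_right, hab, smul_zero]
  have hd1 : ∀ g, g * d1 = d1 * g :=
    Subgroup.mem_center_iff.1 (hE.central (D1 ▸ defect ha hkb hakb k))
  have hd2 : ∀ g, g * d2 = d2 * g :=
    Subgroup.mem_center_iff.1 (hE.central (D2 ▸ defect ha hc hac k))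
  have e12 : d1 = d2 := by
    have hca : polar Q c a = 0 := by rw [polar_comm, hac]
    have hkbc : polar Q (k • b) c = 0 := by rw [polar_smul_left, hbc, smul_zero]
    have A1 := hE.lg_add₃ ha (c := k • b + k • a) (c' := c)
      (by rw [qf_add, hkb, hka, polar_smul_left, polar_smul_right, polar_comm Q b a, hab]; simp) hc
      (by rw [polar_add_right, polar_smul_right, polar_smul_right, hab, pol_self ha]; simp) hac
      (by rw [polar_add_left, polar_smul_left, polar_smul_left, hbc, hac]; simp)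
      (li3_iff.2 fun p q r e => by
        obtain ⟨h1, h2, h3⟩ := li3_iff.1 liC (p + q * k) q r
          (by linear_combination (norm := module) e)
        exact ⟨by simpa [h2] using h1, h2, h3⟩)
    have A2 := hE.lg_add₃ ha (c := k • b) (c' := c + k • a) hkb
      (by rw [qf_add, hc, hka, polar_smul_right, hca]; simp) hakb
      (by rw [polar_add_right, polar_smul_right, hac, pol_self ha]; simp)
      (by simp [polar_add_right, polar_smul_right, polar_smul_left, hbc, polar_comm Q b a, hab])
      (li3_iff.2 fun p q r e => by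
        obtain ⟨h1, h2, h3⟩ := li3_iff.1 liC (p + r * k) q r
          (by linear_combination (norm := module) e)
        exact ⟨by simpa [h3] using h1, h2, h3⟩)
    rw [show k • b + k • a + c = k • b + (c + k • a) by abel, A2,
      show hE.lg a (k • b + k • a) = d1 * hE.lg a (k • b) by rw [D1, inv_mul_cancel_right],
      show hE.lg a (c + k • a) = d2 * hE.lg a c by rw [D2, inv_mul_cancel_right],
      ← mul_assoc, hd2, mul_assoc, mul_assoc] at A1
    exact (mul_right_cancel A1).symm
  have e23 : d2 = d3 := by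
    obtain ⟨y, hy⟩ := OrthMult.exists_values hE.amb.bn hl ![1, 2, 0]
    have hay : polar Q a y = 1 := by
      rw [ha_def, polar_sub_left, show polar Q u y = 2 from hy 1,
        show polar Q b y = 1 from hy 0]; norm_num
    have hq := hE.amb.sub_pair ha hay
    set z := y - Q y • a
    have hzb : polar Q b z = 1 := by
      rw [polar_sub_right, polar_smul_right, show polar Q b y = 1 from hy 0, polar_comm Q b a,
        hab]; simp
    have hzc : polar Q c z = 0 := by
      rw [polar_sub_right, polar_smul_right, show polar Q c y = 0 from hy 2, polar_comm Q c a,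
        hac]; simp
    have hg := hE.L_is hq.2.1 (show polar Q z (b - a) = 0 by
      rw [polar_sub_right, polar_comm Q z b, hzb, polar_comm Q z a, hq.2.2, sub_self])
    set g := hE.L z (b - a)
    have hga : act τ g a = b := by
      rw [hg.2.2 a, qf_sub, ha, hb, polar_comm Q z a, hq.2.2, polar_sub_left, polar_comm Q b a,
        hab, pol_self ha]
      simp
    have hgc : act τ g c = c := hg.fix (by rw [polar_comm, hzc])
      (by rw [polar_sub_left, hbc, hac, sub_zero])
    have h : g * d2 * g⁻¹ = d3 := by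
      have e : g * d2 * g⁻¹ =
          (g * hE.lg a (c + k • a) * g⁻¹) * (g * hE.lg a c * g⁻¹)⁻¹ := by
        rw [D2]; group
      rw [e, hE.lg_conj g ha (by rw [qf_add, hc, hka, polar_smul_right, polar_comm Q c a, hac]; simp)
          (by rw [polar_add_right, polar_smul_right, hac, pol_self ha]; simp),
        hE.lg_conj g ha hc hac, map_add, map_smul, hga, hgc, D3]
    rwa [hd2, mul_inv_cancel_right] at h
  -- the computation
  have hxu : polar Q x a = 0 := by rw [polar_comm, hax]
  have hxb : polar Q x b = 0 := by rw [polar_comm, hbx]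
  have s1 : hE.lg u (c + k • u) = hE.lg u (k • a) * hE.lg u x := by
    rw [show c + k • u = k • a + x by rw [hx_def, hua]; module]
    exact hE.lg_add₃ hu hka hx (by rw [polar_smul_right, hua', smul_zero]) hux
      (by rw [polar_smul_left, hax, smul_zero]) liA
  have s2 : hE.lg u x = hE.lg a x * hE.lg b x := by
    rw [hE.lg_swap hu hx hux, hE.lg_swap ha hx hax, hE.lg_swap hb hx hbx,
      show -u = -a + -b by rw [hua]; abel]
    exact hE.lg_add₃ hx (by rw [QuadraticMap.map_neg, ha]) (by rw [QuadraticMap.map_neg, hb])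
      (by rw [polar_neg_right, hxu, neg_zero]) (by rw [polar_neg_right, hxb, neg_zero])
      (by rw [polar_neg_left, polar_neg_right, hab, neg_zero, neg_zero]) liB
  have s3 : hE.lg a x = hE.lg a (k • b) * hE.lg a c :=
    hE.lg_add₃ ha hkb hc hakb hac (by rw [polar_smul_left, hbc, smul_zero]) liC
  have s4 : hE.lg u (k • a) = (hE.lg a (k • b + k • a))⁻¹ := by
    rw [hE.lg_swap hu hka (by rw [polar_smul_right, hua', smul_zero]),
      hE.lg_smul k ha (by rw [QuadraticMap.map_neg, hu])
        (by rw [polar_neg_right, polar_comm, hua', neg_zero]),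
      show k • -u = -(k • b + k • a) by rw [hua]; module]
    exact hE.lg_neg ha
      (by rw [qf_add, hkb, hka, polar_smul_left, polar_smul_right, polar_comm Q b a, hab]; simp)
      (by rw [polar_add_right, polar_smul_right, polar_smul_right, hab, pol_self ha]; simp)
  have s5 : hE.lg b x = d1 * hE.lg b c := by
    rw [e12, e23, D3, inv_mul_cancel_right, hx_def, add_comm]
  have s6 : hE.lg u c = hE.lg a c * hE.lg b c := by
    rw [hE.lg_swap hu hc huc, hE.lg_swap ha hc hac, hE.lg_swap hb hc hbc,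
      show -u = -a + -b by rw [hua]; abel]
    exact hE.lg_add₃ hc (by rw [QuadraticMap.map_neg, ha]) (by rw [QuadraticMap.map_neg, hb])
      (by rw [polar_neg_right, polar_comm, hac, neg_zero])
      (by rw [polar_neg_right, hcb, neg_zero])
      (by rw [polar_neg_left, polar_neg_right, hab, neg_zero, neg_zero])
      (li3_iff.2 fun p q r e => by
        obtain ⟨h1, h2, h3⟩ := L (q - r) (-q) p (by
          rw [ha_def] at e
          linear_combination (norm := module) e)
        have hq : q = 0 := neg_eq_zero.1 h2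
        exact ⟨h3, hq, by simpa [hq] using h1⟩)
  have h0 : hE.lg a (k • b + k • a) = d1 * hE.lg a (k • b) := by rw [D1, inv_mul_cancel_right]
  rw [s1, s2, s3, s4, s5, s6, h0]
  calc (d1 * hE.lg a (k • b))⁻¹ * (hE.lg a (k • b) * hE.lg a c * (d1 * hE.lg b c))
      = d1⁻¹ * d1 * ((d1 * hE.lg a (k • b))⁻¹ * (d1 * hE.lg a (k • b))) *
          (hE.lg a c * hE.lg b c) := by
        rw [show hE.lg a (k • b) * hE.lg a c * (d1 * hE.lg b c) =
          (hE.lg a (k • b) * hE.lg a c * d1) * hE.lg b c by group, hd1]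
        group
    _ = _ := by group

theorem lg_add (hu : Q u = 0) {c c' : V} (hc : Q c = 0) (hc' : Q c' = 0)
    (huc : polar Q u c = 0) (huc' : polar Q u c' = 0) (hcc : polar Q c c' = 0) :
    hE.lg u (c + c') = hE.lg u c * hE.lg u c' := by
  rcases eq_or_ne u 0 with rfl | hu0
  · have h : ∀ x : V, hE.lg 0 x = 1 := fun x => hE.lg_dep fun h => h.ne_zero 0 rfl
    rw [h, h, h, mul_one]
  by_cases h1 : LinearIndependent F ![u, c]
  swap
  · rw [LinearIndependent.pair_iff' hu0] at h1
    push Not at h1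
    obtain ⟨k, rfl⟩ := h1
    rw [hE.lg_self, one_mul, add_comm, hE.lg_addSelf k hu hc' huc']
  by_cases h3 : LinearIndependent F ![u, c, c']
  · exact hE.lg_add₃ hu hc hc' huc huc' hcc h3
  obtain ⟨t, m, rfl⟩ : ∃ t m : F, c' = t • c + m • u := by
    rw [li3_iff] at h3
    push Not at h3
    obtain ⟨x, y, z, e, hne⟩ := h3
    have hz : z ≠ 0 := by
      rintro rfl
      obtain ⟨hx, hy⟩ := LinearIndependent.pair_iff.1 h1 x y
        (by rwa [zero_smul, add_zero] at e)
      exact hne hx hy rfl
    refine ⟨-(z⁻¹ * y), -(z⁻¹ * x), ?_⟩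
    linear_combination (norm := (match_scalars <;> field_simp <;> ring)) z⁻¹ • e
  have htc : Q (t • c) = 0 := by rw [QuadraticMap.map_smul, hc, smul_zero]
  have hutc : polar Q u (t • c) = 0 := by rw [polar_smul_right, huc, smul_zero]
  rw [hE.lg_addSelf m hu htc hutc, show c + (t • c + m • u) = (1 + t) • c + m • u by module,
    hE.lg_addSelf m hu (by rw [QuadraticMap.map_smul, hc, smul_zero])
      (by rw [polar_smul_right, huc, smul_zero]), hE.lg_line_add hu hc huc, one_smul]

theorem lg_commute (hu : Q u = 0) {c c' : V} (hc : Q c = 0) (hc' : Q c' = 0)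
    (huc : polar Q u c = 0) (huc' : polar Q u c' = 0) :
    Commute (hE.lg u c) (hE.lg u c') := by
  have hx := hE.lg_is hu hc huc
  by_cases hcc : polar Q c c' = 0
  · exact hE.commute_short hx (t := 1) (by rw [one_smul]; exact hE.lg_is hu hc' huc') hc' huc' hcc
  by_cases hli : LinearIndependent F ![u, c']
  swap
  · rw [hE.lg_dep hli]; exact Commute.one_right _
  obtain ⟨v, v', hvv, hp⟩ := hE.amb.perp_pair ![u, c', c] (by have := hE.amb.dim; omega)
  have hS : InS Q u c' v := ⟨(hp 0).1, (hp 1).1⟩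
  have hS' : InS Q u c' v' := ⟨(hp 0).2, (hp 1).2⟩
  have e := hE.Phi_conj (hE.lg u c) hu hc' hS.1 hS'.2
  rw [hE.lg_eq hu hc' huc' hli hS hS' hvv] at e
  set k := -polar Q c c'
  have hxc' : act τ (hE.lg u c) c' = c' + k • u := by
    rw [hx.2.2 c', huc']; simp [k, sub_eq_add_neg]
  rw [hx.fix_self, hxc', hx.fix hS.1 (hp 2).1, hx.fix hS'.1 (hp 2).2] at e
  have hq : Q (c' + k • u) = 0 := by rw [← hxc', act_Q, hc']
  have hp' : polar Q u (c' + k • u) = 0 := by
    rw [polar_add_right, polar_smul_right, huc', pol_self hu, smul_zero, add_zero]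
  have hli' : LinearIndependent F ![u, c' + k • u] := by
    rw [LinearIndependent.pair_iff] at hli ⊢
    intro x y h
    obtain ⟨h1, h2⟩ := hli (x + y * k) y (by linear_combination (norm := module) h)
    exact ⟨by simpa [h2] using h1, h2⟩
  rw [hE.lg_eq hu hq hp' hli'
    ⟨hS.1, by rw [polar_add_left, polar_smul_left, hS.2, hS.1]; simp⟩
    ⟨hS'.1, by rw [polar_add_left, polar_smul_left, hS'.2, hS'.1]; simp⟩ hvv,
    hE.lg_addSelf k hu hc' huc'] at e
  exact mul_inv_eq_iff_eq_mul.1 e

end Ext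

end Cfsg.Agent.CentralExt.MinusMult
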