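/-
Every central extension of `EQ Q` has a compatible system of lifts of the Eichler transformations.
-/
import Cfsg.Agent.CentralExt.MinusMult.Long
import Cfsg.Agent.CentralExt.OrthMult.Descend

set_option autoImplicit false
set_option linter.unusedSectionVars false
set_option linter.style.haveILetI false

namespace Cfsg.Agent.CentralExt.MinusMult

open Cfsg.Agent.Classical Cfsg.Agent.OrthGen QuadraticMap Module

universe u v w

variable {F : Type u} [Field F] {V : Type v} [AddCommGroup V] [Module F V]
  {Q : QuadraticForm F V} {E : Type w} [Group E] {τ : E →* EQ Q}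
variable [FiniteDimensional F V] [Finite F]

theorem Amb.hasTwoPairs (hA : Amb Q) : HasTwoPairs Q :=
  hasTwoPairs_of_five_le hA.bn (by have := hA.dim; omega)

/-- Induction on the orthogonal of a singular vector. -/
theorem Amb.perp_ind (hA : Amb Q) {u : V} (hu : Q u = 0) (hu0 : u ≠ 0) {P : V → Prop}
    (hadd : ∀ x y, polar Q u x = 0 → polar Q u y = 0 → P x → P y → P (x + y))
    (hsing : ∀ x, polar Q u x = 0 → Q x = 0 → P x) {a : V} (ha : polar Q u a = 0) : P a :=
  OrthMult.perp_induction hA.bn.qNondeg hA.hasTwoPairs hu hu0 hadd hsing ha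

/-- Two hyperbolic pairs orthogonal to a singular vector and to each other. -/
structure Frame (Q : QuadraticForm F V) (u e f e₂ f₂ : V) : Prop where
  pair : IsPair Q e f
  pair₂ : IsPair Q e₂ f₂
  ue : polar Q u e = 0
  uf : polar Q u f = 0
  ue₂ : polar Q u e₂ = 0
  uf₂ : polar Q u f₂ = 0
  ee₂ : polar Q e e₂ = 0
  ef₂ : polar Q e f₂ = 0
  fe₂ : polar Q f e₂ = 0
  ff₂ : polar Q f f₂ = 0

theorem Amb.exists_frame (hA : Amb Q) {u : V} (hu : Q u = 0) (hu0 : u ≠ 0) :
    ∃ e f e₂ f₂, Frame Q u e f e₂ f₂ := by
  obtain ⟨u', hu'⟩ := OrthMult.exists_dual hA.bn hu0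
  have hli : LinearIndependent F ![u, u'] := by
    rw [LinearIndependent.pair_iff]
    intro x y e
    have h1 := congrArg (fun z => polar Q u z) e
    simp only [polar_add_right, polar_smul_right, pol_self hu, hu', polar_zero_right, smul_eq_mul,
      mul_zero, mul_one, zero_add] at h1
    rw [h1, zero_smul, add_zero] at e
    exact ⟨(smul_eq_zero.1 e).resolve_right hu0, h1⟩
  obtain ⟨e, f, hp, hue, hu'e, huf, hu'f⟩ := hA.exists_pair₂ hli
  obtain ⟨z, hz0, hz, hzp⟩ := OrthMult.exists_perp_sing hA.bn ![u, u', e, f]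
    (by have := hA.dim; omega)
  have hl4 : LinearIndependent F ![z, u, e, f] := by
    rw [Fintype.linearIndependent_iff]
    intro g hg
    rw [Fin.sum_univ_four] at hg
    simp only [Matrix.cons_val_zero, Matrix.cons_val_one, Matrix.cons_val] at hg
    have q1 := congrArg (fun t => polar Q t u') hg
    have q2 := congrArg (fun t => polar Q t e) hg
    have q3 := congrArg (fun t => polar Q t f) hg
    simp only [polar_add_left, polar_smul_left, polar_zero_left, polar_comm Q z u',
      polar_comm Q z e, polar_comm Q z f, polar_comm Q e u', polar_comm Q f u', polar_comm Q f e,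
      hu', hu'e, hu'f, hue, huf, hp.2.2, pol_self hp.1, pol_self hp.2.1,
      show polar Q u' z = 0 from hzp 1, show polar Q e z = 0 from hzp 2,
      show polar Q f z = 0 from hzp 3, smul_eq_mul, mul_zero, mul_one, zero_add, add_zero]
      at q1 q2 q3
    rw [q1, q2, q3] at hg
    simp only [zero_smul, add_zero] at hg
    have h0 := (smul_eq_zero.1 hg).resolve_right hz0
    intro i; fin_cases i <;> assumption
  obtain ⟨y, hy⟩ := OrthMult.exists_values hA.bn hl4 ![1, 0, 0, 0]
  refine ⟨e, f, z, y - Q y • z, hp, hA.sub_pair hz (hy 0), hue, huf, hzp 0, ?_, hzp 2, ?_, hzp 3, ?_⟩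
  all_goals rw [polar_sub_right, polar_smul_right]
  · rw [show polar Q u y = 0 from hy 1, show polar Q u z = 0 from hzp 0]; simp
  · rw [show polar Q e y = 0 from hy 2, show polar Q e z = 0 from hzp 2]; simp
  · rw [show polar Q f y = 0 from hy 3, show polar Q f z = 0 from hzp 3]; simp

variable {u e f e₂ f₂ : V}

theorem Frame.decomp (hF : Frame Q u e f e₂ f₂) (hA : Amb Q) (hu : Q u = 0) (hu0 : u ≠ 0)
    {v : V} (huv : polar Q u v = 0) (hev : polar Q e v = 0) (hfv : polar Q f v = 0)
    (hQv : Q v ≠ 0) :
    ∃ y, Q y = 0 ∧ polar Q u y = 0 ∧ polar Q e y = 0 ∧ polar Q f y = 0 ∧ polar Q v y = Q v := by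
  by_contra hcon
  push Not at hcon
  have h0 : ∀ y, Q y = 0 → polar Q u y = 0 → polar Q e y = 0 → polar Q f y = 0 →
      polar Q v y = 0 := by
    intro y h1 h2 h3 h4
    by_contra h5
    refine hcon ((Q v / polar Q v y) • y) (by rw [QuadraticMap.map_smul, h1, smul_zero])
      (by rw [polar_smul_right, h2, smul_zero]) (by rw [polar_smul_right, h3, smul_zero])
      (by rw [polar_smul_right, h4, smul_zero]) ?_
    rw [polar_smul_right, smul_eq_mul, div_mul_cancel₀ _ h5]
  obtain ⟨hp, hp₂, ue, uf, ue₂, uf₂, ee₂, ef₂, fe₂, ff₂⟩ := hF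
  have hl : LinearIndependent F ![v, u, e, f] := by
    rw [Fintype.linearIndependent_iff]
    intro g hg
    rw [Fin.sum_univ_four] at hg
    simp only [Matrix.cons_val_zero, Matrix.cons_val_one, Matrix.cons_val] at hg
    have q2 := congrArg (fun t => polar Q t e) hg
    have q3 := congrArg (fun t => polar Q t f) hg
    simp only [polar_add_left, polar_smul_left, polar_zero_left, polar_comm Q v e,
      polar_comm Q v f, polar_comm Q f e, ue, uf, hev, hfv, hp.2.2, pol_self hp.1,
      pol_self hp.2.1, smul_eq_mul, mul_zero, mul_one, zero_add, add_zero] at q2 q3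
    rw [q2, q3] at hg
    simp only [zero_smul, add_zero] at hg
    have h0' : g 0 = 0 := by
      by_contra hne
      refine hQv ?_
      rw [show v = (-(g 0)⁻¹ * g 1) • u by
        linear_combination (norm := (match_scalars <;> field_simp <;> ring)) (g 0)⁻¹ • hg,
        QuadraticMap.map_smul, hu, smul_zero]
    rw [h0', zero_smul, zero_add] at hg
    have h1 := (smul_eq_zero.1 hg).resolve_right hu0
    intro i; fin_cases i <;> assumption
  obtain ⟨z, hz⟩ := OrthMult.exists_values hA.bn hl ![1, 0, 0, 0]
  set y' := z - polar Q f₂ z • e₂ - polar Q e₂ z • f₂ with hy'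
  have k1 : polar Q e₂ y' = 0 := by
    simp [hy', polar_sub_right, polar_smul_right, pol_self hp₂.1, hp₂.2.2]
  have k2 : polar Q f₂ y' = 0 := by
    simp [hy', polar_sub_right, polar_smul_right, pol_self hp₂.2.1, polar_comm Q f₂ e₂, hp₂.2.2]
  have b1 : polar Q u z = 0 := hz 1
  have b2 : polar Q e z = 0 := hz 2
  have b3 : polar Q f z = 0 := hz 3
  have a1 : polar Q v e₂ = 0 := h0 e₂ hp₂.1 ue₂ ee₂ fe₂
  have a2 : polar Q v f₂ = 0 := h0 f₂ hp₂.2.1 uf₂ ef₂ ff₂
  have a3 : polar Q v (e₂ + y' + (-Q y') • f₂) = 0 := by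
    refine h0 _ ?_ ?_ ?_ ?_
    · rw [qf_add, qf_add, QuadraticMap.map_smul, polar_smul_right, polar_add_left, hp₂.1,
        hp₂.2.1, hp₂.2.2, k1, polar_comm Q y' f₂, k2]
      simp
    all_goals simp [hy', polar_add_right, polar_sub_right, polar_smul_right, ue₂, uf₂, ee₂, ef₂,
      fe₂, ff₂, b1, b2, b3]
  have : polar Q v z = 0 := by
    rw [show z = (e₂ + y' + (-Q y') • f₂) + (polar Q f₂ z - 1) • e₂ +
      (polar Q e₂ z + Q y') • f₂ by rw [hy']; module, polar_add_right, polar_add_right,
      polar_smul_right, polar_smul_right, a1, a2, a3]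
    simp
  rw [show polar Q v z = 1 from hz 0] at this
  exact one_ne_zero this

namespace Ext

variable (hE : Ext τ)
include hE

/-- The group generated by the long lifts at one vector is abelian. -/
theorem long_comm {u : V} (hu : Q u = 0) :
    ∀ x ∈ Subgroup.closure {x | ∃ c, Q c = 0 ∧ polar Q u c = 0 ∧ x = hE.lg u c},
    ∀ y ∈ Subgroup.closure {x | ∃ c, Q c = 0 ∧ polar Q u c = 0 ∧ x = hE.lg u c},
      x * y = y * x := by
  set S : Set E := {x | ∃ c, Q c = 0 ∧ polar Q u c = 0 ∧ x = hE.lg u c}
  have h1 : Subgroup.closure S ≤ Subgroup.centralizer S := (Subgroup.closure_le _).2 (by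
    rintro x ⟨c, hc, huc, rfl⟩ y ⟨c', hc', huc', rfl⟩
    exact (hE.lg_commute hu hc' hc huc' huc).eq)
  intro x hx y hy
  have h2 : Subgroup.closure S ≤ Subgroup.centralizer {x} := (Subgroup.closure_le _).2
    fun s hs => Subgroup.mem_centralizer_singleton_iff.2 (h1 hx s hs)
  exact (Subgroup.mem_centralizer_singleton_iff.1 (h2 hy)).symm

set_option maxHeartbeats 1000000 in
/-- The additive extension of the long lifts to the orthogonal of a singular vector. -/
theorem exists_hom {u : V} (hu : Q u = 0) (hu0 : u ≠ 0) :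
    ∃ φ : V → E, (∀ a b, polar Q u a = 0 → polar Q u b = 0 → φ (a + b) = φ a * φ b) ∧
      ∀ c, Q c = 0 → polar Q u c = 0 → φ c = hE.lg u c := by
  classical
  obtain ⟨e, f, e₂, f₂, hF⟩ := hE.amb.exists_frame hu hu0
  have hee : polar Q e e = 0 := pol_self hF.pair.1
  have hff : polar Q f f = 0 := pol_self hF.pair.2.1
  have hef : polar Q e f = 1 := hF.pair.2.2
  have hfe : polar Q f e = 1 := by rw [polar_comm, hef]
  set A := Subgroup.closure {x | ∃ c, Q c = 0 ∧ polar Q u c = 0 ∧ x = hE.lg u c} with hA
  letI : CommGroup A :=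
    { (inferInstance : Group A) with
      mul_comm := fun x y => Subtype.ext (hE.long_comm hu x.1 x.2 y.1 y.2) }
  let T : V → Additive A := fun c =>
    if h : Q c = 0 ∧ polar Q u c = 0 then
      Additive.ofMul ⟨hE.lg u c, Subgroup.subset_closure ⟨c, h.1, h.2, rfl⟩⟩
    else 0
  have hval : ∀ {c}, Q c = 0 → polar Q u c = 0 → ((T c).toMul : E) = hE.lg u c :=
    fun {c} h h' => by simp only [T, dif_pos (And.intro h h')]; rfl
  have hadd : ∀ {b b'}, Q b = 0 → Q b' = 0 → polar Q u b = 0 → polar Q u b' = 0 →
      polar Q b b' = 0 → T (b + b') = T b + T b' := by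
    intro b b' hb hb' hub hub' hbb
    apply Additive.toMul.injective
    apply Subtype.ext
    show ((T (b + b')).toMul : E) = (T b).toMul * (T b').toMul
    rw [hval (by rw [qf_add, hb, hb', hbb]; simp)
        (by rw [polar_add_right, hub, hub', add_zero]), hval hb hub, hval hb' hub',
      hE.lg_add hu hb hb' hub hub' hbb]
  have hT0 : T 0 = 0 := by
    have := hadd (b := 0) (b' := 0) (map_zero _) (map_zero _) (polar_zero_right Q u)
      (polar_zero_right Q u) (polar_zero_right Q 0)
    rw [add_zero] at this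
    exact add_eq_left.1 this.symm
  let InW : V → Prop := fun v => polar Q u v = 0 ∧ polar Q e v = 0 ∧ polar Q f v = 0
  let Λ : V → Additive A := fun v => T ((-Q v) • e + f + v) - T ((-Q v) • e) - T f
  have qe : ∀ t : F, Q (t • e) = 0 := fun t => by
    rw [QuadraticMap.map_smul, hF.pair.1, smul_zero]
  have qf : ∀ t : F, Q (t • f) = 0 := fun t => by
    rw [QuadraticMap.map_smul, hF.pair.2.1, smul_zero]
  have ue : ∀ t : F, polar Q u (t • e) = 0 := fun t => by
    rw [polar_smul_right, hF.ue, smul_zero]
  have uf : ∀ t : F, polar Q u (t • f) = 0 := fun t => by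
    rw [polar_smul_right, hF.uf, smul_zero]
  have InWadd : ∀ {x y}, InW x → InW y → InW (x + y) := fun {x y} hx hy => by
    refine ⟨?_, ?_, ?_⟩ <;>
      simp [polar_add_right, hx.1, hx.2.1, hx.2.2, hy.1, hy.2.1, hy.2.2]
  have InWsub : ∀ {x y}, InW x → InW y → InW (x - y) := fun {x y} hx hy => by
    refine ⟨?_, ?_, ?_⟩ <;>
      simp [polar_sub_right, hx.1, hx.2.1, hx.2.2, hy.1, hy.2.1, hy.2.2]
  have hq : ∀ {α β : F} {v}, InW v → Q (α • e + β • f + v) = α * β + Q v := by
    intro α β v hv
    rw [qf_add, qf_add, qe, qf, polar_add_left, polar_smul_left, polar_smul_left, polar_smul_left,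
      polar_smul_right, hef, hv.2.1, hv.2.2]
    simp
  -- vectors of `W` plus a multiple of `e` or of `f`
  have addE : ∀ (t : F) {y}, InW y → Q y = 0 →
      T (t • e + y) = T (t • e) + T y := fun t {y} hy hy0 =>
    hadd (qe t) hy0 (ue t) hy.1 (by rw [polar_smul_left, hy.2.1, smul_zero])
  have addF : ∀ (t : F) {y}, InW y → Q y = 0 →
      T (t • f + y) = T (t • f) + T y := fun t {y} hy hy0 =>
    hadd (qf t) hy0 (uf t) hy.1 (by rw [polar_smul_left, hy.2.2, smul_zero])
  have split : ∀ {α β : F} {v y}, InW v → InW y → α * β + Q v = 0 → Q y = 0 →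
      polar Q v y = Q v →
      T (α • e + β • f + v) = T (α • e) + T (β • f) + (T y + T (v - y)) := by
    intro α β v y hv hy hb hy0 hvy
    have hvy0 : Q (v - y) = 0 := by rw [qf_sub, hy0, hvy, add_zero, sub_self]
    have hw := InWsub hv hy
    rw [show α • e + β • f + v = (α • e + y) + (β • f + (v - y)) by abel,
      hadd (by rw [qf_add, qe, hy0, polar_smul_left, hy.2.1]; simp)
        (by rw [qf_add, qf, hvy0, polar_smul_left, hw.2.2]; simp)
        (by rw [polar_add_right, ue, hy.1, add_zero]) (by rw [polar_add_right, uf, hw.1, add_zero])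
        (by
          rw [polar_add_left, polar_add_right, polar_add_right, polar_smul_left, polar_smul_left,
            polar_smul_right, polar_smul_right, hef, hw.2.1, polar_sub_right, polar_comm Q y f,
            hy.2.2, pol_self hy0, polar_comm Q y v, hvy]
          simp only [smul_eq_mul, mul_one, mul_zero, add_zero, sub_zero, zero_add]
          linear_combination hb),
      addE α hy hy0, addF β hw hvy0]
    abel
  have hΛsing : ∀ {v}, InW v → Q v = 0 → Λ v = T v := by
    intro v hv hv0
    simp only [Λ, hv0, neg_zero, zero_smul, zero_add, hT0, sub_zero]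
    have := addF 1 hv hv0
    rw [one_smul] at this
    rw [this, add_sub_cancel_left]
  have key : ∀ {α β : F} {v}, InW v → α * β + Q v = 0 →
      T (α • e + β • f + v) = T (α • e) + T (β • f) + Λ v := by
    intro α β v hv hb
    by_cases hv0 : Q v = 0
    · rw [hΛsing hv hv0]
      rw [hv0, add_zero, mul_eq_zero] at hb
      rcases hb with rfl | rfl
      · rw [zero_smul, zero_add, hT0, zero_add, addF β hv hv0]
      · rw [zero_smul, add_zero, hT0, add_zero, addE α hv hv0]
    obtain ⟨y, hy0, y1, y2, y3, hvy⟩ := hF.decomp hE.amb hu hu0 hv.1 hv.2.1 hv.2.2 hv0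
    have h0 := split (α := -Q v) (β := 1) hv ⟨y1, y2, y3⟩
      (by rw [mul_one, neg_add_cancel]) hy0 hvy
    rw [one_smul] at h0
    rw [split hv ⟨y1, y2, y3⟩ hb hy0 hvy]
    show _ = _ + (T ((-Q v) • e + f + v) - T ((-Q v) • e) - T f)
    rw [h0]
    abel
  have hΛstep : ∀ {v y}, InW v → InW y → Q y = 0 → Λ (v + y) = Λ v + T y := by
    intro v y hv hy hy0
    set B := polar Q v y with hB
    have hb0 : Q ((-Q v) • e + f + v) = 0 := by
      have h := hq (α := -Q v) (β := 1) hv
      rwa [one_smul, mul_one, neg_add_cancel] at h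
    have h1 := hadd (b := (-Q v) • e + f + v) (b' := (-B) • e + y) hb0
      (by rw [qf_add, qe, hy0, polar_smul_left, hy.2.1]; simp)
      (by rw [polar_add_right, polar_add_right, ue, hF.uf, hv.1]; simp)
      (by rw [polar_add_right, ue, hy.1, add_zero])
      (by
        simp only [polar_add_left, polar_add_right, polar_smul_left, polar_smul_right, hee, hfe,
          hy.2.1, hy.2.2, polar_comm Q v e, hv.2.1, smul_eq_mul]
        rw [← hB]; ring)
    have hQ' : Q (v + y) = Q v + B := by rw [qf_add, hy0, add_zero, hB]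
    have h2 := key (α := -Q v + -B) (β := 1) (InWadd hv hy) (by rw [hQ']; ring)
    rw [one_smul] at h2
    rw [show (-Q v) • e + f + v + ((-B) • e + y) = (-Q v + -B) • e + f + (v + y) by module, h2,
      addE _ hy hy0, add_smul,
      hadd (qe _) (qe _) (ue _) (ue _) (by rw [polar_smul_left, polar_smul_right, hee]; simp)] at h1
    show _ = T ((-Q v) • e + f + v) - T ((-Q v) • e) - T f + T y
    rw [eq_sub_of_add_eq' h1]
    abel
  have hΛadd : ∀ {v v'}, InW v → InW v' → Λ (v + v') = Λ v + Λ v' := by
    intro v v' hv hv'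
    by_cases hv0 : Q v' = 0
    · rw [hΛsing hv' hv0, hΛstep hv hv' hv0]
    obtain ⟨y, hy0, y1, y2, y3, hvy⟩ := hF.decomp hE.amb hu hu0 hv'.1 hv'.2.1 hv'.2.2 hv0
    have hy : InW y := ⟨y1, y2, y3⟩
    have hw := InWsub hv' hy
    have hw0 : Q (v' - y) = 0 := by rw [qf_sub, hy0, hvy, add_zero, sub_self]
    have e1 : Λ v' = T y + T (v' - y) := by
      have h := hΛstep hy hw hw0
      rw [hΛsing hy hy0, add_sub_cancel] at h
      exact h
    have e2 := hΛstep (InWadd hv hy) hw hw0
    rw [show v + y + (v' - y) = v + v' by abel, hΛstep hv hy hy0] at e2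
    rw [e2, e1, add_assoc]
  let Φ : V → Additive A := fun a =>
    T (polar Q f a • e) + T (polar Q e a • f) + Λ (a - polar Q f a • e - polar Q e a • f)
  have hrest : ∀ {a}, polar Q u a = 0 → InW (a - polar Q f a • e - polar Q e a • f) := fun {a} ha =>
    ⟨by rw [polar_sub_right, polar_sub_right, ue, uf, ha]; simp,
      by simp [polar_sub_right, polar_smul_right, hee, hef],
      by simp [polar_sub_right, polar_smul_right, hff, hfe]⟩
  have hΦadd : ∀ {a b}, polar Q u a = 0 → polar Q u b = 0 → Φ (a + b) = Φ a + Φ b := by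
    intro a b ha hb
    simp only [Φ, polar_add_right, add_smul]
    rw [hadd (qe _) (qe _) (ue _) (ue _) (by rw [polar_smul_left, polar_smul_right, hee]; simp),
      hadd (qf _) (qf _) (uf _) (uf _) (by rw [polar_smul_left, polar_smul_right, hff]; simp),
      show a + b - (polar Q f a • e + polar Q f b • e) - (polar Q e a • f + polar Q e b • f) =
        (a - polar Q f a • e - polar Q e a • f) + (b - polar Q f b • e - polar Q e b • f) by abel,
      hΛadd (hrest ha) (hrest hb)]
    abel
  have hΦsing : ∀ {c}, Q c = 0 → polar Q u c = 0 → Φ c = T c := by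
    intro c hc huc
    have hc' : polar Q f c • e + polar Q e c • f + (c - polar Q f c • e - polar Q e c • f) = c := by
      abel
    have hb := hq (α := polar Q f c) (β := polar Q e c) (hrest huc)
    rw [hc', hc] at hb
    have h := key (α := polar Q f c) (β := polar Q e c) (hrest huc) hb.symm
    rw [hc'] at h
    exact h.symm
  refine ⟨fun a => ((Φ a).toMul : E), fun a b ha hb => ?_, fun c hc huc => ?_⟩
  · show ((Φ (a + b)).toMul : E) = _
    rw [hΦadd ha hb]
    rfl
  · show ((Φ c).toMul : E) = _
    rw [hΦsing hc huc, hval hc huc]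

open _root_.Classical in
/-- The lift attached to a singular vector and a vector orthogonal to it. -/
noncomputable def lift (u a : V) : E :=
  if h : Q u = 0 ∧ u ≠ 0 then (hE.exists_hom h.1 h.2).choose a else 1

theorem lift_add {u a b : V} (hu : Q u = 0) (ha : polar Q u a = 0) (hb : polar Q u b = 0) :
    hE.lift u (a + b) = hE.lift u a * hE.lift u b := by
  rcases eq_or_ne u 0 with rfl | hu0
  · simp [lift]
  · simp only [lift, dif_pos (And.intro hu hu0)]
    exact (hE.exists_hom hu hu0).choose_spec.1 a b ha hb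

theorem lift_sing {u c : V} (hu : Q u = 0) (hc : Q c = 0) (huc : polar Q u c = 0) :
    hE.lift u c = hE.lg u c := by
  rcases eq_or_ne u 0 with rfl | hu0
  · rw [lift, dif_neg fun h => h.2 rfl, hE.lg_dep fun h => h.ne_zero 0 rfl]
  · rw [lift, dif_pos (And.intro hu hu0)]
    exact (hE.exists_hom hu hu0).choose_spec.2 c hc huc

theorem lift_is {u a : V} (hu : Q u = 0) (ha : polar Q u a = 0) : Is τ (hE.lift u a) u a := by
  rcases eq_or_ne u 0 with rfl | hu0
  · rw [lift, dif_neg fun h => h.2 rfl]
    exact Is.zero_left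
  refine hE.amb.perp_ind hu hu0 (P := fun a => Is τ (hE.lift u a) u a) (fun x y hx hy h1 h2 => ?_)
    (fun c huc hc => ?_) ha
  · rw [hE.lift_add hu hx hy]; exact h1.mul h2
  · rw [hE.lift_sing hu hc huc]; exact hE.lg_is hu hc huc

/-- The compatible system. -/
theorem exists_sys : Nonempty (Sys τ) :=
  ⟨{ s := hE.lift
     map := fun {u a} hu ha => Subtype.ext (Subtype.ext (LinearEquiv.ext fun v => by
       show act τ (hE.lift u a) v = _
       rw [(hE.lift_is hu ha).2.2 v]
       exact (siegel_apply Q hu ha v).symm))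
     add := fun hu ha hb => hE.lift_add hu ha hb
     conj := fun x {u a} hu ha => by
       rcases eq_or_ne u 0 with rfl | hu0
       · rw [map_zero, lift, dif_neg fun h => h.2 rfl, lift, dif_neg fun h => h.2 rfl, mul_one,
           mul_inv_cancel]
       refine hE.amb.perp_ind hu hu0
         (P := fun a => x * hE.lift u a * x⁻¹ = hE.lift (act τ x u) (act τ x a))
         (fun a b ha hb h1 h2 => ?_) (fun c huc hc => ?_) ha
       · rw [hE.lift_add hu ha hb, map_add, hE.lift_add (by rw [act_Q, hu]) (by rw [act_polar, ha])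
           (by rw [act_polar, hb]), ← h1, ← h2]
         group
       · rw [hE.lift_sing hu hc huc, hE.lg_conj x hu hc huc,
           hE.lift_sing (by rw [act_Q, hu]) (by rw [act_Q, hc]) (by rw [act_polar, huc])]
     smul := fun k {u a} hu ha => by
       rcases eq_or_ne u 0 with rfl | hu0
       · rw [smul_zero, lift, dif_neg fun h => h.2 rfl, lift, dif_neg fun h => h.2 rfl]
       have hku : Q (k • u) = 0 := by rw [QuadraticMap.map_smul, hu, smul_zero]
       refine hE.amb.perp_ind hu hu0 (P := fun a => hE.lift (k • u) a = hE.lift u (k • a))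
         (fun a b ha hb h1 h2 => ?_) (fun c huc hc => ?_) ha
       · rw [smul_add, hE.lift_add hku (by rw [polar_smul_left, ha, smul_zero])
           (by rw [polar_smul_left, hb, smul_zero]), hE.lift_add hu
           (by rw [polar_smul_right, ha, smul_zero]) (by rw [polar_smul_right, hb, smul_zero]),
           h1, h2]
       · rw [hE.lift_sing hku hc (by rw [polar_smul_left, huc, smul_zero]),
           hE.lift_sing hu (by rw [QuadraticMap.map_smul, hc, smul_zero])
             (by rw [polar_smul_right, huc, smul_zero]), hE.lg_smul k hu hc huc]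
     addSelf := fun k {u a} hu ha => by
       rw [hE.lift_add hu ha (by rw [polar_smul_right, pol_self hu, smul_zero]),
         hE.lift_sing (c := k • u) hu (by rw [QuadraticMap.map_smul, hu, smul_zero])
           (by rw [polar_smul_right, pol_self hu, smul_zero]), hE.lg_self, mul_one]
     swap := fun {u a} hu ha hua => by
       rw [hE.lift_sing hu ha hua, hE.lift_sing ha (by rw [QuadraticMap.map_neg, hu])
         (by rw [polar_neg_right, polar_comm, hua, neg_zero]), hE.lg_swap hu ha hua] }⟩

end Ext

end Cfsg.Agent.CentralExt.MinusMult
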