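import Cfsg.Agent.CentralExt.OrthMult.Spin
import Cfsg.Agent.SchurMul.Perfect
import Cfsg.Agent.Classical.OrthOrder

/-!
For twice an odd dimension and `-1` in the Eichler group, the spin group is a stem extension of
the simple quotient with cyclic kernel of order four.
-/

set_option autoImplicit false
set_option linter.unusedSectionVars false
set_option linter.style.haveILetI false

namespace Cfsg.Agent.CentralExt.MinusMult

open QuadraticMap Module Cfsg.Agent.Classical Cfsg.Agent.OrthGen Cfsg.Agent.CentralExt.OrthMult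
open CliffordAlgebra (ι reverse involute)
open scoped commutatorElement

universe u v

variable {F : Type u} [Field F] {V : Type v} [AddCommGroup V] [Module F V]
  {Q : QuadraticForm F V}

/-- The reversal norm of an inverse. -/
theorem mul_reverse_inv (u : (CliffordAlgebra Q)ˣ) {r : F}
    (e : (u : CliffordAlgebra Q) * reverse (u : CliffordAlgebra Q) = algebraMap F _ r) (hr : r ≠ 0) :
    (↑u⁻¹ : CliffordAlgebra Q) * reverse (↑u⁻¹ : CliffordAlgebra Q) = algebraMap F _ r⁻¹ := by
  have h1 : reverse (u : CliffordAlgebra Q) = ↑u⁻¹ * algebraMap F _ r :=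
    (Units.eq_inv_mul_iff_mul_eq u).2 e
  have h2 := congrArg reverse (Units.mul_inv u)
  rw [CliffordAlgebra.reverse.map_mul, h1, CliffordAlgebra.reverse.map_one,
    ← Algebra.commutes r (↑u⁻¹ : CliffordAlgebra Q), ← mul_assoc] at h2
  rw [Units.inv_mul_eq_iff_eq_mul]
  calc reverse (↑u⁻¹ : CliffordAlgebra Q)
      = reverse (↑u⁻¹ : CliffordAlgebra Q) *
          (algebraMap F _ r * (↑u⁻¹ * ↑u) * algebraMap F _ r⁻¹) := by
        simp [← map_mul, hr]
    _ = ↑u * algebraMap F _ r⁻¹ := by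
        simp only [← mul_assoc]
        rw [h2, one_mul]

/-- The pairs whose algebra part times its reversal is one. -/
def normOne (Q : QuadraticForm F V) : Subgroup ((CliffordAlgebra Q)ˣ × OQ Q) where
  carrier := {p | (p.1 : CliffordAlgebra Q) * reverse (p.1 : CliffordAlgebra Q) = 1}
  one_mem' := by simp
  mul_mem' {p q} hp hq := by
    simp only [Set.mem_ofPred_eq, Prod.fst_mul, Units.val_mul, CliffordAlgebra.reverse.map_mul] at *
    rw [mul_assoc, ← mul_assoc (q.1 : CliffordAlgebra Q), hq, one_mul, hp]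
  inv_mem' {p} hp := by
    simp only [Set.mem_ofPred_eq, Prod.fst_inv] at *
    rw [← map_one (algebraMap F (CliffordAlgebra Q))] at hp ⊢
    simpa using mul_reverse_inv p.1 hp one_ne_zero

theorem spinPairs_norm {p : (CliffordAlgebra Q)ˣ × OQ Q} (hp : p ∈ spinPairs Q) :
    ∃ r : F, r ≠ 0 ∧ (p.1 : CliffordAlgebra Q) * reverse (p.1 : CliffordAlgebra Q) =
      algebraMap F _ r := by
  induction hp using Subgroup.closure_induction with
  | mem p hp =>
    obtain ⟨a, b, ha, hb, rfl⟩ := hp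
    refine ⟨Q a * Q b, mul_ne_zero ha hb, ?_⟩
    show ι Q a * ι Q b * reverse (ι Q a * ι Q b) = _
    rw [CliffordAlgebra.reverse.map_mul, CliffordAlgebra.reverse_ι, CliffordAlgebra.reverse_ι,
      mul_assoc, ← mul_assoc (ι Q b) (ι Q b), CliffordAlgebra.ι_sq_scalar, Algebra.commutes,
      ← mul_assoc, CliffordAlgebra.ι_sq_scalar, map_mul]
  | one => exact ⟨1, one_ne_zero, by simp⟩
  | mul x y _ _ hx hy =>
    obtain ⟨r, hr, ex⟩ := hx
    obtain ⟨s, hs, ey⟩ := hy
    refine ⟨r * s, mul_ne_zero hr hs, ?_⟩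
    rw [Prod.fst_mul, Units.val_mul, CliffordAlgebra.reverse.map_mul, mul_assoc,
      ← mul_assoc (y.1 : CliffordAlgebra Q), ey, Algebra.commutes, ← mul_assoc, ex, map_mul]
  | inv x _ hx =>
    obtain ⟨r, hr, ex⟩ := hx
    exact ⟨r⁻¹, inv_ne_zero hr, mul_reverse_inv x.1 ex hr⟩

theorem commutator_le_normOne {p q : (CliffordAlgebra Q)ˣ × OQ Q} (hp : p ∈ spinPairs Q)
    (hq : q ∈ spinPairs Q) : ⁅p, q⁆ ∈ normOne Q := by
  obtain ⟨r, hr, ep⟩ := spinPairs_norm hp
  obtain ⟨s, hs, eq⟩ := spinPairs_norm hq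
  set A := CliffordAlgebra Q
  have mul' : ∀ (x y : A) (r s : F), x * reverse x = algebraMap F A r →
      y * reverse y = algebraMap F A s → (x * y) * reverse (x * y) = algebraMap F A (r * s) := by
    intro x y r s ex ey
    rw [CliffordAlgebra.reverse.map_mul, mul_assoc, ← mul_assoc y, ey, Algebra.commutes,
      ← mul_assoc, ex, map_mul]
  show ((p.1 * q.1 * p.1⁻¹ * q.1⁻¹ : Aˣ) : A) * reverse ((p.1 * q.1 * p.1⁻¹ * q.1⁻¹ : Aˣ) : A) = 1
  simp only [Units.val_mul]
  rw [mul' _ _ _ _ (mul' _ _ _ _ (mul' _ _ _ _ ep eq) (mul_reverse_inv _ ep hr)) (mul_reverse_inv _ eq hs),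
    show r * s * r⁻¹ * s⁻¹ = 1 by field_simp, map_one]

theorem spinPairs_even {p : (CliffordAlgebra Q)ˣ × OQ Q} (hp : p ∈ spinPairs Q) :
    involute (p.1 : CliffordAlgebra Q) = p.1 := by
  induction hp using Subgroup.closure_induction with
  | mem p hp =>
    obtain ⟨a, b, ha, hb, rfl⟩ := hp
    show involute (ι Q a * ι Q b) = ι Q a * ι Q b
    rw [map_mul, CliffordAlgebra.involute_ι, CliffordAlgebra.involute_ι, neg_mul_neg]
  | one => simp
  | mul x y _ _ hx hy => rw [Prod.fst_mul, Units.val_mul, map_mul, hx, hy]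
  | inv x _ hx =>
    have h := congrArg involute (Units.mul_inv x.1)
    rw [map_mul, map_one, hx] at h
    rw [Prod.fst_inv]
    exact ((Units.eq_inv_mul_iff_mul_eq x.1).2 h).trans (mul_one _)

/-- An even element commuting with a spanning orthogonal family is a scalar. -/
theorem scalar_of_commute {κ : Type*} [Fintype κ] [DecidableEq κ] (h2 : (2 : F) ≠ 0) (v : κ → V)
    (hv : ∀ i, Q (v i) ≠ 0) (ho : ∀ i j, i ≠ j → polar Q (v i) (v j) = 0)
    (hspan : Submodule.span F (Set.range v) = ⊤) {c : CliffordAlgebra Q} (hc : involute c = c)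
    (hcomm : ∀ w, c * ι Q w = ι Q w * c) : ∃ r, c = algebraMap F _ r := by
  set S : Finset κ → Subalgebra F (CliffordAlgebra Q) := fun T => Algebra.adjoin F ((fun i => ι Q (v i)) '' T)
  have hanti : ∀ T : Finset κ, ∀ j ∉ T, ∀ a ∈ S T, ι Q (v j) * a = involute a * ι Q (v j) := by
    intro T j hj a ha
    induction ha using Algebra.adjoin_induction with
    | mem a ha =>
      obtain ⟨i, hi, rfl⟩ := ha
      rw [CliffordAlgebra.involute_ι, CliffordAlgebra.ι_mul_ι_comm,
        ho j i (fun e => hj (e ▸ hi)), map_zero, zero_sub, neg_mul]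
    | algebraMap r => rw [AlgHom.commutes, Algebra.commutes]
    | add a b _ _ ha hb => rw [mul_add, ha, hb, map_add, add_mul]
    | mul a b _ _ ha hb => rw [← mul_assoc, ha, mul_assoc, hb, map_mul, mul_assoc]
  have hinv : ∀ T : Finset κ, ∀ a ∈ S T, involute a ∈ S T := by
    intro T a ha
    induction ha using Algebra.adjoin_induction with
    | mem a ha =>
      obtain ⟨i, hi, rfl⟩ := ha
      rw [CliffordAlgebra.involute_ι]
      exact neg_mem (Algebra.subset_adjoin ⟨i, hi, rfl⟩)
    | algebraMap r => rw [AlgHom.commutes]; exact Subalgebra.algebraMap_mem _ r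
    | add a b _ _ ha hb => rw [map_add]; exact add_mem ha hb
    | mul a b _ _ ha hb => rw [map_mul]; exact mul_mem ha hb
  have hdec : ∀ T : Finset κ, ∀ j ∉ T, ∀ z ∈ S (insert j T),
      ∃ a ∈ S T, ∃ b ∈ S T, z = a + b * ι Q (v j) := by
    intro T j hj z hz
    induction hz using Algebra.adjoin_induction with
    | mem z hz =>
      obtain ⟨i, hi, rfl⟩ := hz
      rcases Finset.mem_insert.1 hi with rfl | hi
      · exact ⟨0, zero_mem _, 1, one_mem _, by simp⟩
      · exact ⟨_, Algebra.subset_adjoin ⟨i, hi, rfl⟩, 0, zero_mem _, by simp⟩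
    | algebraMap r => exact ⟨_, Subalgebra.algebraMap_mem _ r, 0, zero_mem _, by simp⟩
    | add x y _ _ hx hy =>
      obtain ⟨a, ha, b, hb, rfl⟩ := hx
      obtain ⟨a', ha', b', hb', rfl⟩ := hy
      exact ⟨_, add_mem ha ha', _, add_mem hb hb', by rw [add_mul]; abel⟩
    | mul x y _ _ hx hy =>
      obtain ⟨a, ha, b, hb, rfl⟩ := hx
      obtain ⟨a', ha', b', hb', rfl⟩ := hy
      refine ⟨a * a' + b * involute b' * algebraMap F (CliffordAlgebra Q) (Q (v j)),
        add_mem (mul_mem ha ha') (mul_mem (mul_mem hb (hinv T _ hb')) (Subalgebra.algebraMap_mem _ _)),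
        a * b' + b * involute a', add_mem (mul_mem ha hb') (mul_mem hb (hinv T _ ha')), ?_⟩
      have e1 := hanti T j hj a' ha'
      have e2 := hanti T j hj b' hb'
      calc (a + b * ι Q (v j)) * (a' + b' * ι Q (v j))
          = a * a' + a * b' * ι Q (v j) + b * (ι Q (v j) * a') +
              b * (ι Q (v j) * b') * ι Q (v j) := by noncomm_ring
        _ = _ := by
          rw [e1, e2, ← CliffordAlgebra.ι_sq_scalar]
          noncomm_ring
  have key : ∀ T : Finset κ, c ∈ S T → ∃ r, c = algebraMap F (CliffordAlgebra Q) r := by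
    intro T
    induction T using Finset.induction_on with
    | empty =>
      intro h
      simp only [S, Finset.coe_empty, Set.image_empty, Algebra.adjoin_empty] at h
      obtain ⟨r, hr⟩ := Algebra.mem_bot.1 h
      exact ⟨r, hr.symm⟩
    | insert j T hj ih =>
      intro h
      refine ih ?_
      obtain ⟨a, ha, b, hb, e⟩ := hdec T j hj c h
      set e' := ι Q (v j) with he'
      have h1 : c = involute a - involute b * e' := by
        conv_lhs => rw [← hc, e]
        rw [map_add, map_mul, he', CliffordAlgebra.involute_ι, mul_neg, sub_eq_add_neg]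
      have h3 : e' * c = (involute a + involute b * e') * e' := by
        rw [e, mul_add, ← mul_assoc, hanti T j hj a ha, hanti T j hj b hb, ← he', add_mul]
      have h4 : c * e' = (involute a + involute b * e') * e' := (hcomm (v j)).trans h3
      have h5 : c = involute a + involute b * e' :=
        (vUnit Q (hv j)).isUnit.mul_left_injective h4
      have h6 : (2 : F) • c = (2 : F) • involute a := by
        rw [two_smul, two_smul]
        nth_rewrite 2 [h5]
        rw [h1]
        abel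
      rw [show c = involute a from smul_right_injective (CliffordAlgebra Q) h2 h6]
      exact hinv T a ha
  refine key Finset.univ ?_
  have htop : S Finset.univ = ⊤ := by
    rw [eq_top_iff, ← CliffordAlgebra.adjoin_range_ι]
    refine Algebra.adjoin_le ?_
    rintro _ ⟨w, rfl⟩
    have hw : ι Q w ∈ (Submodule.span F (Set.range v)).map (ι Q) :=
      Submodule.mem_map_of_mem (hspan ▸ Submodule.mem_top)
    rw [Submodule.map_span] at hw
    refine (Submodule.span_le (p := Subalgebra.toSubmodule (S Finset.univ))).2 ?_ hw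
    rintro _ ⟨_, ⟨i, rfl⟩, rfl⟩
    exact Algebra.subset_adjoin ⟨i, by simp, rfl⟩
  rw [htop]
  exact Algebra.mem_top

/-- The product of the first `2 * k` vectors of an orthogonal family. -/
theorem exists_pairs_neg {n : ℕ} (v : ℕ → V) (hv : ∀ i < n, Q (v i) ≠ 0)
    (ho : ∀ i j, i < n → j < n → i ≠ j → polar Q (v i) (v j) = 0) :
    ∀ k, 2 * k ≤ n → ∃ p ∈ spinPairs Q, ∃ r : F,
      (p.1 : CliffordAlgebra Q) * p.1 = algebraMap F _ ((-1) ^ k * r) ∧
      (p.1 : CliffordAlgebra Q) * reverse (p.1 : CliffordAlgebra Q) = algebraMap F _ r ∧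
      (∀ i < 2 * k, (p.2 : V ≃ₗ[F] V) (v i) = -v i) ∧
      (∀ i, 2 * k ≤ i → i < n → (p.2 : V ≃ₗ[F] V) (v i) = v i ∧
        (p.1 : CliffordAlgebra Q) * ι Q (v i) = ι Q (v i) * p.1)
  | 0, _ => ⟨1, one_mem _, 1, by simp, by simp, fun i hi => absurd hi (by omega),
      fun i _ _ => ⟨rfl, by simp⟩⟩
  | k + 1, hk => by
    obtain ⟨p, hp, r, h1, h2, h3, h4⟩ := exists_pairs_neg v hv ho k (by omega)
    set a := v (2 * k) with hadef
    set b := v (2 * k + 1) with hbdef
    have ha : Q a ≠ 0 := hv _ (by omega)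
    have hb : Q b ≠ 0 := hv _ (by omega)
    have hab : polar Q a b = 0 := ho _ _ (by omega) (by omega) (by omega)
    have anti : ∀ {x y : V}, polar Q x y = 0 → ι Q y * ι Q x = -(ι Q x * ι Q y) := by
      intro x y h
      rw [CliffordAlgebra.ι_mul_ι_comm y x, polar_comm, h, map_zero, zero_sub]
    have hca := (h4 (2 * k) le_rfl (by omega)).2
    have hcb := (h4 (2 * k + 1) (by omega) (by omega)).2
    rw [← hadef] at hca
    rw [← hbdef] at hcb
    refine ⟨p * spinPair Q ha hb, mul_mem hp (Subgroup.subset_closure ⟨a, b, ha, hb, rfl⟩),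
      r * (Q a * Q b), ?_, ?_, ?_, ?_⟩
    · show (p.1 : CliffordAlgebra Q) * (ι Q a * ι Q b) * (p.1 * (ι Q a * ι Q b)) = _
      have hcm : ι Q a * ι Q b * (p.1 : CliffordAlgebra Q) = p.1 * (ι Q a * ι Q b) := by
        rw [mul_assoc, ← hcb, ← mul_assoc, ← hca, mul_assoc]
      calc (p.1 : CliffordAlgebra Q) * (ι Q a * ι Q b) * (p.1 * (ι Q a * ι Q b))
          = (p.1 : CliffordAlgebra Q) * (ι Q a * ι Q b * p.1) * (ι Q a * ι Q b) := by
            simp only [mul_assoc]
        _ = (p.1 : CliffordAlgebra Q) * p.1 * (ι Q a * (ι Q b * ι Q a) * ι Q b) := by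
            rw [hcm]; simp only [mul_assoc]
        _ = -(algebraMap F _ ((-1) ^ k * r) * (algebraMap F _ (Q a) * algebraMap F _ (Q b))) := by
            rw [h1, anti hab, ← CliffordAlgebra.ι_sq_scalar, ← CliffordAlgebra.ι_sq_scalar]
            simp only [mul_neg, neg_mul, mul_assoc]
        _ = _ := by
            rw [← map_mul, ← map_mul, ← map_neg]
            congr 1
            ring
    · show (p.1 : CliffordAlgebra Q) * (ι Q a * ι Q b) *
        reverse ((p.1 : CliffordAlgebra Q) * (ι Q a * ι Q b)) = _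
      rw [CliffordAlgebra.reverse.map_mul, CliffordAlgebra.reverse.map_mul,
        CliffordAlgebra.reverse_ι, CliffordAlgebra.reverse_ι]
      calc (p.1 : CliffordAlgebra Q) * (ι Q a * ι Q b) * (ι Q b * ι Q a * reverse ↑p.1)
          = (p.1 : CliffordAlgebra Q) * (ι Q a * (ι Q b * ι Q b) * ι Q a) * reverse ↑p.1 := by
            simp only [mul_assoc]
        _ = (p.1 : CliffordAlgebra Q) * algebraMap F _ (Q a * Q b) * reverse ↑p.1 := by
            rw [CliffordAlgebra.ι_sq_scalar Q b, ← Algebra.commutes (Q b) (ι Q a),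
              mul_assoc (algebraMap F (CliffordAlgebra Q) (Q b)), CliffordAlgebra.ι_sq_scalar,
              ← map_mul, mul_comm (Q b)]
        _ = _ := by
            rw [← Algebra.commutes, mul_assoc, h2, ← map_mul, mul_comm]
    · intro i hi
      show (p.2 : V ≃ₗ[F] V) ((reflQ Q a ha : V ≃ₗ[F] V) ((reflQ Q b hb : V ≃ₗ[F] V) (v i))) = _
      rcases Nat.lt_or_ge i (2 * k) with h | h
      · rw [reflQ_fix Q hb (ho _ _ (by omega) (by omega) (by omega)),
          reflQ_fix Q ha (ho _ _ (by omega) (by omega) (by omega)), h3 i h]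
      · rcases (show i = 2 * k ∨ i = 2 * k + 1 by omega) with rfl | rfl
        · rw [reflQ_fix Q hb (ho _ _ (by omega) (by omega) (by omega)), ← hadef, reflQ_self Q ha,
            map_neg, (h4 (2 * k) le_rfl (by omega)).1]
        · rw [← hbdef, reflQ_self Q hb, map_neg, reflQ_fix Q ha hab, map_neg,
            (h4 (2 * k + 1) (by omega) (by omega)).1]
    · intro i hi hin
      obtain ⟨e1, e2⟩ := h4 i (by omega) hin
      have o1 : polar Q a (v i) = 0 := ho _ _ (by omega) hin (by omega)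
      have o2 : polar Q b (v i) = 0 := ho _ _ (by omega) hin (by omega)
      refine ⟨?_, ?_⟩
      · show (p.2 : V ≃ₗ[F] V) ((reflQ Q a ha : V ≃ₗ[F] V) ((reflQ Q b hb : V ≃ₗ[F] V) (v i))) = _
        rw [reflQ_fix Q hb o2, reflQ_fix Q ha o1, e1]
      · show (p.1 : CliffordAlgebra Q) * (ι Q a * ι Q b) * ι Q (v i) =
          ι Q (v i) * (p.1 * (ι Q a * ι Q b))
        have e : ι Q a * ι Q b * ι Q (v i) = ι Q (v i) * (ι Q a * ι Q b) := by
          rw [← mul_assoc (ι Q (v i)), anti o1, neg_mul, mul_assoc (ι Q a) (ι Q (v i)), anti o2,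
            mul_neg, neg_neg, mul_assoc]
        rw [mul_assoc, e, ← mul_assoc, e2, mul_assoc]

variable [FiniteDimensional F V]

/-- An orthogonal basis, indexed by natural numbers. -/
theorem exists_orth_family (hB : BNondeg Q) (h2 : (2 : F) ≠ 0) :
    ∃ v : ℕ → V, (∀ i < finrank F V, Q (v i) ≠ 0) ∧
      (∀ i j, i < finrank F V → j < finrank F V → i ≠ j → polar Q (v i) (v j) = 0) ∧
      Submodule.span F (Set.range fun i : Fin (finrank F V) => v i) = ⊤ := by
  haveI : Invertible (2 : F) := invertibleOfNonzero h2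
  obtain ⟨w, hw⟩ := LinearMap.BilinForm.exists_orthogonal_basis (B := Q.polarBilin)
    ⟨fun x y => by simp [polar_comm Q x y]⟩
  refine ⟨fun i => if h : i < finrank F V then w ⟨i, h⟩ else 0, fun i hi => ?_,
    fun i j hi hj hij => ?_, ?_⟩
  · simp only [dif_pos hi]
    intro h0
    refine w.ne_zero ⟨i, hi⟩ (hB _ fun y => ?_)
    rw [← w.sum_repr y, ← polarBilin_apply_apply, map_sum, Finset.sum_eq_single ⟨i, hi⟩]
    · rw [map_smul, polarBilin_apply_apply, polar_self, h0]
      simp
    · intro j _ hj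
      rw [map_smul, hw (Ne.symm hj), smul_zero]
    · simp
  · simp only [dif_pos hi, dif_pos hj]
    exact hw (fun h => hij (congrArg Fin.val h))
  · simp only [Fin.is_lt, dif_pos]
    exact w.span_eq

variable [Finite F]

/-- The spin group over the simple quotient: a stem extension with cyclic kernel of order four. -/
theorem exists_spin_four (hB : BNondeg Q) (h2 : (2 : F) ≠ 0) {l : ℕ} (hdim : finrank F V = 2 * l)
    (hl : Odd l) (hn : 7 ≤ finrank F V) (hneg : negQ Q ∈ EQ Q) (hperf : ⁅EQ Q, EQ Q⁆ = EQ Q)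
    (hcen : ∀ g ∈ Subgroup.center (EQ Q), g = 1 ∨ g.1 = negQ Q) :
    ∃ (E : Subgroup ((CliffordAlgebra Q)ˣ × OQ Q))
      (θ : E →* EQ Q ⧸ Subgroup.center (EQ Q)),
      IsStemExtension θ ∧ IsCyclic θ.ker ∧ Nat.card θ.ker = 4 := by
  letI : Invertible (2 : F) := invertibleOfNonzero h2
  have hn5 : 5 ≤ finrank F V := by omega
  set A := CliffordAlgebra Q
  set H := spinPairs Q ⊓ (EQ Q).comap (MonoidHom.snd _ _)
  set π : Aˣ × OQ Q →* OQ Q := MonoidHom.snd _ _
  have hHmap : H.map π = EQ Q := by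
    refine le_antisymm (by rintro _ ⟨p, hp, rfl⟩; exact hp.2) fun g hg => ?_
    obtain ⟨p, hp, rfl⟩ := EQ_le_map_spinPairs hB h2 hn5 hg
    exact ⟨p, ⟨hp, hg⟩, rfl⟩
  set E := ⁅H, H⁆ with hEdef
  have hEH : E ≤ H := Subgroup.commutator_le_self _
  have hEN : E ≤ normOne Q :=
    Subgroup.commutator_le.2 fun a ha b hb => commutator_le_normOne ha.1 hb.1
  have hEmap : E.map π = EQ Q := by rw [hEdef, Subgroup.map_commutator, hHmap, hperf]
  have hcenH : ∀ {p}, p ∈ H → π p = 1 → ∀ q, q * p = p * q := fun hp h1 q =>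
    spinPairs_central hp.1 h1 q
  have hperfE : ⁅E, E⁆ = E := by
    refine le_antisymm (Subgroup.commutator_le_self _) ?_
    have hm : (⁅E, E⁆ : Subgroup _).map π = EQ Q := by rw [Subgroup.map_commutator, hEmap, hperf]
    conv_lhs => rw [hEdef]
    rw [Subgroup.commutator_le]
    intro a ha b hb
    obtain ⟨a', ha', ea⟩ : ∃ a' ∈ ⁅E, E⁆, π a' = π a := by
      rw [← Subgroup.mem_map, hm, ← hHmap]; exact Subgroup.mem_map_of_mem _ ha
    obtain ⟨b', hb', eb⟩ : ∃ b' ∈ ⁅E, E⁆, π b' = π b := by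
      rw [← Subgroup.mem_map, hm, ← hHmap]; exact Subgroup.mem_map_of_mem _ hb
    have hle : ⁅E, E⁆ ≤ H := (Subgroup.commutator_le_self _).trans hEH
    have ca := hcenH (mul_mem (inv_mem (hle ha')) ha) (by rw [map_mul, map_inv, ea, inv_mul_cancel])
    have cb := hcenH (mul_mem (inv_mem (hle hb')) hb) (by rw [map_mul, map_inv, eb, inv_mul_cancel])
    obtain ⟨z, hz, rfl⟩ : ∃ z, (∀ q, q * z = z * q) ∧ a = a' * z := ⟨_, ca, by group⟩
    obtain ⟨y, hy, rfl⟩ : ∃ y, (∀ q, q * y = y * q) ∧ b = b' * y := ⟨_, cb, by group⟩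
    have e : ⁅a' * z, b' * y⁆ = ⁅a', b'⁆ := by
      simp only [commutatorElement_def, mul_inv_rev]
      calc a' * z * (b' * y) * (z⁻¹ * a'⁻¹) * (y⁻¹ * b'⁻¹)
          = a' * (z * (b' * y)) * z⁻¹ * a'⁻¹ * y⁻¹ * b'⁻¹ := by group
        _ = a' * b' * (y * a'⁻¹) * y⁻¹ * b'⁻¹ := by rw [← hz (b' * y)]; group
        _ = a' * b' * a'⁻¹ * b'⁻¹ := by rw [← hy a'⁻¹]; group
    rw [e]
    exact mul_mem (mul_mem (mul_mem ha' hb') (inv_mem ha')) (inv_mem hb')
  haveI hPE : Group.IsPerfect E := Subgroup.isPerfect_iff.2 hperfE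
  let θ₀ : E →* EQ Q := (π.comp E.subtype).codRestrict (EQ Q) fun x => (hEH x.2).2
  have hker₀ : ∀ x : E, θ₀ x = 1 ↔ π x.1 = 1 := fun x => Subtype.ext_iff
  have hsurj : Function.Surjective θ₀ := by
    rintro ⟨g, hg⟩
    rw [← hEmap] at hg
    obtain ⟨p, hp, rfl⟩ := hg
    exact ⟨⟨p, hp⟩, rfl⟩
  have hc₀ : θ₀.ker ≤ Subgroup.center E := by
    intro x hx
    rw [Subgroup.mem_center_iff]
    exact fun y => Subtype.ext (hcenH (hEH x.2) ((hker₀ x).1 hx) y.1)
  set μ := QuotientGroup.mk' (Subgroup.center (EQ Q))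
  refine ⟨E, μ.comp θ₀, ⟨(QuotientGroup.mk'_surjective _).comp hsurj,
    Cfsg.Agent.SchurMul.ker_le_center_comp hPE θ₀ hsurj hc₀ μ (QuotientGroup.ker_mk' _).le,
    by rw [hPE.commutator_eq_top]; exact le_top⟩, ?_⟩
  -- elements over the identity
  obtain ⟨v, hv, ho, hspan⟩ := exists_orth_family hB h2
  have hscalar : ∀ p ∈ spinPairs Q, p.2 = 1 → ∃ r, (p.1 : A) = algebraMap F A r := fun p hp h1 =>
    scalar_of_commute h2 (fun i : Fin (finrank F V) => v i) (fun i => hv i i.2)
      (fun i j hij => ho i j i.2 j.2 (fun h => hij (Fin.ext h))) hspan (spinPairs_even hp)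
      fun w => by rw [spinPairs_induces hp w, h1]; rfl
  have hinj : Function.Injective (algebraMap F A) := (algebraMap F A).injective
  have hid : ∀ y : E, π y.1 = 1 → (y.1.1 : A) = 1 ∨ (y.1.1 : A) = -1 := by
    intro y hy
    obtain ⟨r, hr⟩ := hscalar y.1 (hEH y.2).1 hy
    have h := hEN y.2
    change (y.1.1 : A) * reverse (y.1.1 : A) = 1 at h
    rw [hr, CliffordAlgebra.reverse.commutes, ← map_mul, ← map_one (algebraMap F A)] at h
    rcases mul_self_eq_one_iff.1 (hinj h) with rfl | rfl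
    · exact Or.inl (hr.trans (map_one _))
    · exact Or.inr (hr.trans (by rw [map_neg, map_one]))
  -- a lift of `-1`
  obtain ⟨x, hx⟩ := hsurj ⟨_, hneg⟩
  have hxπ : π x.1 = negQ Q := congrArg Subtype.val hx
  obtain ⟨p, hp, r, hp1, hp2, hp3, -⟩ := exists_pairs_neg v hv ho l hdim.ge
  have hpneg : p.2 = negQ Q := by
    refine Subtype.ext (LinearEquiv.toLinearMap_injective ?_)
    refine LinearMap.ext_on_range hspan fun i => ?_
    exact hp3 i (by have := i.2; omega)
  obtain ⟨γ, hγ⟩ := hscalar (p⁻¹ * x.1) (mul_mem (inv_mem hp) (hEH x.2).1) (by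
    show (p.2)⁻¹ * π x.1 = 1
    rw [hpneg, hxπ, inv_mul_cancel])
  have hxA : (x.1.1 : A) = p.1 * algebraMap F A γ := by
    rw [← hγ]
    simp
  have hxN : algebraMap F A (γ * γ * r) = 1 := by
    have h := hEN x.2
    change (x.1.1 : A) * reverse (x.1.1 : A) = 1 at h
    rw [hxA, CliffordAlgebra.reverse.map_mul, CliffordAlgebra.reverse.commutes,
      ← Algebra.commutes γ (p.1 : A)] at h
    have hcg : ∀ (c : F) (y z : A), algebraMap F A c * y * (algebraMap F A c * z) =
        algebraMap F A (c * c) * (y * z) := fun c y z => by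
      rw [mul_assoc, ← mul_assoc y, ← Algebra.commutes c y, map_mul]
      simp only [mul_assoc]
    rw [hcg, hp2, ← map_mul] at h
    exact h
  have hxx : ((x * x : E).1.1 : A) = -1 := by
    show (x.1.1 : A) * x.1.1 = -1
    rw [hxA]
    calc (p.1 : A) * algebraMap F A γ * (p.1 * algebraMap F A γ)
        = algebraMap F A γ * algebraMap F A γ * (p.1 * p.1) := by
          rw [← Algebra.commutes γ (p.1 : A)]
          simp only [mul_assoc]
          rw [← mul_assoc (p.1 : A) (algebraMap F A γ), ← Algebra.commutes γ (p.1 : A), mul_assoc]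
      _ = algebraMap F A (-(γ * γ * r)) := by
          rw [hp1, ← map_mul, ← map_mul, hl.neg_one_pow]
          congr 1
          ring
      _ = -1 := by rw [map_neg, hxN]
  have hne : (-1 : A) ≠ 1 := by
    intro h
    rw [← map_one (algebraMap F A), ← map_neg] at h
    exact h2 (by linear_combination -(hinj h))
  have hsnd : π (x * x : E).1 = 1 := by
    rw [Subgroup.coe_mul, map_mul, hxπ]
    exact Subtype.ext (LinearEquiv.ext fun w => neg_neg w)
  have hord : orderOf x = 2 ^ (1 + 1) := by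
    refine orderOf_eq_prime_pow (fun h => hne ?_) (Subtype.ext (Prod.ext (Units.ext ?_) ?_))
    · rw [← hxx, ← _root_.sq, ← pow_one 2, h]
      rfl
    · show ((x ^ 2 ^ (1 + 1) : E).1.1 : A) = 1
      rw [show x ^ 2 ^ (1 + 1) = (x * x) * (x * x) by simp [pow_succ, mul_assoc], Subgroup.coe_mul, Prod.fst_mul,
        Units.val_mul, hxx]
      simp
    · show π (x ^ 2 ^ (1 + 1) : E).1 = 1
      rw [show x ^ 2 ^ (1 + 1) = (x * x) * (x * x) by simp [pow_succ, mul_assoc], Subgroup.coe_mul, map_mul, hsnd,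
        one_mul]
  have hz : ∀ y : E, π y.1 = 1 → y ∈ Subgroup.zpowers x := by
    intro y hy
    rcases hid y hy with h | h
    · rw [show y = 1 from Subtype.ext (Prod.ext (Units.ext h) hy)]
      exact one_mem _
    · rw [show y = x * x from Subtype.ext (Prod.ext (Units.ext (h.trans hxx.symm))
        (hy.trans hsnd.symm))]
      exact mul_mem (Subgroup.mem_zpowers x) (Subgroup.mem_zpowers x)
  have hkx : (μ.comp θ₀).ker = Subgroup.zpowers x := by
    refine le_antisymm (fun y hy => ?_) (Subgroup.zpowers_le.2 ?_)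
    · rw [MonoidHom.mem_ker, MonoidHom.comp_apply, ← MonoidHom.mem_ker, QuotientGroup.ker_mk'] at hy
      rcases hcen _ hy with e | e
      · exact hz y ((hker₀ y).1 e)
      · have h1 : π (x⁻¹ * y : E).1 = 1 := by
          rw [Subgroup.coe_mul, map_mul, Subgroup.coe_inv, map_inv, hxπ, show π y.1 = negQ Q from e,
            inv_mul_cancel]
        simpa using mul_mem (Subgroup.mem_zpowers x) (hz _ h1)
    · rw [MonoidHom.mem_ker, MonoidHom.comp_apply, ← MonoidHom.mem_ker, QuotientGroup.ker_mk',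
        Subgroup.mem_center_iff, hx]
      exact fun k => Subtype.ext (Subtype.ext (LinearEquiv.ext fun w => by simp))
  rw [hkx]
  exact ⟨inferInstance, by rw [Nat.card_zpowers, hord]; norm_num⟩

/-- The version for a hyperbolic extension. -/
theorem exists_spin_four_hypAdd (hB : BNondeg Q) (h : HasTwoPairs Q) (h2 : (2 : F) ≠ 0) {l : ℕ}
    (hdim : finrank F V + 2 = 2 * l) (hl : Odd l) (hn : 5 ≤ finrank F V)
    (hneg : negQ (hypAdd Q) ∈ EQ (hypAdd Q))
    (hperf : ⁅EQ (hypAdd Q), EQ (hypAdd Q)⁆ = EQ (hypAdd Q)) :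
    ∃ (E : Subgroup ((CliffordAlgebra (hypAdd Q))ˣ × OQ (hypAdd Q)))
      (θ : E →* EQ (hypAdd Q) ⧸ Subgroup.center (EQ (hypAdd Q))),
      IsStemExtension θ ∧ IsCyclic θ.ker ∧ Nat.card θ.ker = 4 :=
  exists_spin_four (bNondeg_hypAdd hB) h2
    (by rw [finrank_prod, finrank_prod, finrank_self, ← hdim]; omega) hl
    (by rw [finrank_prod, finrank_prod, finrank_self]; omega) hneg hperf
    fun g hg => center_EQ_cases hB h g hg

end Cfsg.Agent.CentralExt.MinusMult
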