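/-
The multiplier of `PΩ⁻_{2l}(q)`, `l ≥ 4`.
-/
import Cfsg.Agent.CentralExt.MinusMult.Base
import Cfsg.Agent.CentralExt.MinusMult.Extend
import Cfsg.Agent.CentralExt.MinusMult.SpinFour
import Cfsg.Agent.Classical.OrthFinal

set_option autoImplicit false
set_option linter.unusedSectionVars false
set_option linter.style.haveILetI false

namespace Cfsg.Agent.CentralExt.MinusMult

open Cfsg.Agent.Classical QuadraticMap Module

universe u

variable {F : Type u} [Field F] [Finite F] {a b : F}

theorem finite_EQ (k : ℕ) : Finite (EQ (mForm a b k)) := by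
  haveI : Finite (MSpace F k) := Module.finite_of_finite F
  haveI : Finite (OQ (mForm a b k)) := Finite.of_injective (fun g => (g.1 : _ → _))
    fun x y h => Subtype.ext (LinearEquiv.ext (congrFun h))
  infer_instance

theorem data (hA : (binQF a b).Anisotropic) (k : ℕ) :
    BNondeg (hypExt (k + 2) (binQF a b)) ∧ HasTwoPairs (hypExt (k + 2) (binQF a b)) ∧
      EQ (hypExt (k + 2) (binQF a b)) ⊔ RQ (hypExt (k + 2) (binQF a b)) = ⊤ :=
  (goodCore_binQF hA).hypExt_data k

theorem perfect_EQ (hA : (binQF a b).Anisotropic) (k : ℕ) :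
    ⁅EQ (mForm a b k), EQ (mForm a b k)⁆ = EQ (mForm a b k) :=
  (EQ_perfect (data hA k).1.qNondeg (data hA k).2.1).symm

/-- The multiplier of the Eichler group. -/
theorem card_schurMult_EQ_dvd (hA : (binQF a b).Anisotropic) (k : ℕ) :
    Nat.card (schurMult (EQ (mForm a b k))) ∣ Nat.gcd 2 (Nat.card F ^ 2 - 1) := by
  haveI := finite_EQ (a := a) (b := b) k
  obtain ⟨W, iW, fW, τ, hτ, ⟨i⟩⟩ := exists_schurCover (EQ (mForm a b k))
  obtain ⟨S⟩ := Ext.exists_sys (τ := τ) ⟨amb_minus hA k, hτ.1, hτ.2.1⟩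
  set R := mFr hA k
  have htop : R.G S 0 = ⊤ := by
    refine eq_top_of_sup_ker hτ (eq_top_iff.2 fun x _ => ?_)
    have hU : ∀ v, R.U 0 v := fun v j hj => absurd hj (Nat.not_lt_zero j)
    have hmap : ∀ g : EQ (mForm a b k), g ∈ (R.G S 0).map τ := by
      rintro ⟨g, hg⟩
      induction hg using Subgroup.closure_induction with
      | mem g hg =>
        obtain ⟨u, v, hu, huv, rfl⟩ := hg
        exact ⟨S.s u v, R.s_mem_G S hu huv (hU u) (hU v), S.map hu huv⟩
      | one => exact one_mem _
      | mul g g' hg hg' ih ih' =>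
        rw [show (⟨g * g', mul_mem hg hg'⟩ : EQ (mForm a b k)) = ⟨g, hg⟩ * ⟨g', hg'⟩ from rfl]
        exact mul_mem ih ih'
      | inv g hg ih =>
        rw [show (⟨g⁻¹, inv_mem hg⟩ : EQ (mForm a b k)) = ⟨g, hg⟩⁻¹ from rfl]
        exact inv_mem ih
    obtain ⟨y, hy, e⟩ := hmap (τ x)
    rw [show x = y * (y⁻¹ * x) by group]
    exact mul_mem (Subgroup.mem_sup_left hy) (Subgroup.mem_sup_right (by
      rw [MonoidHom.mem_ker, map_mul, map_inv, e, inv_mul_cancel]))
  rw [← Nat.card_congr i.toEquiv]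
  exact card_ker_dvd hA k S hτ.2.1 fun z hz =>
    R.ker_le_last S (by omega) (htop ▸ Subgroup.mem_top z) hz

theorem negQ_mem_iff (hA : (binQF a b).Anisotropic) (k : ℕ) (hodd : Odd (Nat.card F)) :
    negQ (mForm a b k) ∈ EQ (mForm a b k) ↔ Nat.card F ^ (k + 4) % 4 = 3 := by
  obtain ⟨h1, h2, h3⟩ := data hA k
  obtain ⟨hmem, -⟩ := EQ_index_odd h1 h2 h3 hodd
  have ne2 : (2 : F) ≠ 0 := two_ne_zero_of_odd hodd
  rw [hmem, dickson_neg _ ne2 (fun v => rfl), levelSign_neg ne2 _ (fun v => rfl),
    ← card_level_congr (hypSplit (k + 2)) (hypSplit_spec (k + 2) (binQF a b)),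
    card_level_minus hA (k + 3), finrank_MSpace, neg_one_pow_eq_one_iff_even (by decide),
    neg_one_pow_eq_one_iff_even (by decide), even_half_of_odd_mul (hodd.pow (n := k + 3))
      (Nat.even_iff.2 (by
        have := Nat.odd_iff.1 (hodd.pow (n := k + 3 + 1))
        omega))]
  have := Nat.odd_iff.1 (hodd.pow (n := k + 4))
  simp only [show k + 3 + 1 = k + 4 from rfl]
  constructor
  · rintro ⟨-, h⟩; omega
  · intro h; exact ⟨⟨k + 4, by ring⟩, by omega⟩

set_option maxHeartbeats 1000000 in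
/-- The multiplier of `PΩ⁻_{2l}(q)` for `l = k + 4`. -/
theorem multiplier_minus (hA : (binQF a b).Anisotropic) (k : ℕ) :
    HasCyclicSchurMultiplier (EQ (mForm a b k) ⧸ Subgroup.center (EQ (mForm a b k)))
      (Nat.gcd 4 (Nat.card F ^ (k + 4) + 1)) := by
  classical
  haveI := finite_EQ (a := a) (b := b) k
  obtain ⟨h1, h2, h3⟩ := data hA k
  haveI hP : Group.IsPerfect (EQ (mForm a b k)) := Subgroup.isPerfect_iff.2 (perfect_EQ hA k)
  set σ := QuotientGroup.mk' (Subgroup.center (EQ (mForm a b k)))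
  have hk : σ.ker = Subgroup.center (EQ (mForm a b k)) := QuotientGroup.ker_mk' _
  set G := EQ (mForm a b k) ⧸ Subgroup.center (EQ (mForm a b k))
  have hub : Nat.card (schurMult G) ∣
      Nat.gcd 2 (Nat.card F ^ 2 - 1) * Nat.card (Subgroup.center (EQ (mForm a b k))) := by
    refine (card_schurMult_dvd_mul σ (QuotientGroup.mk'_surjective _) hk.le).trans ?_
    rw [hk]
    exact Nat.mul_dvd_mul_right (card_schurMult_EQ_dvd hA k) _
  have hq1 : 1 ≤ Nat.card F ^ (k + 4) := Nat.one_le_pow _ _ Finite.card_pos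
  rcases odd_or_charTwo (F := F) with hodd | h2c
  · have ne2 : (2 : F) ≠ 0 := two_ne_zero_of_odd hodd
    have hg : Nat.gcd 2 (Nat.card F ^ 2 - 1) = 2 := by
      refine Nat.gcd_eq_left (Nat.dvd_of_mod_eq_zero ?_)
      have := Nat.odd_iff.1 (hodd.pow (n := 2))
      omega
    rw [hg] at hub
    have hm : Nat.card F ^ (k + 4) % 4 = 1 ∨ Nat.card F ^ (k + 4) % 4 = 3 := by
      have := Nat.odd_iff.1 (hodd.pow (n := k + 4)); omega
    rcases hm with hm | hm
    · have hne : negQ (mForm a b k) ∉ EQ (mForm a b k) := fun h => by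
        have := (negQ_mem_iff hA k hodd).1 h; omega
      have hZ := card_center_EQ_one h1 h2 fun h => absurd h hne
      rw [hZ, mul_one] at hub
      rw [(gcd_four_of_mod hm).2]
      obtain ⟨Δ, δ, hδ, hne'⟩ := OrthMult.exists_spin_cover (bNondeg_hypAdd h1) ne2
        (by rw [finrank_MSpace]; omega) (perfect_EQ hA k)
      have hst : IsStemExtension (σ.comp δ) := by
        haveI := SchurMul.perfect_of_stem hP hδ
        exact ⟨(QuotientGroup.mk'_surjective _).comp hδ.1,
          SchurMul.ker_le_center_comp inferInstance δ hδ.1 hδ.2.1 σ hk.le,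
          by rw [Group.IsPerfect.commutator_eq_top]; exact le_top⟩
      have hle : δ.ker ≤ (σ.comp δ).ker := fun x hx => by
        rw [MonoidHom.mem_ker, MonoidHom.comp_apply, MonoidHom.mem_ker.1 hx, map_one]
      have hd := (Subgroup.card_dvd_of_le hle).trans (card_ker_dvd_schurMult hst)
      have h2' : Nat.card (schurMult G) = 2 := by
        rcases (Nat.dvd_prime Nat.prime_two).1 hub with h | h
        · rw [h, Nat.dvd_one] at hd
          exact absurd (Subgroup.card_eq_one.1 hd) hne'
        · exact h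
      exact (hasCyclicSchurMultiplier_iff 2).2 ⟨isCyclic_of_prime_card (p := 2) h2', h2'⟩
    · have hneg := (negQ_mem_iff hA k hodd).2 hm
      rw [card_center_EQ_two h1 h2 ne2 hneg] at hub
      rw [(gcd_four_of_mod' hm).2]
      have hl : Odd (k + 4) := by
        rcases Nat.even_or_odd (k + 4) with ⟨j, hj⟩ | h
        · exfalso
          have e : Nat.card F ^ (k + 4) = (Nat.card F ^ j) * (Nat.card F ^ j) := by
            rw [hj, pow_add]
          rw [e, Nat.mul_mod] at hm
          have := Nat.mod_lt (Nat.card F ^ j) (show 0 < 4 by norm_num)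
          interval_cases (Nat.card F ^ j % 4) <;> omega
        · exact h
      obtain ⟨Δ, θ, hθ, hcyc, hcard⟩ := exists_spin_four_hypAdd h1 h2 ne2 (l := k + 4)
        (by rw [finrank_HypSpace, finrank_fin_fun]; omega) hl
        (by rw [finrank_HypSpace, finrank_fin_fun]; omega) hneg (perfect_EQ hA k)
      refine hasSchurMultiplier_of_stem hθ (hcard ▸ Nat.le_of_dvd (by norm_num) hub) ?_
      rw [← hcard]
      exact (zmodCyclicMulEquiv hcyc).symm
  · haveI := h2c
    have he : Even (Nat.card F) := even_card_of_charTwo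
    have hZ := card_center_EQ_one h1 h2 fun _ => Subtype.ext (LinearEquiv.ext fun v => by
      have : (-1 : F) = 1 := CharTwo.neg_eq 1
      rw [negQ_apply, ← neg_one_smul F v, this, one_smul]; rfl)
    have hg : Nat.gcd 2 (Nat.card F ^ 2 - 1) = 1 := by
      have h4 := Nat.even_iff.1 (he.pow_of_ne_zero (n := 2) (by norm_num))
      have : 0 < Nat.card F ^ 2 := pow_pos Finite.card_pos 2
      exact (Nat.Prime.coprime_iff_not_dvd Nat.prime_two).2 (by omega)
    rw [hZ, hg, mul_one, Nat.dvd_one] at hub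
    rw [(gcd_four_of_even (he.pow_of_ne_zero (by omega)) hq1).2]
    exact hasCyclicSchurMultiplier_one_iff.2 hub

end Cfsg.Agent.CentralExt.MinusMult
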